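import Cfsg.Agent.Lib.Root.R6

/-!
Sets of abstract root subgroups of the subgroup they generate, seen in an ambient group.
-/

set_option autoImplicit false

namespace CA.Root

open Subgroup Cfsg CA.Amb CA.AmbCore CA.AmbRes
open scoped commutatorElement

variable {G : Type*} [Group G] {S : Set (Subgroup G)} {A B C D : Subgroup G}

/-- `S` is a set of abstract root subgroups of the subgroup it generates -/
structure RA (S : Set (Subgroup G)) : Prop where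
  cm : ∀ A ∈ S, Cm A A
  ne : ∀ A ∈ S, A ≠ ⊥
  conj : ∀ A ∈ S, ∀ g ∈ ⨆ B ∈ S, B, cj g A ∈ S
  tri : ∀ A ∈ S, ∀ B ∈ S, Cm A B ∨ RO A B ∨ ∃ C, Ps S A B C

/-- the members of `S` as subgroups of the group they generate -/
abbrev sb (S : Set (Subgroup G)) : Set (Subgroup ↥(⨆ B ∈ S, B)) := (fun A : Subgroup G => A.subgroupOf (⨆ B ∈ S, B)) '' S

theorem le_gen (hA : A ∈ S) : A ≤ ⨆ B ∈ S, B := le_iSup₂_of_le A hA le_rfl

theorem cm_subgroupOf {L : Subgroup G} (hA : A ≤ L) (hB : B ≤ L) : Cm (A.subgroupOf L) (B.subgroupOf L) ↔ Cm A B :=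
  ⟨fun h a ha b hb => congrArg Subtype.val (h ⟨a, hA ha⟩ ha ⟨b, hB hb⟩ hb), fun h a ha b hb => Subtype.ext (h _ ha _ hb)⟩

theorem Ps.sb (h : Ps S A B C) : Ps (sb S) (A.subgroupOf _) (B.subgroupOf _) (C.subgroupOf _) := by
  have a := le_gen h.m1
  have b := le_gen h.m2
  have c := le_gen h.m3
  refine ⟨⟨_, h.m1, rfl⟩, ⟨_, h.m2, rfl⟩, ⟨_, h.m3, rfl⟩, ?_, (cm_subgroupOf c a).2 h.c1, (cm_subgroupOf c b).2 h.c2,
    fun x hx x1 y hy => ?_, fun x hx x1 y hy => ?_⟩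
  · rw [← map_subtype_inj, map_commutator, map_subgroupOf_eq_of_le a, map_subgroupOf_eq_of_le b,
      map_subgroupOf_eq_of_le c, h.eq]
  · obtain ⟨z, hz, e⟩ := h.s1 x hx (fun k => x1 (Subtype.ext k)) y hy
    exact ⟨⟨z, b hz⟩, hz, Subtype.ext e⟩
  · obtain ⟨z, hz, e⟩ := h.s2 x hx (fun k => x1 (Subtype.ext k)) y hy
    exact ⟨⟨z, a hz⟩, hz, Subtype.ext e⟩

theorem RA.rs (h : RA S) : RS (sb S) := by
  refine ⟨?_, ?_, ?_, ?_, ?_⟩
  · rintro _ ⟨A, hA, rfl⟩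
    exact cm_self_iff.1 ((cm_subgroupOf (le_gen hA) (le_gen hA)).2 (h.cm A hA))
  · rintro _ ⟨A, hA, rfl⟩ e
    exact h.ne A hA (by rw [← map_subgroupOf_eq_of_le (le_gen hA)]; exact (map_eq_bot_iff_of_injective _
      (subtype_injective _)).2 e)
  · rw [← map_subtype_inj, ← MonoidHom.range_eq_map, range_subtype]
    refine le_antisymm (map_subtype_le _) (iSup₂_le fun A hA => ?_)
    rw [← map_subgroupOf_eq_of_le (le_gen hA)]
    exact map_mono (le_gen ⟨A, hA, rfl⟩)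
  · rintro _ ⟨A, hA, rfl⟩ g
    exact ⟨_, h.conj A hA g g.2, (cj_subgroupOf g A).symm⟩
  · rintro _ ⟨A, hA, rfl⟩ _ ⟨B, hB, rfl⟩
    rcases h.tri A hA B hB with k | k | ⟨C, k⟩
    · exact Or.inl ((cm_subgroupOf (le_gen hA) (le_gen hB)).2 k).bot
    · exact Or.inr (Or.inl ((ro_subgroupOf (le_gen hA) (le_gen hB)).2 k))
    · exact Or.inr (Or.inr k.sb.case)

theorem Rt.sb (h : Rt S A B) : Rt (sb S) (A.subgroupOf _) (B.subgroupOf _) :=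
  rtg_map (fun A => A.subgroupOf _) (fun _ _ k => .single ⟨⟨_, k.1, rfl⟩, ⟨_, k.2.1, rfl⟩,
    (ro_subgroupOf (le_gen k.1) (le_gen k.2.1)).2 k.2.2⟩) h

theorem rt_of_sb (hA : A ∈ S) (hB : B ∈ S) (h : Rt (sb S) (A.subgroupOf _) (B.subgroupOf _)) : Rt S A B := by
  have := rtg_map (s := FAdj S) (fun A => A.map (Subgroup.subtype _)) (by
    rintro _ _ ⟨⟨C, hC, rfl⟩, ⟨D, hD, rfl⟩, k⟩
    simp only [map_subgroupOf_eq_of_le (le_gen hC), map_subgroupOf_eq_of_le (le_gen hD)]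
    exact .single ⟨hC, hD, (ro_subgroupOf (le_gen hC) (le_gen hD)).1 k⟩) h
  simpa only [map_subgroupOf_eq_of_le (le_gen hA), map_subgroupOf_eq_of_le (le_gen hB)] using this

theorem NI.sb (h : NI S A) (hA : A ∈ S) : NI (sb S) (A.subgroupOf _) :=
  let ⟨B, hB, k⟩ := h; ⟨_, ⟨B, hB, rfl⟩, (ro_subgroupOf (le_gen hA) (le_gen hB)).2 k⟩

theorem RA.rt_cj (h : RA S) (hA : A ∈ S) (hN : NI S A) {g : G} (hg : g ∈ ⨆ B ∈ S, B) : Rt S A (cj g A) :=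
  rt_of_sb hA (h.conj A hA g hg) (cj_subgroupOf ⟨g, hg⟩ A ▸ h.rs.rt_cj ⟨A, hA, rfl⟩ (hN.sb hA) ⟨g, hg⟩)

theorem RA.rt_ps (h : RA S) (p : Ps S A B C) (hA : NI S A) (hC : NI S C) : Rt S A C :=
  rt_of_sb p.m1 p.m3 ((p.sb.ln h.rs (hA.sb p.m1)).rt h.rs (hA.sb p.m1) (hC.sb p.m3))

theorem RA.rt_of_not_cm (h : RA S) (hN : ∀ A ∈ S, NI S A) (hA : A ∈ S) (hB : B ∈ S) (k : ¬ Cm A B) : Rt S A B := by
  rcases h.tri A hA B hB with p | p | ⟨C, p⟩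
  · exact absurd p k
  · exact p.rt hA hB
  · exact (h.rt_ps p (hN _ hA) (hN _ p.m3)).trans (h.rt_ps p.symm (hN _ hB) (hN _ p.m3)).symm

theorem rt_comp (h : Rt S A B) : Rt (componentOf (FAdj S) S A) A B := by
  induction h with
  | refl => exact .refl
  | tail k1 k2 ih => exact ih.tail ⟨⟨k2.1, k1⟩, ⟨k2.2.1, k1.tail k2⟩, k2.2.2⟩

theorem RA.comp_conj (h : RA S) (hN : ∀ A ∈ S, NI S A) (hB : B ∈ componentOf (FAdj S) S A) {g : G}
    (hg : g ∈ ⨆ B ∈ S, B) : cj g B ∈ componentOf (FAdj S) S A :=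
  ⟨h.conj B hB.1 g hg, hB.2.trans (h.rt_cj hB.1 (hN B hB.1) hg)⟩

theorem comp_le : (⨆ B ∈ componentOf (FAdj S) S A, B) ≤ ⨆ B ∈ S, B := iSup₂_le fun _ hB => le_gen hB.1

theorem RA.comp (h : RA S) (hN : ∀ A ∈ S, NI S A) (A : Subgroup G) : RA (componentOf (FAdj S) S A) := by
  refine ⟨fun B hB => h.cm B hB.1, fun B hB => h.ne B hB.1, fun B hB g hg => h.comp_conj hN hB (comp_le hg),
    fun B hB C hC => (h.tri B hB.1 C hC.1).imp_right (Or.imp_right fun ⟨D, p⟩ => ⟨D, hB, hC,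
      ⟨p.m3, hB.2.trans (h.rt_ps p (hN _ p.m1) (hN _ p.m3))⟩, p.eq, p.c1, p.c2, p.s1, p.s2⟩)⟩

theorem comp_ni (hN : ∀ A ∈ S, NI S A) (hB : B ∈ componentOf (FAdj S) S A) : NI (componentOf (FAdj S) S A) B :=
  let ⟨C, hC, k⟩ := hN B hB.1; ⟨C, ⟨hC, hB.2.tail ⟨hB.1, hC, k⟩⟩, k⟩

theorem comp_conn (hB : B ∈ componentOf (FAdj S) S A) (hC : C ∈ componentOf (FAdj S) S A) :
    Rt (componentOf (FAdj S) S A) B C := (rt_comp hB.2).symm.trans (rt_comp hC.2)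

theorem RA.cls (h : RA S) (hne : S.Nonempty) (hc : ∀ A ∈ S, ∀ B ∈ S, Rt S A B) : IsRootSubgroupClass (sb S) := by
  refine ⟨h.rs, hne.image _, ?_⟩
  rintro _ ⟨A, hA, rfl⟩ _ ⟨B, hB, rfl⟩
  exact (hc A hA B hB).sb.exists_cj

theorem Rt.exists_cj_mem (h : Rt S A B) : ∃ g ∈ ⨆ B ∈ S, B, B = cj g A := by
  induction h with
  | refl => exact ⟨1, one_mem _, (cj_one _).symm⟩
  | tail _ k ih =>
    obtain ⟨g, hg, rfl⟩ := ih
    obtain ⟨x, hx, e, -⟩ := RO.swap k.2.2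
    exact ⟨x * g, mul_mem (sup_le (le_gen k.1) (le_gen k.2.1) hx) hg, by rw [← cj_cj, e]⟩

theorem quasisimple_amb {L : Subgroup G} (hp : ⁅L, L⁆ = L) (hnt : ¬ Cm L L)
    (h : ∀ N ≤ L, L ≤ 𝐍 N → L ≤ N ∨ Cm N L) : IsQuasisimple L := by
  refine quasisimple_of ?_ (fun e => hnt fun a ha b hb =>
    congrArg Subtype.val (mem_center_iff.1 (e.ge (mem_top (⟨b, hb⟩ : L))) ⟨a, ha⟩)) fun N hN => ?_
  · rw [← map_subtype_inj, _root_.commutator_def, map_commutator, ← MonoidHom.range_eq_map, range_subtype, hp]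
  · rcases h (N.map L.subtype) (map_subtype_le _) (le_normalizer_iff_cj.2 fun g hg => cj_le_iff'.2 (by
      rintro _ ⟨x, hx, rfl⟩; exact ⟨_, hN.conj_mem x hx ⟨g, hg⟩, rfl⟩)) with k | k
    · refine Or.inl (eq_top_iff.2 fun x _ => ?_)
      obtain ⟨y, hy, e⟩ := k x.2
      rwa [← Subtype.ext e]
    · exact Or.inr fun x hx => mem_center_iff.2 fun g => Subtype.ext (k _ ⟨x, hx, rfl⟩ _ g.2).symm

end CA.Root
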