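import Cfsg.Agent.Lib.Root.Q5
import Cfsg.Agent.Lib.Root.R7
import Cfsg.Agent.Lib.Lin.SLnGen

/-!
Families of subgroups `{1 + a x}` with `x² = 0` as sets of root subgroups; the transvection groups of `SL_n`.
-/

set_option autoImplicit false

namespace CA.RootEx

open Subgroup Cfsg CA.Amb CA.AmbCore CA.AmbRes CA.Root CA.Quad
open scoped commutatorElement MatrixGroups

section Fw

variable {K R G : Type*} [Field K] [Ring R] [Algebra K R] [Group G] {ι : G →* R} {X : Set R} {x y : R}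

/-- the subgroup of the elements `1 + a x` -/
def Ag (K : Type*) [Field K] [Algebra K R] (ι : G →* R) (x : R) : Subgroup G :=
  closure {g | ∃ a : K, ι g = 1 + a • x}

/-- a family of square zero elements giving root subgroups -/
structure Fw (K : Type*) [Field K] [Algebra K R] (ι : G →* R) (X : Set R) : Prop where
  inj : Function.Injective ι
  sq : ∀ x ∈ X, x * x = 0
  ne : ∀ x ∈ X, x ≠ 0
  mem : ∀ x ∈ X, ∀ a : K, ∃ g, ι g = 1 + a • x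
  cjm : ∀ x ∈ X, ∀ g, ι g * x * ι g⁻¹ ∈ X
  tri : ∀ x ∈ X, ∀ y ∈ X, x * y = y * x ∨ (∃ c : K, c ≠ 0 ∧ x * y * x = c • x ∧ y * x * y = c • y) ∨
    (x * y * x = 0 ∧ y * x * y = 0 ∧ x * y - y * x ∈ X)

theorem one_add_mul (hx : x * x = 0) (a b : K) : (1 + a • x) * (1 + b • x) = 1 + (a + b) • x := by
  simp only [mul_add, add_mul, one_mul, mul_one, smul_mul_smul_comm, hx, smul_zero, add_smul]; abel

theorem inv_val {g : G} {a : K} (hx : x * x = 0) (h : ι g = 1 + a • x) : ι g⁻¹ = 1 + (-a) • x := by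
  calc ι g⁻¹ = ι g⁻¹ * ((1 + a • x) * (1 + (-a) • x)) := by rw [one_add_mul hx]; simp
    _ = _ := by rw [← mul_assoc, ← h, ← map_mul]; simp

theorem mem_Ag (hx : x * x = 0) {g : G} : g ∈ Ag K ι x ↔ ∃ a : K, ι g = 1 + a • x := by
  refine ⟨fun h => ?_, fun h => subset_closure h⟩
  induction h using closure_induction with
  | mem x hx => exact hx
  | one => exact ⟨0, by simp⟩
  | mul g k _ _ h1 h2 =>
    obtain ⟨a, h1⟩ := h1; obtain ⟨b, h2⟩ := h2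
    exact ⟨a + b, by rw [map_mul, h1, h2, one_add_mul hx]⟩
  | inv g _ h1 => obtain ⟨a, h1⟩ := h1; exact ⟨-a, inv_val hx h1⟩

theorem ag_smul {c : K} (hc : c ≠ 0) : Ag K ι (c • x) = Ag K ι x := by
  unfold Ag; congr 1; ext g
  exact ⟨fun ⟨a, h⟩ => ⟨a * c, by rw [h, smul_smul]⟩,
    fun ⟨a, h⟩ => ⟨a * c⁻¹, by rw [h, smul_smul, inv_mul_cancel_right₀ hc]⟩⟩

theorem cj_ag (hx : x * x = 0) (g : G) : cj g (Ag K ι x) = Ag K ι (ι g * x * ι g⁻¹) := by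
  have i1 : ι g⁻¹ * ι g = 1 := by rw [← map_mul]; simp
  have i2 : ι g * ι g⁻¹ = 1 := by rw [← map_mul]; simp
  have hy : ι g * x * ι g⁻¹ * (ι g * x * ι g⁻¹) = 0 := by
    calc _ = ι g * x * (ι g⁻¹ * ι g) * x * ι g⁻¹ := by noncomm_ring
      _ = 0 := by rw [i1, mul_one, mul_assoc _ x x, hx]; simp
  ext t
  rw [mem_cj, mem_Ag hx, mem_Ag hy]
  refine exists_congr fun a => ⟨fun h => ?_, fun h => ?_⟩
  · have : t = g * (g⁻¹ * t * g) * g⁻¹ := by group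
    rw [this, map_mul, map_mul, h, mul_add, add_mul, mul_one, i2]; simp
  · rw [map_mul, map_mul, h, mul_add, add_mul, mul_one, i1]
    simp only [mul_smul_comm, smul_mul_assoc, ← mul_assoc, i1, one_mul]
    rw [mul_assoc, i1, mul_one]

theorem comm_val (hx : x * x = 0) (hy : y * y = 0) (h1 : x * y * x = 0) (h2 : y * x * y = 0) {g k : G} {a b : K}
    (hg : ι g = 1 + a • x) (hk : ι k = 1 + b • y) : ι ⁅g, k⁆ = 1 + (a * b) • (x * y - y * x) := by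
  have := comm_ex (x := a • x) (y := b • y) (by rw [smul_mul_smul_comm, hx, smul_zero])
    (by rw [smul_mul_smul_comm, hy, smul_zero]) (by simp only [smul_mul_smul_comm, h1, smul_zero])
    (by simp only [smul_mul_smul_comm, h2, smul_zero])
  simp only [commutatorElement_def, Units.val_mul, ex_val, ex_inv_val, smul_mul_smul_comm] at this
  rw [commutatorElement_def, map_mul, map_mul, map_mul, inv_val hx hg, inv_val hy hk, hg, hk, neg_smul, neg_smul,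
    ← sub_eq_add_neg, ← sub_eq_add_neg, this, smul_sub, mul_comm b a]

namespace Fw

variable (h : Fw K ι X)
include h

theorem one_of {g : G} {a : K} (e : ι g = 1 + a • x) (ha : a = 0) : g = 1 := h.inj (by rw [e, ha]; simp)

theorem cm_iff (hx : x ∈ X) (hy : y ∈ X) : Cm (Ag K ι x) (Ag K ι y) ↔ x * y = y * x := by
  refine ⟨fun c => ?_, fun e g hg k hk => h.inj ?_⟩
  · obtain ⟨g, hg⟩ := h.mem x hx 1
    obtain ⟨k, hk⟩ := h.mem y hy 1
    have := congrArg ι (c g (subset_closure ⟨1, hg⟩) k (subset_closure ⟨1, hk⟩))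
    rw [map_mul, map_mul, hg, hk, one_smul, one_smul] at this
    have e : x * y - y * x = (1 + x) * (1 + y) - (1 + y) * (1 + x) := by noncomm_ring
    rw [← sub_eq_zero, e, this, sub_self]
  · obtain ⟨a, ha⟩ := (mem_Ag (h.sq x hx)).1 hg
    obtain ⟨b, hb⟩ := (mem_Ag (h.sq y hy)).1 hk
    rw [map_mul, map_mul, ha, hb]
    simp only [mul_add, add_mul, mul_one, one_mul, smul_mul_assoc, mul_smul_comm, e]
    module

theorem psl (hx : x ∈ X) (hy : y ∈ X) {c : K} (hc : c ≠ 0) (h1 : x * y * x = c • x) (h2 : y * x * y = c • y) :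
    IsPSL2PairOver K (Ag K ι x) (Ag K ι y) := by
  have hy' : c⁻¹ • y * c⁻¹ • y = 0 := by rw [smul_mul_smul_comm, h.sq y hy, smul_zero]
  have cl : Cl (am K R) 1 x (c⁻¹ • y) := cl_alg (h.sq x hx) hy'
    (by rw [mul_smul_comm, smul_mul_assoc, h1, smul_smul, inv_mul_cancel₀ hc, one_smul])
    (by rw [smul_mul_assoc, smul_mul_smul_comm, h2, smul_smul, inv_mul_cancel_right₀ hc])
  let j : G →* Rˣ := ι.toHomUnits
  have hj : Function.Injective j := fun a b e => h.inj (congrArg Units.val e)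
  have u1 : ∀ a : K, ∃ g, j g = cl.hom (CA.SL2Unip.u a) ∧ ι g = 1 + a • x := fun a => by
    obtain ⟨g, hg⟩ := h.mem x hx a
    exact ⟨g, Units.ext (hg.trans (by rw [← am_mul]; exact (cl.hom_uu a).symm)), hg⟩
  have u2 : ∀ a : K, ∃ g, j g = cl.hom (CA.SL2Unip.l a) ∧ ι g = 1 + a • c⁻¹ • y := fun a => by
    obtain ⟨g, hg⟩ := h.mem y hy (a * c⁻¹)
    rw [← smul_smul] at hg
    exact ⟨g, Units.ext (hg.trans (by rw [← am_mul]; exact (cl.hom_ll a).symm)), hg⟩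
  have hr : ∀ s, cl.hom s ∈ j.range := fun s => by
    have : (⊤ : Subgroup SL(2, K)) ≤ j.range.comap cl.hom := by
      rw [← up_sup_lo]
      refine sup_le (fun g hg => ?_) fun g hg => ?_
      · obtain ⟨a, rfl⟩ := mem_up.1 hg; exact (u1 a).imp fun _ k => k.1
      · obtain ⟨a, rfl⟩ := mem_lo.1 hg; exact (u2 a).imp fun _ k => k.1
    exact this (mem_top s)
  let φ : SL(2, K) →* G := (MonoidHom.ofInjective hj).symm.toMonoidHom.comp (cl.hom.codRestrict _ hr)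
  have hφ : ∀ s, j (φ s) = cl.hom s := fun s => MonoidHom.apply_ofInjective_symm hj _
  have i : Function.Injective φ := fun a b e => cl.hom_inj (fun a e =>
    (smul_eq_zero.1 ((am_mul a x).symm.trans e)).resolve_right (h.ne x hx)) (by rw [← hφ, e, hφ])
  have e1 : (upperUnipotentSL2 K).map φ = Ag K ι x := by
    ext g
    rw [mem_Ag (h.sq x hx)]
    refine ⟨?_, fun ⟨a, ha⟩ => ?_⟩
    · rintro ⟨s, hs, rfl⟩
      obtain ⟨a, rfl⟩ := mem_up.1 hs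
      obtain ⟨g, e, e'⟩ := u1 a
      exact ⟨a, by rw [← hj (e.trans (hφ _).symm), e']⟩
    · obtain ⟨k, e, e'⟩ := u1 a
      exact ⟨_, mem_up.2 ⟨a, rfl⟩, by rw [← hj (e.trans (hφ _).symm)]; exact h.inj (e'.trans ha.symm)⟩
  have e2 : (lowerUnipotentSL2 K).map φ = Ag K ι y := by
    rw [← ag_smul (inv_ne_zero hc)]
    ext g
    rw [mem_Ag hy']
    refine ⟨?_, fun ⟨a, ha⟩ => ?_⟩
    · rintro ⟨s, hs, rfl⟩
      obtain ⟨a, rfl⟩ := mem_lo.1 hs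
      obtain ⟨g, e, e'⟩ := u2 a
      exact ⟨a, by rw [← hj (e.trans (hφ _).symm), e']⟩
    · obtain ⟨k, e, e'⟩ := u2 a
      exact ⟨_, mem_lo.2 ⟨a, rfl⟩, by rw [← hj (e.trans (hφ _).symm)]; exact h.inj (e'.trans ha.symm)⟩
  exact e1 ▸ e2 ▸ psl2_of_inj φ i

theorem ro (hx : x ∈ X) (hy : y ∈ X) {c : K} (hc : c ≠ 0) (h1 : x * y * x = c • x) (h2 : y * x * y = c • y) :
    RO (Ag K ι x) (Ag K ι y) := (ro_of_psl2 (h.psl hx hy hc h1 h2)).1

theorem ps (hx : x ∈ X) (hy : y ∈ X) (h1 : x * y * x = 0) (h2 : y * x * y = 0) (hz : x * y - y * x ∈ X) :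
    Ps (Ag K ι '' X) (Ag K ι x) (Ag K ι y) (Ag K ι (x * y - y * x)) := by
  have sx := h.sq x hx
  have sy := h.sq y hy
  have s1 : ∀ g ∈ Ag K ι x, g ≠ 1 → ∀ t ∈ Ag K ι (x * y - y * x), ∃ k ∈ Ag K ι y, ⁅g, k⁆ = t := by
    intro g hg g1 t ht
    obtain ⟨a, ha⟩ := (mem_Ag sx).1 hg
    obtain ⟨e, he⟩ := (mem_Ag (h.sq _ hz)).1 ht
    have a0 : a ≠ 0 := fun k => g1 (h.one_of ha k)
    obtain ⟨k, hk⟩ := h.mem y hy (a⁻¹ * e)
    exact ⟨k, subset_closure ⟨_, hk⟩, h.inj (by rw [comm_val sx sy h1 h2 ha hk, he, mul_inv_cancel_left₀ a0])⟩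
  refine ⟨⟨x, hx, rfl⟩, ⟨y, hy, rfl⟩, ⟨_, hz, rfl⟩, le_antisymm (commutator_le.2 fun g hg k hk => ?_)
    fun t ht => ?_, (h.cm_iff hz hx).2 ?_, (h.cm_iff hz hy).2 ?_, s1, fun k hk k1 t ht => ?_⟩
  · obtain ⟨a, ha⟩ := (mem_Ag sx).1 hg
    obtain ⟨b, hb⟩ := (mem_Ag sy).1 hk
    exact subset_closure ⟨_, comm_val sx sy h1 h2 ha hb⟩
  · obtain ⟨g, hg⟩ := h.mem x hx 1
    have g1 : g ≠ 1 := fun e => h.ne x hx (by rw [e, map_one] at hg; simpa using hg)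
    obtain ⟨k, hk, rfl⟩ := s1 g (subset_closure ⟨1, hg⟩) g1 t ht
    exact commutator_mem_commutator (subset_closure ⟨1, hg⟩) hk
  · rw [sub_mul, mul_sub, ← mul_assoc, ← mul_assoc, h1, sx, mul_assoc, sx]; simp
  · rw [sub_mul, mul_sub, ← mul_assoc y x, ← mul_assoc y y, h2, sy, mul_assoc, sy]; simp
  · obtain ⟨b, hb⟩ := (mem_Ag sy).1 hk
    obtain ⟨e, he⟩ := (mem_Ag (h.sq _ hz)).1 ht
    have b0 : b ≠ 0 := fun k => k1 (h.one_of hb k)
    obtain ⟨g, hg⟩ := h.mem x hx (e * b⁻¹)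
    exact ⟨g, subset_closure ⟨_, hg⟩, h.inj (by rw [comm_val sx sy h1 h2 hg hb, he, inv_mul_cancel_right₀ b0])⟩

theorem tri' {A B : Subgroup G} (hA : A ∈ Ag K ι '' X) (hB : B ∈ Ag K ι '' X) :
    Cm A B ∨ IsPSL2PairOver K A B ∨ ∃ C, Ps (Ag K ι '' X) A B C := by
  obtain ⟨x, hx, rfl⟩ := hA
  obtain ⟨y, hy, rfl⟩ := hB
  rcases h.tri x hx y hy with e | ⟨c, hc, h1, h2⟩ | ⟨h1, h2, h3⟩
  exacts [Or.inl ((h.cm_iff hx hy).2 e), Or.inr (Or.inl (h.psl hx hy hc h1 h2)),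
    Or.inr (Or.inr ⟨_, h.ps hx hy h1 h2 h3⟩)]

theorem conj {A : Subgroup G} (hA : A ∈ Ag K ι '' X) (g : G) : cj g A ∈ Ag K ι '' X := by
  obtain ⟨x, hx, rfl⟩ := hA
  exact ⟨_, h.cjm x hx g, (cj_ag (h.sq x hx) g).symm⟩

theorem ra : RA (Ag K ι '' X) := by
  refine ⟨?_, ?_, fun A hA g _ => h.conj hA g, fun A hA B hB =>
    (h.tri' hA hB).imp_right (Or.imp_left fun p => (ro_of_psl2 p).1)⟩
  · rintro _ ⟨x, hx, rfl⟩; exact (h.cm_iff hx hx).2 rfl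
  · rintro _ ⟨x, hx, rfl⟩ e
    obtain ⟨g, hg⟩ := h.mem x hx 1
    have : g ∈ Ag K ι x := subset_closure ⟨1, hg⟩
    rw [e, mem_bot] at this
    exact h.ne x hx (by rw [this, map_one] at hg; simpa using hg)

theorem rs (hg : ⨆ A ∈ Ag K ι '' X, A = ⊤) : RS (Ag K ι '' X) :=
  ⟨fun A hA => cm_self_iff.1 (h.ra.cm A hA), h.ra.ne, hg, fun A hA g => h.conj hA g, fun A hA B hB => by
    rcases h.ra.tri A hA B hB with k | k | ⟨C, k⟩
    exacts [Or.inl k.bot, Or.inr (Or.inl k), Or.inr (Or.inr k.case)]⟩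

theorem kroot (hg : ⨆ A ∈ Ag K ι '' X, A = ⊤) : IsKRootSubgroupSet K (Ag K ι '' X) :=
  ⟨h.rs hg, fun A hA B hB k => by
    rcases h.tri' hA hB with p | p | ⟨C, p⟩
    exacts [absurd p (RO.not_cm k), p, absurd k (p.not_ro (h.rs hg))]⟩

end Fw

theorem psl_subgroupOf {A B L : Subgroup G} (p : IsPSL2PairOver K A B) (hA : A ≤ L) (hB : B ≤ L) :
    IsPSL2PairOver K (A.subgroupOf L) (B.subgroupOf L) := by
  obtain ⟨φ, h1, h2, h3, h4⟩ := p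
  have hr : ∀ s, φ s ∈ L := fun s => sup_le hA hB (h1 ▸ ⟨s, rfl⟩)
  have e : L.subtype.comp (φ.codRestrict L hr) = φ := rfl
  refine ⟨φ.codRestrict L hr, ?_, by rwa [MonoidHom.ker_codRestrict], ?_, ?_⟩
  · rw [← map_subtype_inj, MonoidHom.map_range, e, h1, Subgroup.map_sup, map_subgroupOf_eq_of_le hA,
      map_subgroupOf_eq_of_le hB]
  · rw [← map_subtype_inj, map_map, e, h3, map_subgroupOf_eq_of_le hA]
  · rw [← map_subtype_inj, map_map, e, h4, map_subgroupOf_eq_of_le hB]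

theorem Fw.kroot_sb (h : Fw K ι X) : IsKRootSubgroupSet K (sb (Ag K ι '' X)) := by
  refine ⟨h.ra.rs, ?_⟩
  rintro _ ⟨A, hA, rfl⟩ _ ⟨B, hB, rfl⟩ k
  rcases h.tri' hA hB with p | p | ⟨C, p⟩
  · exact absurd ((cm_subgroupOf (le_gen hA) (le_gen hB)).2 p) (RO.not_cm k)
  · exact psl_subgroupOf p (le_gen hA) (le_gen hB)
  · exact absurd k (p.sb.not_ro h.ra.rs)

theorem degenerate {S : Set (Subgroup G)} (hS : RS S) (h : ∀ A ∈ S, ∀ B ∈ S, Cm A B ∨ RO A B) :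
    IsDegenerateRootSet S := fun A hA B hB k =>
  (h A hA B hB).elim ((ps_of_case hA hB k).not_cm hS) ((ps_of_case hA hB k).not_ro hS)

theorem cls_of_rt {S : Set (Subgroup G)} (hne : S.Nonempty) (h : ∀ A ∈ S, ∀ B ∈ S, Rt S A B) :
    IsConjClassOfSubgroups S := ⟨hne, fun A hA B hB => (h A hA B hB).exists_cj⟩

end Fw

/-! ### transvections of `SL_n` -/

section SL

open Matrix

variable {n F : Type*} [Fintype n] [DecidableEq n] [Field F] {p φ r ψ : n → F}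

/-- the inclusion of `SL_n` in the matrices -/
def slι (n F : Type*) [Fintype n] [DecidableEq n] [Field F] : SpecialLinearGroup n F →* Matrix n n F where
  toFun g := g.1
  map_one' := rfl
  map_mul' _ _ := rfl

/-- nilpotent matrices of rank one -/
def XL (n F : Type*) [Fintype n] [Field F] : Set (Matrix n n F) :=
  {x | ∃ p φ : n → F, p ≠ 0 ∧ φ ≠ 0 ∧ φ ⬝ᵥ p = 0 ∧ x = vecMulVec p φ}

theorem vv (p φ r ψ : n → F) : vecMulVec p φ * vecMulVec r ψ = (φ ⬝ᵥ r) • vecMulVec p ψ := by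
  rw [vecMulVec_mul_vecMulVec, vecMulVec_smul]

theorem vvv (p φ r ψ : n → F) : vecMulVec p φ * vecMulVec r ψ * vecMulVec p φ =
    ((φ ⬝ᵥ r) * (ψ ⬝ᵥ p)) • vecMulVec p φ := by rw [vv, smul_mul_assoc, vv, smul_smul]

theorem smul_mem_XL {x : Matrix n n F} (hx : x ∈ XL n F) {c : F} (hc : c ≠ 0) : c • x ∈ XL n F := by
  obtain ⟨p, φ, h1, h2, h3, rfl⟩ := hx
  exact ⟨p, c • φ, h1, smul_ne_zero hc h2, by rw [smul_dotProduct, h3, smul_zero], (vecMulVec_smul ..).symm⟩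

theorem fwL : Fw F (slι n F) (XL n F) := by
  refine ⟨fun a b e => Subtype.ext e, ?_, ?_, ?_, ?_, ?_⟩
  · rintro _ ⟨p, φ, -, -, h3, rfl⟩; rw [vv, h3, zero_smul]
  · rintro _ ⟨p, φ, h1, h2, -, rfl⟩; exact vecMulVec_ne_zero h1 h2
  · rintro _ ⟨p, φ, -, -, h3, rfl⟩ a
    refine ⟨⟨1 + a • vecMulVec p φ, ?_⟩, rfl⟩
    rw [← vecMulVec_smul, vecMulVec_eq Unit, det_one_add_replicateCol_mul_replicateRow, smul_dotProduct, h3]; simp
  · rintro _ ⟨p, φ, h1, h2, h3, rfl⟩ g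
    have i1 : slι n F g⁻¹ * slι n F g = 1 := by rw [← map_mul]; simp
    refine ⟨slι n F g *ᵥ p, φ ᵥ* slι n F g⁻¹, fun e => h1 ?_, fun e => h2 ?_, ?_, ?_⟩
    · rw [← one_mulVec p, ← i1, ← mulVec_mulVec, e, mulVec_zero]
    · rw [← vecMul_one φ, ← i1, ← vecMul_vecMul, e, zero_vecMul]
    · rw [← dotProduct_mulVec, mulVec_mulVec, i1, one_mulVec, h3]
    · rw [mul_vecMulVec, vecMulVec_mul]
  · rintro _ ⟨p, φ, h1, h2, h3, rfl⟩ _ ⟨r, ψ, k1, k2, k3, rfl⟩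
    by_cases a : φ ⬝ᵥ r = 0 <;> by_cases b : ψ ⬝ᵥ p = 0
    · left; rw [vv, vv, a, b, zero_smul, zero_smul]
    · refine Or.inr (Or.inr ⟨by rw [vvv, a]; simp, by rw [vvv, a]; simp, ?_⟩)
      rw [vv, vv, a, zero_smul, zero_sub, ← neg_smul]
      exact smul_mem_XL ⟨r, φ, k1, h2, a, rfl⟩ (neg_ne_zero.2 b)
    · refine Or.inr (Or.inr ⟨by rw [vvv, b]; simp, by rw [vvv, b]; simp, ?_⟩)
      rw [vv, vv, b, zero_smul, sub_zero]
      exact smul_mem_XL ⟨p, ψ, h1, k2, b, rfl⟩ a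
    · exact Or.inr (Or.inl ⟨_, mul_ne_zero a b, vvv .., by rw [vvv, mul_comm]⟩)

theorem exists_dot (h : φ ≠ 0) : ∃ r, φ ⬝ᵥ r = 1 := by
  obtain ⟨i, hi⟩ := Function.ne_iff.1 h
  exact ⟨Pi.single i (φ i)⁻¹, by rw [dotProduct_single, mul_inv_cancel₀ hi]⟩

theorem exists_dot2 (h : φ ≠ 0) (h' : ψ ≠ 0) : ∃ r, φ ⬝ᵥ r ≠ 0 ∧ ψ ⬝ᵥ r ≠ 0 := by
  obtain ⟨r, hr⟩ := exists_dot h
  obtain ⟨s, hs⟩ := exists_dot h'
  by_cases a : ψ ⬝ᵥ r = 0
  · by_cases b : φ ⬝ᵥ s = 0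
    · exact ⟨r + s, by simp [hr, b], by simp [hs, a]⟩
    · exact ⟨s, b, by simp [hs]⟩
  · exact ⟨r, by simp [hr], a⟩

theorem exists_op (h1 : p ≠ 0) (h3 : φ ⬝ᵥ p = 0) (hr : φ ⬝ᵥ r ≠ 0) : ∃ ψ, ψ ⬝ᵥ p = 1 ∧ ψ ⬝ᵥ r = 0 := by
  obtain ⟨s, hs⟩ := exists_dot h1
  refine ⟨s - (s ⬝ᵥ r / φ ⬝ᵥ r) • φ, ?_, ?_⟩
  · rw [sub_dotProduct, smul_dotProduct, h3, dotProduct_comm, hs]; simp
  · rw [sub_dotProduct, smul_dotProduct, smul_eq_mul, div_mul_cancel₀ _ hr, sub_self]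

theorem ro_L (h1 : p ≠ 0) (h2 : φ ≠ 0) (h3 : φ ⬝ᵥ p = 0) (k3 : ψ ⬝ᵥ r = 0) (a : φ ⬝ᵥ r ≠ 0) (b : ψ ⬝ᵥ p ≠ 0) :
    vecMulVec r ψ ∈ XL n F ∧ RO (Ag F (slι n F) (vecMulVec p φ)) (Ag F (slι n F) (vecMulVec r ψ)) := by
  have : vecMulVec r ψ ∈ XL n F := ⟨r, ψ, by rintro rfl; simp at a, by rintro rfl; simp at b, k3, rfl⟩
  exact ⟨this, fwL.ro ⟨p, φ, h1, h2, h3, rfl⟩ this (mul_ne_zero a b) (vvv ..) (by rw [vvv, mul_comm])⟩

theorem niL : ∀ A ∈ Ag F (slι n F) '' XL n F, NI (Ag F (slι n F) '' XL n F) A := by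
  rintro _ ⟨_, ⟨p, φ, h1, h2, h3, rfl⟩, rfl⟩
  obtain ⟨r, hr⟩ := exists_dot h2
  obtain ⟨ψ, k1, k2⟩ := exists_op h1 h3 (r := r) (by simp [hr])
  have := ro_L h1 h2 h3 k2 (by simp [hr]) (by simp [k1])
  exact ⟨_, ⟨_, this.1, rfl⟩, this.2⟩

theorem rtL : ∀ A ∈ Ag F (slι n F) '' XL n F, ∀ B ∈ Ag F (slι n F) '' XL n F,
    Rt (Ag F (slι n F) '' XL n F) A B := by
  rintro _ ⟨_, ⟨p, φ, h1, h2, h3, rfl⟩, rfl⟩ _ ⟨_, ⟨p', φ', h1', h2', h3', rfl⟩, rfl⟩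
  obtain ⟨r, a, a'⟩ := exists_dot2 h2 h2'
  obtain ⟨ψ, k1, k2⟩ := exists_op h1 h3 a
  obtain ⟨hy, k⟩ := ro_L h1 h2 h3 k2 a (by simp [k1])
  have hx : vecMulVec p' φ' ∈ XL n F := ⟨p', φ', h1', h2', h3', rfl⟩
  have m1 : Ag F (slι n F) (vecMulVec p φ) ∈ Ag F (slι n F) '' XL n F := ⟨_, ⟨p, φ, h1, h2, h3, rfl⟩, rfl⟩
  refine Relation.ReflTransGen.trans (k.rt m1 ⟨_, hy, rfl⟩)
    (fwL.ra.rt_of_not_cm niL ⟨_, hy, rfl⟩ ⟨_, hx, rfl⟩ fun c => ?_)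
  have e := (fwL.cm_iff hy hx).1 c
  have e2 : vecMulVec r ψ * (vecMulVec p' φ' * vecMulVec r ψ) = 0 := by
    rw [← mul_assoc, e, mul_assoc, fwL.sq _ hy, mul_zero]
  rw [← mul_assoc, vvv] at e2
  have e3 : ψ ⬝ᵥ p' = 0 := by simpa [a', fwL.ne _ hy] using e2
  rw [vv, vv, e3, zero_smul, eq_comm, smul_eq_zero] at e
  exact e.elim a' (vecMulVec_ne_zero h1' (by rintro rfl; simp at k1))

theorem transvection_eq {i j : n} (c : F) :
    transvection i j c = 1 + c • vecMulVec (Pi.single i (1 : F)) (Pi.single j 1) := by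
  rw [transvection, ← single_eq_single_vecMulVec_single, smul_single, smul_eq_mul, mul_one]

theorem single_mem_XL {i j : n} (h : i ≠ j) : vecMulVec (Pi.single i (1 : F)) (Pi.single j 1) ∈ XL n F :=
  ⟨_, _, by simp, by simp, by simp [h], rfl⟩

theorem genL : ⨆ A ∈ Ag F (slι n F) '' XL n F, A = ⊤ :=
  CA.SLnGen.eq_top_of_transvection fun _ _ h c =>
    le_gen (S := Ag F (slι n F) '' XL n F) ⟨_, single_mem_XL h, rfl⟩
      (Subgroup.subset_closure ⟨c, transvection_eq c⟩)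

theorem eqL {i j : n} (h : i ≠ j) : {A : Subgroup (SpecialLinearGroup n F) | ∃ g : SpecialLinearGroup n F,
    A = conjBy (closure {t : SpecialLinearGroup n F | ∃ c : F, (t : Matrix n n F) = transvection i j c}) g} =
    Ag F (slι n F) '' XL n F := by
  have e : closure {t : SpecialLinearGroup n F | ∃ c : F, (t : Matrix n n F) = transvection i j c} =
      Ag F (slι n F) (vecMulVec (Pi.single i (1 : F)) (Pi.single j 1)) := by
    simp only [transvection_eq]; rfl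
  have m : Ag F (slι n F) (vecMulVec (Pi.single i (1 : F)) (Pi.single j 1)) ∈ Ag F (slι n F) '' XL n F :=
    ⟨_, single_mem_XL h, rfl⟩
  ext A
  rw [e]
  exact ⟨fun ⟨g, hg⟩ => hg ▸ fwL.conj m g, fun hA => (rtL _ m _ hA).exists_cj⟩

theorem ndL {i j k : n} (hij : i ≠ j) (hik : i ≠ k) (hjk : j ≠ k) :
    IsNondegenerateRootSet (Ag F (slι n F) '' XL n F) := by
  have x1 := single_mem_XL (F := F) hij
  have x2 := single_mem_XL (F := F) hik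
  have x3 := single_mem_XL (F := F) hjk
  have p : Ps _ _ _ _ := fwL.ps x1 x3 (by simp [vvv, hik.symm]) (by simp [vvv, hik.symm])
    (by simpa [vv, hik.symm] using x2)
  refine ⟨⟨_, p.m1, _, p.m3, p.ne (fwL.rs genL), p.c1.symm.bot⟩, ?_, ⟨_, p.m1, _, p.m2, p.case⟩⟩
  obtain ⟨B, hB, k⟩ := niL _ p.m1
  exact ⟨_, p.m1, B, hB, k⟩

end SL

end CA.RootEx
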