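import Cfsg.Agent.Lib.Root.E1
import Cfsg.Agent.Lib.Lin.CFormPt
import Cfsg.Agent.Lib.Lin.CFormStd

/-!
Transvection groups of symplectic and unitary groups and Siegel transvection groups of orthogonal groups as root
subgroups.
-/

set_option autoImplicit false
set_option linter.unusedSectionVars false

namespace CA.RootEx

open Subgroup Cfsg CA.Amb CA.AmbCore CA.AmbRes CA.Root CA.CForm CA.CForm.Form Module

variable {F : Type*} [Field F] {V : Type*} [AddCommGroup V] [Module F V] {G : Type*} [Group G]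

/-- the action of a group of isometries -/
def fι {k : Kind F} {f : Form k V} (ρ : G →* f.Isom) : G →* End F V where
  toFun g := ((ρ g : V ≃ₗ[F] V) : V →ₗ[F] V)
  map_one' := by rw [map_one]; rfl
  map_mul' _ _ := by rw [map_mul]; rfl

theorem fι_apply {k : Kind F} {f : Form k V} (ρ : G →* f.Isom) (g : G) (v : V) :
    fι ρ g v = (ρ g : V ≃ₗ[F] V) v := rfl

theorem fι_inj {k : Kind F} {f : Form k V} {ρ : G →* f.Isom} (h : Function.Injective ρ) :
    Function.Injective (fι ρ) := fun _ _ e => h (Subtype.ext (LinearEquiv.toLinearMap_injective e))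

theorem B_fι {k : Kind F} {f : Form k V} (ρ : G →* f.Isom) (g : G) (p v : V) :
    f.B p (fι ρ g⁻¹ v) = f.B (fι ρ g p) v := by
  rw [fι_apply, fι_apply, B_map_left (ρ g).2, map_inv]; rfl

theorem B_fι' {k : Kind F} {f : Form k V} (ρ : G →* f.Isom) (g : G) (p v : V) :
    f.B (fι ρ g p) (fι ρ g v) = f.B p v := B_map (ρ g).2 p v

theorem Q_fι {k : Kind F} {f : Form k V} (ρ : G →* f.Isom) (g : G) (p : V) : f.Q (fι ρ g p) = f.Q p :=
  Q_map (ρ g).2 p

theorem fι_cancel {k : Kind F} {f : Form k V} (ρ : G →* f.Isom) (g : G) (v : V) : fι ρ g (fι ρ g⁻¹ v) = v := by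
  rw [← End.mul_apply, ← map_mul]; simp

section Tv

variable {k : Kind F} {f : Form k V} {K : Type*} [Field K] [Algebra K F] [Module K V] [IsScalarTower K F V]
  [SMulCommClass F K V] {ρ : G →* f.Isom} {l : F} {p r : V}

/-- the nilpotent part of a transvection -/
def tx (f : Form k V) (l : F) (p : V) : End F V := (l • f.B p).smulRight p

theorem tx_apply (v : V) : tx f l p v = (l * f.B p v) • p := rfl

/-- the hypotheses for the family of transvection groups -/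
structure TvH (K : Type*) [Field K] [Algebra K F] (ρ : G →* f.Isom) (l : F) : Prop where
  nd : f.Nondeg
  inj : Function.Injective ρ
  ne : l ≠ 0
  par : ∀ c, k.π (k.ε * c) = 0 ↔ ∃ a : K, c = algebraMap K F a * l
  mem : ∀ p c h, f.Q p = 0 → f.qrefl p c h ∈ ρ.range

/-- the transvections -/
def XT (f : Form k V) (l : F) : Set (End F V) := {x | ∃ p, p ≠ 0 ∧ f.Q p = 0 ∧ x = tx f l p}

theorem txx (p r : V) : tx f l p * tx f l r * tx f l p = (l * l * f.B r p * f.B p r) • tx f l p := by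
  ext v
  simp only [End.mul_apply, tx_apply, map_smul, LinearMap.smul_apply, smul_smul]
  congr 1; ring

theorem TvH.txx (h : TvH K ρ l) (hb : f.B p r ≠ 0) : ∃ c : K, c ≠ 0 ∧
    tx f l p * tx f l r * tx f l p = c • tx f l p ∧ tx f l r * tx f l p * tx f l r = c • tx f l r := by
  have h0 : k.π (k.ε * l) = 0 := (h.par l).2 ⟨1, by simp⟩
  have h1 : k.σ l = -(k.ε * l) := by
    have := k.δπ (k.ε * l)
    rw [h0, map_mul, k.σε, ← mul_assoc k.ε, k.εε] at this
    linear_combination -this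
  have h2 : k.π (k.ε * (l * l * f.B r p * f.B p r * l)) = 0 := by
    have e : k.ε * (l * l * f.B r p * f.B p r * l) =
        -(f.B p r * k.σ (f.B p r) * (l * k.σ l * (k.ε * l))) := by
      rw [f.symm p r, h1]; ring
    rw [e, map_neg, k.π_norm, k.π_norm, h0]; simp
  obtain ⟨a, ha⟩ := (h.par _).1 h2
  have ha' := mul_right_cancel₀ h.ne ha
  refine ⟨a, fun e => ?_, by rw [CA.RootEx.txx, ha', algebraMap_smul], by
    rw [CA.RootEx.txx, mul_right_comm, ha', algebraMap_smul]⟩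
  rw [e, map_zero] at ha'
  exact mul_ne_zero (mul_ne_zero (mul_ne_zero h.ne h.ne) fun e => hb (f.eq_zero_symm e)) hb ha'

theorem TvH.fw (h : TvH K ρ l) : Fw K (fι ρ) (XT f l) := by
  refine ⟨fι_inj h.inj, ?_, ?_, ?_, ?_, ?_⟩
  · rintro _ ⟨p, -, hp, rfl⟩; ext v; simp [tx_apply, f.B_self_of_Q hp]
  · rintro _ ⟨p, p0, -, rfl⟩ e
    obtain ⟨v, hv⟩ := h.nd.exists_B_ne_zero p0
    exact smul_ne_zero (mul_ne_zero h.ne hv) p0 (LinearMap.congr_fun e v)
  · rintro _ ⟨p, -, hp, rfl⟩ a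
    obtain ⟨g, hg⟩ := h.mem p _ ((f.qreflCond_iff_of_Q hp).2 ((h.par _).2 ⟨a, rfl⟩)) hp
    refine ⟨g, LinearMap.ext fun v => ?_⟩
    rw [fι_apply, hg, qrefl_apply, LinearMap.add_apply, LinearMap.smul_apply, tx_apply, ← algebraMap_smul F a,
      smul_smul, mul_assoc]; rfl
  · rintro _ ⟨p, p0, hp, rfl⟩ g
    refine ⟨fι ρ g p, fun e => p0 ((ρ g).1.map_eq_zero_iff.1 e), (Q_fι ..).trans hp, LinearMap.ext fun v => ?_⟩
    rw [End.mul_apply, End.mul_apply, tx_apply, tx_apply, map_smul, B_fι]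
  · rintro _ ⟨p, -, -, rfl⟩ _ ⟨r, -, -, rfl⟩
    by_cases hb : f.B p r = 0
    · left; ext v; simp [tx_apply, hb, f.eq_zero_symm hb]
    · exact Or.inr (Or.inl (h.txx hb))

theorem TvH.ro (h : TvH K ρ l) (p0 : p ≠ 0) (hp : f.Q p = 0) (hr : f.Q r = 0) (hb : f.B p r ≠ 0) :
    tx f l r ∈ XT f l ∧ RO (Ag K (fι ρ) (tx f l p)) (Ag K (fι ρ) (tx f l r)) := by
  have : tx f l r ∈ XT f l := ⟨r, by rintro rfl; simp at hb, hr, rfl⟩
  obtain ⟨c, hc, h1, h2⟩ := h.txx hb
  exact ⟨this, h.fw.ro ⟨p, p0, hp, rfl⟩ this hc h1 h2⟩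

theorem TvH.tri (h : TvH K ρ l) : ∀ A ∈ Ag K (fι ρ) '' XT f l, ∀ B ∈ Ag K (fι ρ) '' XT f l, Cm A B ∨ RO A B := by
  rintro _ ⟨_, ⟨p, p0, hp, rfl⟩, rfl⟩ _ ⟨_, ⟨r, r0, hr, rfl⟩, rfl⟩
  by_cases hb : f.B p r = 0
  · refine Or.inl ((h.fw.cm_iff ⟨p, p0, hp, rfl⟩ ⟨r, r0, hr, rfl⟩).2 ?_)
    ext v; simp [tx_apply, hb, f.eq_zero_symm hb]
  · exact Or.inr (h.ro p0 hp hr hb).2

theorem TvH.deg_sb (h : TvH K ρ l) : IsDegenerateRootSet (sb (Ag K (fι ρ) '' XT f l)) := by
  refine degenerate h.fw.ra.rs ?_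
  rintro _ ⟨A, hA, rfl⟩ _ ⟨B, hB, rfl⟩
  exact (h.tri A hA B hB).imp (cm_subgroupOf (le_gen hA) (le_gen hB)).2 (ro_subgroupOf (le_gen hA) (le_gen hB)).2

variable [FiniteDimensional F V]

theorem TvH.rt (h : TvH K ρ l) : ∀ A ∈ Ag K (fι ρ) '' XT f l, ∀ B ∈ Ag K (fι ρ) '' XT f l,
    Rt (Ag K (fι ρ) '' XT f l) A B := by
  rintro _ ⟨_, ⟨p, p0, hp, rfl⟩, rfl⟩ _ ⟨_, ⟨r, r0, hr, rfl⟩, rfl⟩
  obtain ⟨z, hz, h1, h2⟩ := h.nd.exists_singular_B_ne_zero
    (Or.inr ⟨_, mul_ne_zero k.ε_ne_zero h.ne, (h.par l).2 ⟨1, by simp⟩⟩) hp p0 hr r0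
  obtain ⟨m, k1⟩ := h.ro p0 hp hz h1
  obtain ⟨-, k2⟩ := h.ro r0 hr hz h2
  have m1 : Ag K (fι ρ) (tx f l p) ∈ Ag K (fι ρ) '' XT f l := ⟨_, ⟨p, p0, hp, rfl⟩, rfl⟩
  have m2 : Ag K (fι ρ) (tx f l r) ∈ Ag K (fι ρ) '' XT f l := ⟨_, ⟨r, r0, hr, rfl⟩, rfl⟩
  exact Relation.ReflTransGen.trans (k1.rt m1 ⟨_, m, rfl⟩) (k2.rt m2 ⟨_, m, rfl⟩).symm

theorem TvH.char (h : TvH K ρ l) (p0 : p ≠ 0) (hp : f.Q p = 0) (g : G) :
    (∃ a : K, fι ρ g = 1 + a • tx f l p) ↔
      (∀ v, ∃ c : F, fι ρ g v = v + c • p) ∧ ∀ v, f.B p v = 0 → fι ρ g v = v := by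
  refine ⟨fun ⟨a, ha⟩ => ⟨fun v => ⟨algebraMap K F a * (l * f.B p v), ?_⟩, fun v hv => ?_⟩, fun ⟨h1, h2⟩ => ?_⟩
  · rw [ha, LinearMap.add_apply, LinearMap.smul_apply, tx_apply, mul_smul (algebraMap K F a), algebraMap_smul]; rfl
  · rw [ha]; simp [tx_apply, hv]
  · obtain ⟨y, -, hy⟩ := h.nd.exists_partner hp p0
    obtain ⟨c, hc⟩ := h1 y
    have := Q_fι ρ g y
    rw [hc, f.Q_add_smul_of_Q hp, f.symm p y, hy, map_one, mul_one, mul_comm, add_eq_left] at this
    obtain ⟨a, ha⟩ := (h.par c).1 this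
    refine ⟨a, LinearMap.ext fun v => ?_⟩
    have e := h2 (v - f.B p v • y) (by simp [hy])
    rw [map_sub, map_smul, hc, sub_eq_iff_eq_add] at e
    rw [e, LinearMap.add_apply, LinearMap.smul_apply, tx_apply, ← algebraMap_smul F a, ha]
    simp only [End.one_apply]; module

end Tv

section Sg

variable {f : Form (Kind.orth F) V} {ρ : G →* f.Isom} {p r s t : V}

/-- the nilpotent part of a Siegel transformation -/
def sx (f : Form (Kind.orth F) V) (p r : V) : End F V := (f.B r).smulRight p - (f.B p).smulRight r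

theorem sx_apply (v : V) : sx f p r v = f.B r v • p - f.B p v • r := rfl

/-- `p, r` span a singular line -/
structure SL (f : Form (Kind.orth F) V) (p r : V) : Prop where
  li : ∀ a b : F, a • p + b • r = 0 → a = 0 ∧ b = 0
  qp : f.Q p = 0
  qr : f.Q r = 0
  b : f.B p r = 0

/-- the Siegel transformations -/
def XS (f : Form (Kind.orth F) V) : Set (End F V) := {x | ∃ p r, SL f p r ∧ x = sx f p r}

theorem SL.bpp (h : SL f p r) : f.B p p = 0 := f.B_self_of_Q h.qp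
theorem SL.brr (h : SL f p r) : f.B r r = 0 := f.B_self_of_Q h.qr
theorem SL.brp (h : SL f p r) : f.B r p = 0 := f.eq_zero_symm h.b

theorem SL.swap (h : SL f p r) : SL f r (-p) :=
  ⟨fun a b e => by
    have := h.li (-b) a (by rw [← e]; module)
    exact ⟨this.2, neg_eq_zero.1 this.1⟩, h.qr, by simpa using h.qp, by simp [h.brp]⟩

theorem sx_swap : sx f r (-p) = sx f p r := by ext v; simp [sx_apply]; abel

theorem SL.add (h : SL f p r) (c : F) : SL f p (r + c • p) :=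
  ⟨fun a b e => by
    have := h.li (a + b * c) b (by rw [← e]; module)
    exact ⟨by simpa [this.2] using this.1, this.2⟩, h.qp,
    by rw [f.Q_add_smul_of_Q h.qp, h.qr, h.brp]; simp, by simp [h.b, h.bpp]⟩

theorem sx_add (c : F) : sx f p (r + c • p) = sx f p r := by
  ext v; simp only [sx_apply, B_add_left, orth_B_smul_left]; module

theorem SL.ne (h : SL f p r) : p ≠ 0 := fun e => one_ne_zero (h.li 1 0 (by simp [e])).1

theorem SL.ne' (h : SL f p r) : r ≠ 0 := h.swap.ne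

theorem sxx (p r s t : V) : sx f p r * sx f s t * sx f p r =
    (f.B p t * f.B r s - f.B p s * f.B r t) • sx f p r := by
  ext v
  simp only [End.mul_apply, sx_apply, map_smul, map_sub, LinearMap.smul_apply, smul_eq_mul, f.orth_symm p,
    f.orth_symm r]
  module

theorem sxx' (p r s t : V) : sx f s t * sx f p r * sx f s t =
    (f.B p t * f.B r s - f.B p s * f.B r t) • sx f s t := by
  rw [sxx, f.orth_symm p, f.orth_symm r, f.orth_symm r, f.orth_symm p, mul_comm (f.B r s)]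

theorem tri0 (h : SL f p r) (h' : SL f s t) (hb : f.B p s ≠ 0) (hd : f.B p t * f.B r s - f.B p s * f.B r t = 0) :
    sx f p r * sx f s t = sx f s t * sx f p r ∨ sx f p r * sx f s t - sx f s t * sx f p r ∈ XS f := by
  have k := h.add (-(f.B r s / f.B p s))
  have k' := h'.add (-(f.B p t / f.B p s))
  rw [← sx_add (p := p) (-(f.B r s / f.B p s)), ← sx_add (p := s) (-(f.B p t / f.B p s))]
  have b1 : f.B (r + -(f.B r s / f.B p s) • p) s = 0 := by
    rw [B_add_left, orth_B_smul_left]; field_simp; ring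
  have b2 : f.B p (t + -(f.B p t / f.B p s) • s) = 0 := by
    rw [map_add, map_smul, smul_eq_mul]; field_simp; ring
  have b3 : f.B (r + -(f.B r s / f.B p s) • p) (t + -(f.B p t / f.B p s) • s) = 0 := by
    rw [map_add, map_smul, b1, B_add_left, orth_B_smul_left, smul_zero, add_zero]; field_simp
    linear_combination -hd
  generalize r + -(f.B r s / f.B p s) • p = r' at *
  generalize t + -(f.B p t / f.B p s) • s = t' at *
  have e : sx f p r' * sx f s t' - sx f s t' * sx f p r' = sx f (f.B p s • t') r' := by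
    ext v
    simp only [End.mul_apply, LinearMap.sub_apply, sx_apply, map_smul, map_sub, smul_eq_mul, orth_B_smul_left,
      f.orth_symm p, f.orth_symm r' s, f.orth_symm r' t', b1, b2, b3]
    module
  by_cases li : ∀ a b : F, a • (f.B p s • t') + b • r' = 0 → a = 0 ∧ b = 0
  · exact Or.inr (e ▸ ⟨_, _, ⟨li, f.Q_smul_of_Q k'.qr _, k.qr, by
      rw [orth_B_smul_left, f.eq_zero_symm b3, mul_zero]⟩, rfl⟩)
  · left
    rw [← sub_eq_zero, e]
    simp only [not_forall] at li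
    obtain ⟨a, b, e1, e2⟩ := li
    have b0 : b ≠ 0 := by
      rintro rfl
      rw [zero_smul, add_zero, smul_smul, smul_eq_zero] at e1
      exact e1.elim (fun e => e2 ⟨(mul_eq_zero.1 e).resolve_right hb, rfl⟩) k'.ne'
    have : r' = (-(b⁻¹ * a)) • (f.B p s • t') := by
      rw [neg_smul, mul_smul, ← smul_neg, neg_eq_of_add_eq_zero_right e1, inv_smul_smul₀ b0]
    rw [this]
    ext v; simp only [sx_apply, orth_B_smul_left, LinearMap.zero_apply]; module

variable [FiniteDimensional F V]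

theorem SL.dual (h : SL f p r) (hf : f.Nondeg) (a b : F) : ∃ u, f.B p u = a ∧ f.B r u = b := by
  obtain ⟨u, hu⟩ := hf.exists_B_eq_of_linearIndependent (LinearIndependent.pair_iff.2 h.li) ![a, b]
  exact ⟨u, hu 0, hu 1⟩

theorem fwS (hf : f.Nondeg) (hρ : Function.Bijective ρ) : Fw F (fι ρ) (XS f) := by
  refine ⟨fι_inj hρ.1, ?_, ?_, ?_, ?_, ?_⟩
  · rintro _ ⟨p, r, h, rfl⟩; ext v; simp [sx_apply, h.bpp, h.brr, h.b, h.brp]
  · rintro _ ⟨p, r, h, rfl⟩ e
    obtain ⟨u, h1, h2⟩ := h.dual hf 0 1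
    exact h.ne (by simpa [sx_apply, h1, h2] using LinearMap.congr_fun e u)
  · rintro _ ⟨p, r, h, rfl⟩ a
    obtain ⟨g, hg⟩ := hρ.2 (f.eichler p ((-a) • r) 0 ⟨h.qp, by simp [h.b], by simp [f.Q_smul_of_Q h.qr]⟩)
    refine ⟨g, LinearMap.ext fun v => ?_⟩
    rw [fι_apply, hg, eichler_apply]
    simp only [LinearMap.add_apply, LinearMap.smul_apply, sx_apply, orth_B_smul_left, End.one_apply, Kind.orth_ε]
    module
  · rintro _ ⟨p, r, h, rfl⟩ g
    refine ⟨fι ρ g p, fι ρ g r, ⟨fun a b e => h.li a b ((ρ g).1.map_eq_zero_iff.1 ?_), (Q_fι ..).trans h.qp,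
      (Q_fι ..).trans h.qr, (B_fι' ..).trans h.b⟩, LinearMap.ext fun v => ?_⟩
    · rw [map_add, map_smul, map_smul]; exact e
    · rw [End.mul_apply, End.mul_apply, sx_apply, sx_apply, map_sub, map_smul, map_smul, B_fι, B_fι]
  · rintro _ ⟨p, r, h, rfl⟩ _ ⟨s, t, h', rfl⟩
    by_cases hd : f.B p t * f.B r s - f.B p s * f.B r t = 0
    swap
    · exact Or.inr (Or.inl ⟨_, hd, sxx .., sxx' ..⟩)
    have key : sx f p r * sx f s t = sx f s t * sx f p r ∨ sx f p r * sx f s t - sx f s t * sx f p r ∈ XS f := by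
      by_cases b1 : f.B p s = 0
      · by_cases b2 : f.B p t = 0
        · by_cases b3 : f.B r s = 0
          · by_cases b4 : f.B r t = 0
            · left; ext v
              simp [sx_apply, f.orth_symm p, f.orth_symm r, b1, b2, b3, b4]
            · rw [← sx_swap, ← sx_swap (p := s)]
              exact tri0 h.swap h'.swap b4 (by simp [b1, b2])
          · rw [← sx_swap]; exact tri0 h.swap h' b3 (by simp [b1, b2])
        · rw [← sx_swap (p := s)]
          exact tri0 h h'.swap b2 (by simp only [map_neg]; linear_combination hd)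
      · exact tri0 h h' b1 hd
    exact key.imp_right fun k => Or.inr ⟨by rw [sxx, hd, zero_smul], by rw [sxx', hd, zero_smul], k⟩

theorem charS (hf : f.Nondeg) (h : SL f p r) (g : G) : (∃ a : F, fι ρ g = 1 + a • sx f p r) ↔
    ∀ v, f.B p v = 0 → f.B r v = 0 → fι ρ g v = v := by
  refine ⟨fun ⟨a, ha⟩ v h1 h2 => by rw [ha]; simp [sx_apply, h1, h2], fun hg => ?_⟩
  obtain ⟨u, u1, u2⟩ := h.dual hf 1 0
  obtain ⟨w, w1, w2⟩ := h.dual hf 0 1
  have dec : ∀ v, fι ρ g (v - f.B p v • u - f.B r v • w) = v - f.B p v • u - f.B r v • w := fun v =>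
    hg _ (by simp [u1, w1]) (by simp [u2, w2])
  have key : ∀ v, ∃ a b : F, fι ρ g v = v + a • p + b • r := fun v => by
    refine ⟨f.B u (fι ρ g v - v), f.B w (fι ρ g v - v), hf.eq_of_B_eq_right fun y => ?_⟩
    have := B_fι' ρ g (y - f.B p y • u - f.B r y • w) v
    rw [dec] at this
    simp only [B_sub_left, orth_B_smul_left] at this
    simp only [map_add, map_smul, map_sub, smul_eq_mul, f.orth_symm p y, f.orth_symm r y]
    linear_combination this
  obtain ⟨a, b, e1⟩ := key u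
  obtain ⟨c, d, e2⟩ := key w
  have q1 := Q_fι ρ g u
  have q2 := Q_fι ρ g w
  have q3 := B_fι' ρ g u w
  rw [e1, f.Q_add_smul_of_Q h.qr, f.Q_add_smul_of_Q h.qp] at q1
  rw [e2, f.Q_add_smul_of_Q h.qr, f.Q_add_smul_of_Q h.qp] at q2
  rw [e1, e2] at q3
  have u3 := (f.orth_symm p u).trans u1
  have u4 := (f.orth_symm r u).trans u2
  have w3 := (f.orth_symm p w).trans w1
  have w4 := (f.orth_symm r w).trans w2
  simp [orth_B_smul_left, u1, u2, u3, u4, w1, w2, w3, w4, h.b, h.brp, h.bpp, h.brr] at q1 q2 q3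
  refine ⟨c, LinearMap.ext fun v => ?_⟩
  have := dec v
  rw [map_sub, map_sub, map_smul, map_smul, e1, e2, q1, q2, sub_sub, sub_eq_iff_eq_add] at this
  have hb : b = -c := by linear_combination q3
  rw [this, hb]
  simp only [LinearMap.add_apply, LinearMap.smul_apply, sx_apply, End.one_apply]; module

theorem exists_opS (hf : f.Nondeg) (h5 : 5 ≤ finrank F V) {p' r' : V} (h : SL f p r) (h' : SL f p' r') :
    ∃ s t, SL f s t ∧ f.B p t * f.B r s - f.B p s * f.B r t ≠ 0 ∧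
      f.B p' t * f.B r' s - f.B p' s * f.B r' t ≠ 0 := by
  obtain ⟨s₀, hs₀, a₀, a₀'⟩ := hf.exists_singular_B_ne_zero (Or.inl (by omega)) h.qp h.ne h'.qp h'.ne
  obtain ⟨s, hs, a, a'⟩ : ∃ s, f.Q s = 0 ∧ f.B p s = 1 ∧ f.B p' s ≠ 0 :=
    ⟨(f.B p s₀)⁻¹ • s₀, f.Q_smul_of_Q hs₀ _, by simp [a₀], by simp [a₀, a₀']⟩
  have hy : f.IsHyp p s := ⟨h.qp, hs, a⟩
  have k := h.add (-f.B r s)
  have k' := h'.add (-(f.B r' s / f.B p' s))
  have b1 : f.B (r + -f.B r s • p) s = 0 := by simp [orth_B_smul_left, a]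
  have b2 : f.B (r' + -(f.B r' s / f.B p' s) • p') s = 0 := by
    rw [B_add_left, orth_B_smul_left]; field_simp; ring
  set r₁ := r + -f.B r s • p with hr₁
  set r₂ := r' + -(f.B r' s / f.B p' s) • p' with hr₂
  let W := f.perp (Submodule.span F {p, s})
  have m1 : r₁ ∈ W := f.mem_perp_span_pair.2 ⟨k.b, f.eq_zero_symm b1⟩
  have m2 : r₂ + (-f.B p r₂) • s ∈ W :=
    f.mem_perp_span_pair.2 ⟨by simp [a], by simp [f.eq_zero_symm b2, f.B_self_of_Q hs]⟩
  have n2 : r₂ + (-f.B p r₂) • s ≠ 0 := fun e => by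
    have e1 := congrArg (f.B p') e
    simp [k'.b, a'] at e1
    exact k'.ne' (by simpa [e1] using e)
  obtain ⟨t, ht, c1, c2⟩ := (hf.restrict_perp hy.isCompl.disjoint).exists_singular_B_ne_zero
    (Or.inl (by have := hy.finrank_perp; omega)) (x := ⟨r₁, m1⟩) (x' := ⟨_, m2⟩) k.qr
    (fun e => k.ne' (congrArg Subtype.val e))
    (by change f.Q (r₂ + _) = 0; rw [f.Q_add_smul_of_Q hs, k'.qr, b2]; simp) (fun e => n2 (congrArg Subtype.val e))
  obtain ⟨t1, t2⟩ := f.mem_perp_span_pair.1 t.2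
  change f.B r₁ t ≠ 0 at c1
  change f.B (r₂ + _) t ≠ 0 at c2
  rw [B_add_left, orth_B_smul_left, t2, mul_zero, add_zero, hr₂, B_add_left, orth_B_smul_left] at c2
  rw [hr₁, B_add_left, orth_B_smul_left, t1, mul_zero, add_zero] at c1
  refine ⟨s, t, ⟨fun x y e => ?_, hs, ht, t2⟩, by simpa [t1, a] using c1, fun e => c2 ?_⟩
  · have e1 := congrArg (f.B p) e
    simp [a, t1] at e1
    have e2 := congrArg (f.B r) e
    simp [e1, c1] at e2
    exact ⟨e1, e2⟩
  · field_simp; linear_combination -e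

theorem rtS (hf : f.Nondeg) (hρ : Function.Bijective ρ) (h5 : 5 ≤ finrank F V) :
    ∀ A ∈ Ag F (fι ρ) '' XS f, ∀ B ∈ Ag F (fι ρ) '' XS f, Rt (Ag F (fι ρ) '' XS f) A B := by
  rintro _ ⟨_, ⟨p, r, h, rfl⟩, rfl⟩ _ ⟨_, ⟨p', r', h', rfl⟩, rfl⟩
  obtain ⟨s, t, k, d1, d2⟩ := exists_opS hf h5 h h'
  have m1 : sx f p r ∈ XS f := ⟨p, r, h, rfl⟩
  have m2 : sx f p' r' ∈ XS f := ⟨p', r', h', rfl⟩
  have m3 : sx f s t ∈ XS f := ⟨s, t, k, rfl⟩
  exact Relation.ReflTransGen.trans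
    (((fwS hf hρ).ro m1 m3 d1 (sxx ..) (sxx' ..)).rt (Set.mem_image_of_mem _ m1) (Set.mem_image_of_mem _ m3))
    (((fwS hf hρ).ro m2 m3 d2 (sxx ..) (sxx' ..)).rt (Set.mem_image_of_mem _ m2) (Set.mem_image_of_mem _ m3)).symm

end Sg

end CA.RootEx
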