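import Cfsg.Agent.Lib.Grp.Subn
import Cfsg.Prelude.Def_RootSubgroups

/-!
Root involutions: the basic lemmas on lines `{a, c, a c}` of root involutions.
-/

set_option autoImplicit false
set_option linter.unusedSectionVars false

namespace CA.RInv

open Subgroup Cfsg

variable {G : Type*} [Group G] {D : Set G} {a b c d e f x y z : G}

/-- different, with product of odd order -/
def Od (a b : G) : Prop := a ≠ b ∧ Odd (orderOf (a * b))

/-- product of order four -/
def Fr (a b : G) : Prop := orderOf (a * b) = 4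

theorem orderOf_mul_comm (a b : G) : orderOf (a * b) = orderOf (b * a) := by
  have : b * a = a⁻¹ * (a * b) * a⁻¹⁻¹ := by group
  rw [this, ← MulAut.conj_apply, MulEquiv.orderOf_eq]

theorem orderOf_cj (g a : G) : orderOf (g * a * g⁻¹) = orderOf a := by
  rw [← MulAut.conj_apply, MulEquiv.orderOf_eq]

theorem Od.symm (h : Od a b) : Od b a := ⟨h.1.symm, orderOf_mul_comm a b ▸ h.2⟩

theorem Fr.symm (h : Fr a b) : Fr b a := by unfold Fr at *; rwa [orderOf_mul_comm]

theorem Od.cj (h : Od a b) (g : G) : Od (g * a * g⁻¹) (g * b * g⁻¹) := by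
  refine ⟨fun h' => h.1 (by simpa using h'), ?_⟩
  have : g * a * g⁻¹ * (g * b * g⁻¹) = g * (a * b) * g⁻¹ := by group
  rw [this, orderOf_cj]; exact h.2

theorem Fr.cj (h : Fr a b) (g : G) : Fr (g * a * g⁻¹) (g * b * g⁻¹) := by
  have : g * a * g⁻¹ * (g * b * g⁻¹) = g * (a * b) * g⁻¹ := by group
  unfold Fr at *; rw [this, orderOf_cj]; exact h

theorem cm_cj (h : Commute a b) (g : G) : Commute (g * a * g⁻¹) (g * b * g⁻¹) := h.conj g

theorem od_cj_iff (g : G) : Od (g * a * g⁻¹) (g * b * g⁻¹) ↔ Od a b :=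
  ⟨fun h => by simpa [mul_assoc] using h.cj g⁻¹, fun h => h.cj g⟩

theorem fr_cj_iff (g : G) : Fr (g * a * g⁻¹) (g * b * g⁻¹) ↔ Fr a b :=
  ⟨fun h => by simpa [mul_assoc] using h.cj g⁻¹, fun h => h.cj g⟩

theorem cm_cj_iff (g : G) : Commute (g * a * g⁻¹) (g * b * g⁻¹) ↔ Commute a b :=
  ⟨fun h => by simpa [mul_assoc] using cm_cj h g⁻¹, fun h => cm_cj h g⟩

theorem Od.not_fr (h : Od a b) : ¬ Fr a b := fun h' => by
  have := h.2; rw [show orderOf (a * b) = 4 from h'] at this; exact absurd this (by decide)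

/-- an element of odd order whose square is trivial is trivial -/
theorem eq_one_of_odd_sq {h : G} (ho : Odd (orderOf h)) (h2 : h * h = 1) : h = 1 := by
  have h3 : orderOf h ∣ 2 := orderOf_dvd_of_pow_eq_one (by rw [pow_two, h2])
  rcases (Nat.dvd_prime Nat.prime_two).1 h3 with h4 | h4
  · exact orderOf_eq_one_iff.1 h4
  · rw [h4] at ho; exact absurd ho (by decide)

/-- an element of odd order inverting `h` centralizes it -/
theorem sq_of_odd_inverts {g h : G} (ho : Odd (orderOf g)) (hi : g * h * g⁻¹ = h⁻¹) : h * h = 1 := by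
  obtain ⟨m, hm⟩ := ho
  have h2 : Commute (g * g) h := by
    have : g * h⁻¹ * g⁻¹ = h := by rw [← conj_inv, hi, inv_inv]
    calc g * g * h = g * (g * h * g⁻¹) * g := by group
      _ = (g * h⁻¹ * g⁻¹) * (g * g) := by rw [hi]; group
      _ = h * (g * g) := by rw [this]
  have h3 : g = ((g * g) ^ (m + 1)) := by
    rw [← pow_two, ← pow_mul, show 2 * (m + 1) = orderOf g + 1 by omega, pow_succ, pow_orderOf_eq_one,
      one_mul]
  have h4 : Commute g h := h3 ▸ h2.pow_left _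
  have : h = h⁻¹ := by rw [← hi, h4.eq]; group
  exact mul_eq_one_iff_eq_inv.2 this

/-- commuting with the square of an element of odd order -/
theorem cm_of_sq {g h : G} (ho : Odd (orderOf g)) (hc : Commute h (g * g)) : Commute h g := by
  obtain ⟨m, hm⟩ := ho
  have h3 : g = ((g * g) ^ (m + 1)) := by
    rw [← pow_two, ← pow_mul, show 2 * (m + 1) = orderOf g + 1 by omega, pow_succ, pow_orderOf_eq_one,
      one_mul]
  exact h3 ▸ hc.pow_right _

theorem odd_mul {g h : G} (hc : Commute g h) (hg : Odd (orderOf g)) (hh : Odd (orderOf h)) :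
    Odd (orderOf (g * h)) :=
  Odd.of_dvd_nat (hg.mul hh) hc.orderOf_mul_dvd_mul_orderOf

theorem odd_pow {g : G} (hg : Odd (orderOf g)) (n : ℕ) : Odd (orderOf (g ^ n)) :=
  Odd.of_dvd_nat hg (orderOf_pow_dvd n)

theorem odd_zpow {g : G} (hg : Odd (orderOf g)) (n : ℤ) : Odd (orderOf (g ^ n)) :=
  Odd.of_dvd_nat hg (orderOf_dvd_of_mem_zpowers (zpow_mem_zpowers g n))

theorem odd_mem_zpowers {g h : G} (hg : Odd (orderOf g)) (hh : h ∈ zpowers g) : Odd (orderOf h) :=
  Odd.of_dvd_nat hg (orderOf_dvd_of_mem_zpowers hh)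

/-- sets of root involutions, without the generation axiom -/
structure RI (D : Set G) : Prop where
  sq : ∀ d ∈ D, d * d = 1
  ne : ∀ d ∈ D, d ≠ 1
  cjD : ∀ d ∈ D, ∀ e ∈ D, e * d * e ∈ D
  pair : ∀ a ∈ D, ∀ b ∈ D, Commute a b ∨ Od a b ∨ (Fr a b ∧ a * b * a * b ∈ D)

theorem sq_of_ord (h : orderOf a = 2) : a * a = 1 := by rw [← pow_two, ← h, pow_orderOf_eq_one]

theorem ne_of_ord (h : orderOf a = 2) : a ≠ 1 := by rintro rfl; simp at h

theorem ord_of_sq (h : a * a = 1) (h1 : a ≠ 1) : orderOf a = 2 :=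
  haveI : Fact (Nat.Prime 2) := ⟨Nat.prime_two⟩
  orderOf_eq_prime (by rw [pow_two, h]) h1

theorem ri_of (h : IsRootInvolutionSet D) : RI D where
  sq d hd := sq_of_ord (h.orderOf_eq d hd)
  ne d hd := ne_of_ord (h.orderOf_eq d hd)
  cjD d hd e he := by
    have := h.conj_mem d hd e
    rwa [inv_eq_of_mul_eq_one_right (sq_of_ord (h.orderOf_eq e he))] at this
  pair a ha b hb := by
    by_cases hab : a = b
    · exact Or.inl (hab ▸ Commute.refl a)
    rcases h.pair a ha b hb with h1 | h1 | h1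
    · exact Or.inl h1
    · exact Or.inr (Or.inl ⟨hab, h1⟩)
    · exact Or.inr (Or.inr ⟨h1.1, by have := h1.2; rwa [pow_two, ← mul_assoc] at this⟩)

namespace RI

variable (hD : RI D)
include hD

theorem inv (hd : d ∈ D) : d⁻¹ = d := inv_eq_of_mul_eq_one_right (hD.sq d hd)

theorem ord (hd : d ∈ D) : orderOf d = 2 := ord_of_sq (hD.sq d hd) (hD.ne d hd)

theorem sq' (hd : d ∈ D) (g : G) : d * (d * g) = g := by rw [← mul_assoc, hD.sq d hd, one_mul]

theorem cj_mem {g : G} (hg : g ∈ closure D) (hd : d ∈ D) : g * d * g⁻¹ ∈ D := by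
  induction hg using closure_induction'' generalizing d with
  | mem e he => rw [hD.inv he]; exact hD.cjD d hd e he
  | inv_mem e he => rw [inv_inv, hD.inv he]; exact hD.cjD d hd e he
  | one => simpa using hd
  | mul g h _ _ ihg ihh => have := ihg (ihh hd); simpa [mul_assoc] using this

theorem toSet (hg : closure D = ⊤) : IsRootInvolutionSet D where
  orderOf_eq d hd := hD.ord hd
  generates := hg
  conj_mem d hd g := hD.cj_mem (hg ▸ mem_top g) hd
  pair a ha b hb := by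
    rcases hD.pair a ha b hb with h | h | h
    · exact Or.inl h
    · exact Or.inr (Or.inl h.2)
    · exact Or.inr (Or.inr ⟨h.1, by rw [pow_two, ← mul_assoc]; exact h.2⟩)

theorem inv_mul (ha : a ∈ D) (hb : b ∈ D) : (a * b)⁻¹ = b * a := by
  rw [mul_inv_rev, hD.inv ha, hD.inv hb]

theorem cm_iff (ha : a ∈ D) (hb : b ∈ D) : Commute a b ↔ a * b * (a * b) = 1 := by
  rw [mul_eq_one_iff_eq_inv, hD.inv_mul ha hb]; rfl

theorem not_od (ha : a ∈ D) (hb : b ∈ D) (h : Commute a b) : ¬ Od a b := fun h' =>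
  h'.1 (by
    have := eq_one_of_odd_sq h'.2 ((hD.cm_iff ha hb).1 h)
    rw [mul_eq_one_iff_eq_inv, hD.inv hb] at this; exact this)

theorem not_fr (ha : a ∈ D) (hb : b ∈ D) (h : Commute a b) : ¬ Fr a b := fun h' => by
  have h3 : orderOf (a * b) ∣ 2 :=
    orderOf_dvd_of_pow_eq_one (by rw [pow_two, (hD.cm_iff ha hb).1 h])
  rw [show orderOf (a * b) = 4 from h'] at h3; exact absurd h3 (by decide)

theorem fr_mem (ha : a ∈ D) (hb : b ∈ D) (h : Fr a b) : a * b * a * b ∈ D := by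
  rcases hD.pair a ha b hb with h1 | h1 | h1
  · exact absurd h (hD.not_fr ha hb h1)
  · exact absurd h h1.not_fr
  · exact h1.2

theorem fr_of (ha : a ∈ D) (hb : b ∈ D) (h1 : ¬ Commute a b) (h2 : ¬ Od a b) : Fr a b := by
  rcases hD.pair a ha b hb with h | h | h
  exacts [absurd h h1, absurd h h2, h.1]

theorem od_of (ha : a ∈ D) (hb : b ∈ D) (h1 : ¬ Commute a b) (h2 : ¬ Fr a b) : Od a b := by
  rcases hD.pair a ha b hb with h | h | h
  exacts [absurd h h1, h, absurd h.1 h2]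

theorem cm_of (ha : a ∈ D) (hb : b ∈ D) (h1 : ¬ Od a b) (h2 : ¬ Fr a b) : Commute a b := by
  rcases hD.pair a ha b hb with h | h | h
  exacts [h, absurd h h1, absurd h.1 h2]

/-- three involutions `a, c, a c` form a line -/
theorem ln_cm (ha : a ∈ D) (hc : c ∈ D) (hac : a * c ∈ D) : Commute a c :=
  (hD.cm_iff ha hc).2 (hD.sq _ hac)

theorem ln_symm (ha : a ∈ D) (hc : c ∈ D) (hac : a * c ∈ D) : c * a ∈ D :=
  (hD.ln_cm ha hc hac).eq ▸ hac

theorem ln_ne (hc : c ∈ D) (hac : a * c ∈ D) : a ≠ c := by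
  rintro rfl; exact hD.ne _ hac (hD.sq _ hc)

theorem ln_l (ha : a ∈ D) (hc : c ∈ D) : a * (a * c) ∈ D := by rw [hD.sq' ha]; exact hc

theorem ln_r (ha : a ∈ D) (hc : c ∈ D) : a * c * c ∈ D := by
  rw [mul_assoc, hD.sq _ hc, mul_one]; exact ha

/-- the commutator of a pair with product of order four commutes with both -/
theorem fr_cm_l (ha : a ∈ D) (hb : b ∈ D) (h : Fr a b) : Commute a (a * b * a * b) :=
  hD.ln_cm ha (hD.fr_mem ha hb h) (by
    rw [show a * (a * b * a * b) = a * (a * (b * a * b)) by group, hD.sq' ha]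
    exact hD.cjD a ha b hb)

theorem fr_cm_r (ha : a ∈ D) (hb : b ∈ D) (h : Fr a b) : Commute b (a * b * a * b) :=
  (hD.ln_cm (hD.fr_mem ha hb h) hb (by
    rw [mul_assoc, hD.sq _ hb, mul_one]; exact hD.cjD b hb a ha)).symm

theorem fr_symm_eq (ha : a ∈ D) (hb : b ∈ D) (h : Fr a b) : b * a * b * a = a * b * a * b := by
  rw [← hD.inv (hD.fr_mem ha hb h)]
  simp only [mul_inv_rev, hD.inv ha, hD.inv hb, mul_assoc]

/-- an even order other than 2 and 4 does not occur -/
theorem no_two_mul {u h : G} (ha : a ∈ D) (hb : b ∈ D) (hab : a * b = u * h) (hu : u * u = 1)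
    (hu1 : u ≠ 1) (hc : Commute u h) (ho : Odd (orderOf h)) : h = 1 := by
  have h1 : orderOf (a * b) = 2 * orderOf h := by
    rw [hab, hc.orderOf_mul_eq_mul_orderOf_of_coprime, ord_of_sq hu hu1]
    rw [ord_of_sq hu hu1]; exact (Nat.coprime_two_left).2 ho
  rcases hD.pair a ha b hb with h2 | h2 | h2
  · have h3 : orderOf (a * b) ∣ 2 :=
      orderOf_dvd_of_pow_eq_one (by rw [pow_two, (hD.cm_iff ha hb).1 h2])
    rw [h1] at h3
    have : orderOf h ∣ 1 := Nat.dvd_of_mul_dvd_mul_left two_pos (by simpa using h3)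
    exact orderOf_eq_one_iff.1 (Nat.dvd_one.1 this)
  · have := h2.2; rw [h1] at this; exact absurd this (by simp)
  · have h3 : orderOf (a * b) = 4 := h2.1
    have : orderOf h = 2 := by omega
    rw [this] at ho; exact absurd ho (by decide)

theorem od_ne_one (hb : b ∈ D) (h : Od a b) : a * b ≠ 1 := fun h' =>
  h.1 (by rw [mul_eq_one_iff_eq_inv, hD.inv hb] at h'; exact h')

/-- L1 -/
theorem l1 (ha : a ∈ D) (hc : c ∈ D) (hac : a * c ∈ D) (hy : y ∈ D) (hya : Commute y a) :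
    ¬ Od y c := fun h => by
  refine hD.od_ne_one hc h (hD.no_two_mul hy hac (u := a) ?_ (hD.sq a ha) (hD.ne a ha) ?_ h.2)
  · rw [← mul_assoc, hya.eq, mul_assoc]
  · exact hya.symm.mul_right (hD.ln_cm ha hc hac)

theorem l1' (ha : a ∈ D) (hc : c ∈ D) (hac : a * c ∈ D) (hy : y ∈ D) (h : Od y c) :
    ¬ Commute y a := fun h' => hD.l1 ha hc hac hy h' h

theorem inverts (ha : a ∈ D) (hb : b ∈ D) : a * (a * b) * a⁻¹ = (a * b)⁻¹ := by
  rw [hD.sq' ha, hD.inv ha, hD.inv_mul ha hb]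

theorem inverts' (ha : a ∈ D) (hb : b ∈ D) : b * (a * b) * b⁻¹ = (a * b)⁻¹ := by
  rw [hD.inv_mul ha hb]; group

/-- L2 -/
theorem l2 (ha : a ∈ D) (hc : c ∈ D) (hac : a * c ∈ D) (hy : y ∈ D) (h : Od y c) :
    Od y a ∨ Od y (a * c) := by
  by_contra hn
  push Not at hn
  have hca := hD.ln_cm ha hc hac
  have f1 : Fr y a := hD.fr_of hy ha (hD.l1' ha hc hac hy h) hn.1
  have f2 : Fr y (a * c) := hD.fr_of hy hac (hD.l1' hac hc (hD.ln_r ha hc) hy h) hn.2
  set z := y * a * y * a with hz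
  set z' := y * (a * c) * y * (a * c) with hz'
  have hzD : z ∈ D := hD.fr_mem hy ha f1
  have hzD' : z' ∈ D := hD.fr_mem hy hac f2
  have e1 : y * c * (y * c) = z * (a * z' * a) := by
    rw [hz, hz']
    simp only [mul_assoc, hD.sq' ha, hD.sq' hy]
    rw [← hca.eq, hD.sq' ha]
  have i1 : z * (y * c * (y * c)) * z⁻¹ = (y * c * (y * c))⁻¹ := by
    rw [e1]; exact hD.inverts hzD (hD.cjD _ hzD' _ ha)
  have i2 : y * (y * c * (y * c)) * y⁻¹ = (y * c * (y * c))⁻¹ := by
    simp only [mul_inv_rev, hD.inv hy, hD.inv hc, mul_assoc, hD.sq' hy]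
  have c1 : Commute (y * z) (y * c * (y * c)) := by
    have : y * (y * c * (y * c))⁻¹ * y⁻¹ = y * c * (y * c) := by
      rw [← i2]; simp only [hD.inv hy, mul_assoc, hD.sq' hy, hD.sq y hy, mul_one]
    calc y * z * (y * c * (y * c)) = y * (z * (y * c * (y * c)) * z⁻¹) * y⁻¹ * (y * z) := by group
      _ = _ := by rw [i1, this]
  have c2 : Commute (y * z) (y * c) := cm_of_sq h.2 c1
  have c3 : Commute (y * z) y := ((Commute.refl y).mul_right (hD.fr_cm_l hy ha f1)).symm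
  have c4 : Commute (y * z) c := by
    have := c3.mul_right c2; rwa [hD.sq' hy] at this
  have e2 : y * z = a * y * a⁻¹ := by rw [hz, hD.inv ha]; simp only [mul_assoc, hD.sq' hy]
  have e3 : c = a * c * a⁻¹ := by rw [hca.eq]; group
  rw [e2, e3, cm_cj_iff] at c4
  exact hD.not_od hy hc c4 h

/-- the inversion lemma -/
theorem inv_lemma {h w : G} (ho : Odd (orderOf h)) (hi : x * h * x⁻¹ = h⁻¹) (hc : Commute w h)
    (hw : Od w x) : h = 1 := by
  refine eq_one_of_odd_sq ho (sq_of_odd_inverts hw.2 ?_)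
  calc w * x * h * (w * x)⁻¹ = w * (x * h * x⁻¹) * w⁻¹ := by group
    _ = h⁻¹ := by rw [hi, hc.inv_right.eq]; group

/-- conjugates inside a dihedral group -/
theorem cj_of_inverts {h : G} (hx : x ∈ D) (ho : Odd (orderOf h)) (hi : x * h * x⁻¹ = h⁻¹) :
    ∃ k ∈ zpowers h, h * x = k * x * k⁻¹ := by
  obtain ⟨m, hm⟩ := ho
  refine ⟨h ^ (m + 1), pow_mem (mem_zpowers h) _, ?_⟩
  have h1 : x * (h ^ (m + 1))⁻¹ * x⁻¹ = h ^ (m + 1) := by
    rw [← inv_pow, ← conj_pow, show x * h⁻¹ * x⁻¹ = h by rw [← conj_inv, hi, inv_inv]]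
  have h2 : h ^ (m + 1) * h ^ (m + 1) = h := by
    rw [← pow_add, show m + 1 + (m + 1) = orderOf h + 1 by omega, pow_succ, pow_orderOf_eq_one,
      one_mul]
  calc h * x = h ^ (m + 1) * (x * (h ^ (m + 1))⁻¹ * x⁻¹) * x := by rw [h1, h2]
    _ = _ := by group

theorem od_cj (ha : a ∈ D) (hb : b ∈ D) (h : Od a b) : ∃ k ∈ zpowers (a * b), a = k * b * k⁻¹ := by
  obtain ⟨k, hk, e⟩ := hD.cj_of_inverts hb h.2 (hD.inverts' ha hb)
  exact ⟨k, hk, by rw [← e, mul_assoc, hD.sq b hb, mul_one]⟩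

theorem mem_of_inverts {h : G} (hx : x ∈ D) (hh : h ∈ closure D) (ho : Odd (orderOf h))
    (hi : x * h * x⁻¹ = h⁻¹) : h * x ∈ D := by
  obtain ⟨k, hk, e⟩ := hD.cj_of_inverts hx ho hi
  rw [e]; exact hD.cj_mem (zpowers_le.2 hh hk) hx

/-- the middle: a member of `D` in the dihedral group interchanging `a` and `b` -/
theorem middle (ha : a ∈ D) (hb : b ∈ D) (h : Od a b) :
    ∃ k ∈ zpowers (a * b), k * a ∈ D ∧ k * a * a * (k * a) = b := by
  obtain ⟨m, hm⟩ := h.2
  have hi : a * (a * b) ^ m * a⁻¹ = ((a * b) ^ m)⁻¹ := by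
    rw [← conj_pow, hD.inverts ha hb, inv_pow]
  refine ⟨(a * b) ^ m, pow_mem (mem_zpowers _) _, hD.mem_of_inverts ha
    (pow_mem (mul_mem (subset_closure ha) (subset_closure hb)) _) (odd_pow h.2 m) hi, ?_⟩
  have h1 : (a * b) ^ m * (a * b) ^ m * (a * b) = 1 := by
    rw [← pow_add, ← pow_succ, show m + m + 1 = orderOf (a * b) by omega, pow_orderOf_eq_one]
  have h2 : (a * b) ^ m * (a * b) ^ m = b * a := by
    rw [eq_inv_of_mul_eq_one_left h1, hD.inv_mul ha hb]
  calc _ = (a * b) ^ m * (a * a) * (a * b) ^ m * a := by group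
    _ = b := by rw [hD.sq a ha, mul_one, h2, mul_assoc, hD.sq a ha, mul_one]

/-- L3, the map -/
theorem l3_map (ha : a ∈ D) (hx : x ∈ D) (h : Od x a) (hc : c ∈ D) (hac : a * c ∈ D) (hf : Fr x c) :
    x * c * x * c ∈ D ∧ x * (x * c * x * c) ∈ D ∧ Fr a (x * c * x * c) := by
  have hz := hD.fr_mem hx hc hf
  have hxz : x * (x * c * x * c) ∈ D := by
    rw [show x * (x * c * x * c) = x * (x * (c * x * c)) by group, hD.sq' hx]
    exact hD.cjD x hx c hc
  refine ⟨hz, hxz, hD.fr_of ha hz ?_ ?_⟩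
  · exact hD.l1' hz hx (hD.ln_symm hx hz hxz) ha h.symm
  · exact fun h' => hD.l1 hc ha (hD.ln_symm ha hc hac) hz (hD.fr_cm_r hx hc hf).symm h'.symm

/-- L3, injectivity -/
theorem l3_inj {c' : G} (ha : a ∈ D) (hx : x ∈ D) (h : Od x a) (hc : c ∈ D) (hac : a * c ∈ D)
    (hf : Fr x c) (hc' : c' ∈ D) (hac' : a * c' ∈ D) (hf' : Fr x c')
    (e : x * c * x * c = x * c' * x * c') : c = c' := by
  have o1 : Od x (c * a) := (hD.l2 hc ha (hD.ln_symm ha hc hac) hx h).resolve_left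
    fun h' => h'.not_fr hf
  have o2 : Od x (c' * a) := (hD.l2 hc' ha (hD.ln_symm ha hc' hac') hx h).resolve_left
    fun h' => h'.not_fr hf'
  have e1 : c * x * c = c' * x * c' := by simpa [mul_assoc] using e
  have c1 : Commute x (c * c') := by
    calc x * (c * c') = c * (c * x * c) * c' := by simp only [mul_assoc, hD.sq' hc]
      _ = c * c' * x := by rw [e1]; simp only [mul_assoc, hD.sq _ hc', mul_one]
  have c2 : Commute a (c * c') := (hD.ln_cm ha hc hac).mul_right (hD.ln_cm ha hc' hac')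
  have s1 : c * c' * (c * c') = 1 := by
    refine sq_of_odd_inverts o1.2 ?_
    calc x * (c * a) * (c * c') * (x * (c * a))⁻¹ = x * (c * (a * (c * c') * a⁻¹) * c⁻¹) * x⁻¹ := by
          group
      _ = (c * c')⁻¹ := by
          rw [c2.eq, mul_inv_cancel_right, hD.inverts hc hc', c1.inv_right.eq, mul_inv_cancel_right]
  have c3 : Commute c c' := (hD.cm_iff hc hc').2 s1
  have c4 : Commute (c * c') (x * (c' * a)) :=
    c1.symm.mul_right ((c3.mul_left (Commute.refl c')).mul_right c2.symm)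
  have e2 : x * (c * a) = c * c' * (x * (c' * a)) := by
    rw [← mul_assoc (c * c'), ← c1.eq]; simp only [mul_assoc, hD.sq' hc']
  have e3 : c * c' = x * (c * a) * (x * (c' * a))⁻¹ := by rw [e2]; group
  have c5 : Commute (x * (c * a)) (x * (c' * a))⁻¹ :=
    (e2 ▸ c4.mul_left (Commute.refl _)).inv_right
  have := eq_one_of_odd_sq (e3 ▸ odd_mul c5 o1.2 (by rw [orderOf_inv]; exact o2.2)) s1
  rw [mul_eq_one_iff_eq_inv, hD.inv hc'] at this; exact this

/-- L3, surjectivity -/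
theorem l3 [Finite G] (ha : a ∈ D) (hx : x ∈ D) (h : Od x a) (hz : z ∈ D) (hxz : x * z ∈ D)
    (hf : Fr a z) : ∃ c ∈ D, a * c ∈ D ∧ Fr x c ∧ z = x * c * x * c := by
  let S : G → G → Type _ := fun a x => {c : G // c ∈ D ∧ a * c ∈ D ∧ Fr x c}
  have key : ∀ a ∈ D, ∀ x ∈ D, Od x a → ∃ φ : S a x → S x a, Function.Injective φ ∧
      ∀ c, (φ c).1 = x * c.1 * x * c.1 := fun a ha x hx h =>
    ⟨fun c => ⟨_, hD.l3_map ha hx h c.2.1 c.2.2.1 c.2.2.2⟩, fun c c' e => Subtype.ext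
      (hD.l3_inj ha hx h c.2.1 c.2.2.1 c.2.2.2 c'.2.1 c'.2.2.1 c'.2.2.2 (congrArg Subtype.val e)),
      fun _ => rfl⟩
  obtain ⟨φ, hφ, e⟩ := key a ha x hx h
  obtain ⟨ψ, hψ, -⟩ := key x hx a ha h.symm
  have hs : Function.Surjective (φ ∘ ψ) := Finite.surjective_of_injective (hφ.comp hψ)
  obtain ⟨c, hc⟩ := hs ⟨z, hz, hxz, hf⟩
  exact ⟨(ψ c).1, (ψ c).2.1, (ψ c).2.2.1, (ψ c).2.2.2, by rw [← e]; exact (congrArg Subtype.val hc).symm⟩

/-- L4: `e` fixes `a` and moves `c`, `f` fixes `c` and moves `a` on the line `{a, c, a c}` -/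
theorem l4 [Finite G] (ha : a ∈ D) (hc : c ∈ D) (hac : a * c ∈ D) (he : e ∈ D) (hf : f ∈ D)
    (h1 : e * c * e * c = a) (h2 : f * a * f * a = c) : orderOf (e * f) = 3 := by
  have hca := hD.ln_cm ha hc hac
  have ec : e * c * e = a * c := by rw [← h1]; simp only [mul_assoc, hD.sq _ hc, mul_one]
  have fa : f * a * f = a * c := by
    rw [hca.eq, ← h2]; simp only [mul_assoc, hD.sq _ ha, mul_one]
  have ea : e * a * e = a := by
    have : e * a ∈ D := by
      rw [← h1, show e * (e * c * e * c) = e * (e * (c * e * c)) by group, hD.sq' he]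
      exact hD.cjD e he c hc
    rw [(hD.ln_cm he ha this).eq, mul_assoc, hD.sq e he, mul_one]
  have fc : f * c * f = c := by
    have : f * c ∈ D := by
      rw [← h2, show f * (f * a * f * a) = f * (f * (a * f * a)) by group, hD.sq' hf]
      exact hD.cjD f hf a ha
    rw [(hD.ln_cm hf hc this).eq, mul_assoc, hD.sq f hf, mul_one]
  set t := e * f with ht
  have ti : t⁻¹ = f * e := hD.inv_mul he hf
  have ta : t * a * t⁻¹ = c := by
    rw [ti, ht]
    calc e * f * a * (f * e) = e * (f * a * f) * e := by group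
      _ = (e * a * e) * (e * c * e) := by rw [fa]; simp only [mul_assoc, hD.sq' he]
      _ = c := by rw [ea, ec, hD.sq' ha]
  have tc : t * c * t⁻¹ = a * c := by
    rw [ti, ht]
    calc e * f * c * (f * e) = e * (f * c * f) * e := by group
      _ = a * c := by rw [fc, ec]
  have tac : t * (a * c) * t⁻¹ = a := by
    calc t * (a * c) * t⁻¹ = (t * a * t⁻¹) * (t * c * t⁻¹) := by group
      _ = a := by rw [ta, tc, hca.eq, hD.sq' hc]
  have t2 : t ^ 2 * a * (t ^ 2)⁻¹ = a * c := by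
    calc _ = t * (t * a * t⁻¹) * t⁻¹ := by rw [pow_two]; simp only [mul_inv_rev, mul_assoc]
      _ = _ := by rw [ta, tc]
  have t3 : t ^ 3 * a * (t ^ 3)⁻¹ = a := by
    calc _ = t * (t ^ 2 * a * (t ^ 2)⁻¹) * t⁻¹ := by group
      _ = _ := by rw [t2, tac]
  have hne : a ≠ c := hD.ln_ne hc hac
  have t1 : t ≠ 1 := by intro h; rw [h] at ta; exact hne (by simpa using ta)
  have ho : Odd (orderOf t) := by
    rcases hD.pair e he f hf with h | h | h
    · have : t ^ 2 = 1 := by rw [pow_two]; exact (hD.cm_iff he hf).1 h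
      rw [this] at t2; exact absurd (by simpa using t2) (hD.ne c hc)
    · exact h.2
    · have h4 : t ^ 4 = 1 := by rw [← show orderOf t = 4 from h.1]; exact pow_orderOf_eq_one t
      have : t ^ 4 * a * (t ^ 4)⁻¹ = c := by
        calc _ = t * (t ^ 3 * a * (t ^ 3)⁻¹) * t⁻¹ := by group
          _ = _ := by rw [t3, ta]
      rw [h4] at this; exact absurd (by simpa using this) hne
  have hi : e * t ^ 3 * e⁻¹ = (t ^ 3)⁻¹ := by rw [← conj_pow, hD.inverts he hf, inv_pow]
  have m1 : t ^ 3 * e ∈ D := hD.mem_of_inverts he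
    (pow_mem (mul_mem (subset_closure he) (subset_closure hf)) _) (odd_pow ho 3) hi
  have c3 : Commute a (t ^ 3) := by
    have : t ^ 3 * a = a * t ^ 3 := by rw [← mul_inv_eq_iff_eq_mul, t3]
    exact this.symm
  have h3 : t ^ 3 = 1 := by
    refine hD.no_two_mul m1 (hD.cjD e he c hc) (u := a) ?_ (hD.sq a ha) (hD.ne a ha) c3 (odd_pow ho 3)
    rw [c3.eq, ← h1]; group
  haveI : Fact (Nat.Prime 3) := ⟨Nat.prime_three⟩
  exact orderOf_eq_prime h3 t1

end RI

end CA.RInv
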