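import Cfsg.Agent.Lib.Root.I1
import Cfsg.Prelude.Def_QuasithinSetup

/-!
Root involutions: isolated vertices and components of the graph of odd products, the classes `E_d`,
normal subgroups.
-/

set_option autoImplicit false
set_option linter.unusedSectionVars false

namespace CA.RInv

open Subgroup Cfsg CA.Core
open scoped commutatorElement

variable {G : Type*} [Group G] {D : Set G} {a b c d e f x y z : G}

instance fact2 : Fact (Nat.Prime 2) := ⟨Nat.prime_two⟩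

theorem isPGroup_zpowers {k : ℕ} (h : a ^ 2 ^ k = 1) : IsPGroup 2 (zpowers a) := by
  rintro ⟨_, n, rfl⟩
  exact ⟨k, Subtype.ext (by
    change (a ^ n) ^ 2 ^ k = 1
    rw [← zpow_natCast, ← zpow_mul, mul_comm, zpow_mul, zpow_natCast, h, one_zpow])⟩

theorem isPGroup_two_gen {k : ℕ} (ha : a * a = 1) (hb : b * b = 1) (h : (a * b) ^ 2 ^ k = 1) :
    IsPGroup 2 (zpowers a ⊔ zpowers b : Subgroup G) := by
  have ia : a⁻¹ = a := inv_eq_of_mul_eq_one_right ha
  have ib : b⁻¹ = b := inv_eq_of_mul_eq_one_right hb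
  have h1 : zpowers a ≤ normalizer (zpowers (a * b) : Set G) := by
    refine zpowers_le.2 (mem_normalizer_iff_map_conj_eq.2 ?_)
    rw [MonoidHom.map_zpowers, ← zpowers_inv (g := a * b)]
    congr 1
    simp [ia, ib, ← mul_assoc, ha]
  refine (IsPGroup.to_sup_of_normal_right' (isPGroup_zpowers (k := 1) (by simpa [pow_two] using ha))
    (isPGroup_zpowers h) h1).to_le (sup_le le_sup_left (zpowers_le.2 ?_))
  have : b = a * (a * b) := by rw [← mul_assoc, ha, one_mul]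
  rw [this]
  exact mul_mem (mem_sup_left (mem_zpowers a)) (mem_sup_right (by rw [← this]; exact mem_zpowers _))

/-- Baer–Suzuki for an involution -/
theorem bs [Finite G] (hd : d * d = 1) (h : ∀ g : G, ∃ k : ℕ, (d * (g * d * g⁻¹)) ^ 2 ^ k = 1) :
    d ∈ pCore 2 G := by
  refine zpowers_le.1 (CA.Subn.baer_suzuki _ fun g => ?_)
  obtain ⟨k, hk⟩ := h g
  rw [MonoidHom.map_zpowers]
  exact isPGroup_two_gen hd (by
    change g * d * g⁻¹ * (g * d * g⁻¹) = 1
    rw [show g * d * g⁻¹ * (g * d * g⁻¹) = g * (d * d) * g⁻¹ by group, hd]; group) hk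

theorem bs' [Finite G] {H : Subgroup G} (hH : d ∈ H) (hd : d * d = 1)
    (h : ∀ g ∈ H, ∃ k : ℕ, (d * (g * d * g⁻¹)) ^ 2 ^ k = 1) : d ∈ (pCore 2 H).map H.subtype :=
  ⟨⟨d, hH⟩, bs (Subtype.ext hd) fun g => (h g g.2).imp fun _ hk => Subtype.ext hk, rfl⟩

theorem eq_one_of_odd_two {H : Subgroup G} (hH : IsPGroup 2 H) (ha : a ∈ H) (ho : Odd (orderOf a)) :
    a = 1 := by
  obtain ⟨k, hk⟩ := hH ⟨a, ha⟩
  have h1 : orderOf a ∣ 2 ^ k := orderOf_dvd_of_pow_eq_one (congrArg Subtype.val hk)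
  exact orderOf_eq_one_iff.1 (Nat.Coprime.eq_one_of_dvd
    (Nat.Coprime.pow_right k ((Nat.coprime_two_right).2 ho)) h1)

namespace RI

variable (hD : RI D)
include hD

theorem mono {T : Set G} (hT : T ⊆ D) (h1 : ∀ d ∈ T, ∀ e ∈ T, e * d * e ∈ T)
    (h2 : ∀ d ∈ T, ∀ e ∈ T, Fr d e → d * e * d * e ∈ T) : RI T where
  sq d hd := hD.sq d (hT hd)
  ne d hd := hD.ne d (hT hd)
  cjD := h1
  pair a ha b hb := (hD.pair a (hT ha) b (hT hb)).imp_right (Or.imp_right fun h => ⟨h.1, h2 a ha b hb h.1⟩)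

theorem pow_of_not_od (ha : a ∈ D) (hb : b ∈ D) (h : ¬ Od a b) : (a * b) ^ 2 ^ 2 = 1 := by
  rcases hD.pair a ha b hb with h1 | h1 | h1
  · rw [show 2 ^ 2 = 2 * 2 from rfl, pow_mul, pow_two (a * b), (hD.cm_iff ha hb).1 h1, one_pow]
  · exact absurd h1 h
  · rw [show 2 ^ 2 = orderOf (a * b) from Eq.symm h1.1]; exact pow_orderOf_eq_one _

theorem mem_pCore' [Finite G] {H : Subgroup G} (hH : H ≤ closure D) (hdH : d ∈ H) (hd : d ∈ D)
    (h : ∀ g ∈ H, ¬ Od d (g * d * g⁻¹)) : d ∈ (pCore 2 H).map H.subtype :=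
  bs' hdH (hD.sq d hd) fun g hg => ⟨2, hD.pow_of_not_od hd (hD.cj_mem (hH hg) hd) (h g hg)⟩

/-- a conjugation-closed set without odd products generates a `2`-group -/
theorem isPGroup_closure [Finite G] (h : ∀ a ∈ D, ∀ b ∈ D, ¬ Od a b) : IsPGroup 2 (closure D) :=
  (isPGroup_map_pCore (closure D)).to_le ((closure_le _).2 fun d hd =>
    hD.mem_pCore' le_rfl (subset_closure hd) hd fun _ hg => h d hd _ (hD.cj_mem hg hd))

theorem not_od_of_mem {N : Subgroup G} (hN : IsPGroup 2 N) (hn : closure D ≤ normalizer (N : Set G))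
    (ha : a ∈ D) (hb : b ∈ D) (haN : a ∈ N) : ¬ Od a b := fun h => by
  obtain ⟨k, hk, e⟩ := hD.od_cj hb ha h.symm
  have hk' : k ∈ closure D := zpowers_le.2 (mul_mem (subset_closure hb) (subset_closure ha)) hk
  have : b ∈ N := e ▸ (mem_normalizer_iff.1 (hn hk') a).1 haN
  exact hD.od_ne_one hb h (eq_one_of_odd_two hN (mul_mem haN this) h.2)

/-- without odd products, a nonempty `D` has a member commuting with all members -/
theorem exists_central [Finite G] (h : ∀ a ∈ D, ∀ b ∈ D, ¬ Od a b) (hd : d ∈ D) :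
    ∃ t ∈ D, ∀ s ∈ D, Commute t s := by
  by_contra hn
  push Not at hn
  have key : ∀ n : ℕ, ∃ t ∈ D, t ∈ (closure D).lowerCentralSeries n := by
    intro n
    induction n with
    | zero => exact ⟨d, hd, subset_closure hd⟩
    | succ n ih =>
      obtain ⟨t, ht, htn⟩ := ih
      obtain ⟨s, hs, hts⟩ := hn t ht
      refine ⟨⁅t, s⁆, ?_, commutator_mem_commutator htn (subset_closure hs)⟩
      have := hD.fr_mem ht hs (hD.fr_of ht hs hts (h _ ht _ hs))
      simpa [commutatorElement_def, hD.inv ht, hD.inv hs] using this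
  obtain ⟨n, hn⟩ := (isNilpotent_iff_lowerCentralSeries _).1 (hD.isPGroup_closure h).isNilpotent
  obtain ⟨t, ht, htn⟩ := key n
  rw [hn, mem_bot] at htn
  exact hD.ne _ ht htn

end RI

/-! ### components of the graph of odd products -/

/-- joined by a path of odd products -/
def Rt (D : Set G) (a b : G) : Prop := Relation.ReflTransGen (OddAdj D) a b

theorem adj (ha : a ∈ D) (hb : b ∈ D) (h : Od a b) : OddAdj D a b := ⟨ha, hb, h⟩

theorem Rt.refl : Rt D a a := Relation.ReflTransGen.refl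

theorem Rt.trans (h : Rt D a b) (h' : Rt D b c) : Rt D a c := Relation.ReflTransGen.trans h h'

theorem rt_of (ha : a ∈ D) (hb : b ∈ D) (h : Od a b) : Rt D a b :=
  Relation.ReflTransGen.single (adj ha hb h)

theorem Rt.symm (h : Rt D a b) : Rt D b a := by
  induction h with
  | refl => exact Rt.refl
  | tail _ h ih => exact (rt_of h.2.1 h.1 (Od.symm h.2.2)).trans ih

theorem Rt.mem (h : Rt D a b) (ha : a ∈ D) : b ∈ D := by
  induction h with
  | refl => exact ha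
  | tail _ h _ => exact h.2.1

theorem Rt.exists_od (h : Rt D a b) (hab : b ≠ a) : ∃ y ∈ D, Od y a := by
  rcases Relation.ReflTransGen.cases_head h with h | ⟨y, h, -⟩
  · exact absurd h.symm hab
  · exact ⟨y, h.2.1, Od.symm h.2.2⟩

theorem isolated_iff : IsIsolatedElem (OddAdj D) D a ↔ a ∈ D ∧ ∀ y ∈ D, ¬ Od y a :=
  ⟨fun h => ⟨h.1, fun y hy h' => (h.2 y).2 (adj hy h.1 h')⟩,
    fun h => ⟨h.1, fun y => ⟨fun h' => h.2 y h'.2.1 (Od.symm h'.2.2), fun h' => h.2 y h'.1 h'.2.2⟩⟩⟩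

namespace RI

variable (hD : RI D)
include hD

theorem rt_map {g : G} (hg : g ∈ closure D) (h : Rt D a b) : Rt D (g * a * g⁻¹) (g * b * g⁻¹) := by
  induction h with
  | refl => exact Rt.refl
  | tail _ h ih => exact ih.trans (rt_of (hD.cj_mem hg h.1) (hD.cj_mem hg h.2.1) (Od.cj h.2.2 g))

theorem rt_cj_of_rt (hd : d ∈ D) (h : Rt D a d) : Rt D a (d * a * d⁻¹) := by
  have := hD.rt_map (subset_closure hd) h
  rw [mul_inv_cancel_right] at this
  exact h.trans this.symm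

theorem rt_cjD (ha : a ∈ D) (hy : y ∈ D) (h : Od y a) (hd : d ∈ D) : Rt D a (d * a * d⁻¹) := by
  rcases hD.pair a ha d hd with h1 | h1 | h1
  · rw [← h1.eq, mul_inv_cancel_right]; exact Rt.refl
  · exact hD.rt_cj_of_rt hd (rt_of ha hd h1)
  have hz := h1.2
  have e1 : a * d * a * d * a = d * a * d⁻¹ := by
    rw [← hD.fr_symm_eq ha hd h1.1, hD.inv hd, mul_assoc, hD.sq a ha, mul_one]
  have e2 : d * (a * d * a * d) = a * d * a⁻¹ := by
    rw [← hD.fr_symm_eq ha hd h1.1, hD.inv ha]; simp only [mul_assoc, hD.sq' hd]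
  have r := rt_of ha hy h.symm
  rcases hD.l2 hz ha (e1 ▸ hD.cj_mem (subset_closure hd) ha) hy h with h2 | h2
  · rcases hD.l2 hd hz (e2 ▸ hD.cj_mem (subset_closure ha) hd) hy h2 with h3 | h3
    · exact hD.rt_cj_of_rt hd (r.trans (rt_of hy hd h3))
    · refine hD.rt_cj_of_rt hd ?_
      have := hD.rt_map (inv_mem (subset_closure ha))
        (r.trans (rt_of hy (e2 ▸ hD.cj_mem (subset_closure ha) hd) h3))
      rw [e2] at this
      simpa [mul_assoc] using this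
  · exact e1 ▸ r.trans (rt_of hy (e1 ▸ hD.cj_mem (subset_closure hd) ha) h2)

/-- nontrivial components are invariant -/
theorem rt_cj (ha : a ∈ D) (hy : y ∈ D) (h : Od y a) {g : G} (hg : g ∈ closure D) :
    Rt D a (g * a * g⁻¹) := by
  induction hg using closure_induction'' with
  | mem e he => exact hD.rt_cjD ha hy h he
  | inv_mem e he => rw [hD.inv he]; exact hD.rt_cjD ha hy h he
  | one => simpa using Rt.refl
  | mul g k hg _ ihg ihk =>
    have := ihg.trans (hD.rt_map hg ihk)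
    simpa [mul_assoc] using this

theorem cj_of_rt (ha : a ∈ D) (h : Rt D a b) : ∃ g ∈ closure D, b = g * a * g⁻¹ := by
  induction h with
  | refl => exact ⟨1, one_mem _, by simp⟩
  | tail _ h ih =>
    obtain ⟨g, hg, rfl⟩ := ih
    obtain ⟨k, hk, e⟩ := hD.od_cj h.2.1 h.1 (Od.symm h.2.2)
    exact ⟨k * g, mul_mem (zpowers_le.2 (mul_mem (subset_closure h.2.1) (subset_closure h.1)) hk) hg,
      by rw [e]; group⟩

/-- the commutator of members of different nontrivial components is isolated -/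
theorem comm_isolated {a' b' : G} (ha : a ∈ D) (hb : b ∈ D) (ha' : a' ∈ D) (hb' : b' ∈ D)
    (oa : Od a' a) (ob : Od b' b) (hn : ¬ Rt D a b) (hf : Fr a b) (hy : y ∈ D) :
    ¬ Od y (a * b * a * b) := fun h => by
  have hz := hD.fr_mem ha hb hf
  have e1 : a * (a * b * a * b) = b * a * b⁻¹ := by
    rw [hD.inv hb]; simp only [mul_assoc, hD.sq' ha]
  have e2 : b * (a * b * a * b) = a * b * a⁻¹ := by
    rw [← hD.fr_symm_eq ha hb hf, hD.inv ha]; simp only [mul_assoc, hD.sq' hb]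
  have m1 := hD.cj_mem (subset_closure hb) ha
  have m2 := hD.cj_mem (subset_closure ha) hb
  have r1 : Rt D a y := by
    rcases hD.l2 ha hz (e1 ▸ m1) hy h with h2 | h2
    · exact rt_of ha hy h2.symm
    · exact (hD.rt_cjD ha ha' oa hb).trans (rt_of m1 hy (e1 ▸ h2.symm))
  have r2 : Rt D b y := by
    rcases hD.l2 hb hz (e2 ▸ m2) hy h with h2 | h2
    · exact rt_of hb hy h2.symm
    · exact (hD.rt_cjD hb hb' ob ha).trans (rt_of m2 hy (e2 ▸ h2.symm))
  exact hn (r1.trans r2.symm)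

theorem rt_of_ln {a' : G} (ha : a ∈ D) (hc : c ∈ D) (hac : a * c ∈ D) (ha' : a' ∈ D) (oa : Od a' a)
    (hy : y ∈ D) (h : Od y c) : Rt D a c := by
  have r := rt_of hy hc h
  rcases hD.l2 ha hc hac hy h with h1 | h1
  · exact (rt_of ha hy h1.symm).trans r
  have r' : Rt D (a * c) c := (rt_of hac hy h1.symm).trans r
  rcases hD.l2 hc ha (hD.ln_symm ha hc hac) ha' oa with h2 | h2
  · exact (rt_of ha ha' oa.symm).trans (rt_of ha' hc h2)
  · rw [← (hD.ln_cm ha hc hac).eq] at h2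
    exact ((rt_of ha ha' oa.symm).trans (rt_of ha' hac h2)).trans r'

end RI

/-! ### the classes `E_d` -/

/-- `A_d` -/
def Ao (D : Set G) (d : G) : Set G := {y | y ∈ D ∧ Od y d}

/-- `D` is a single class -/
def Cls (D : Set G) : Prop := ∀ a ∈ D, ∀ b ∈ D, ∃ g ∈ closure D, b = g * a * g⁻¹

theorem mem_E : e ∈ sameCommutingClass D d ↔ e ∈ D ∧ ∀ y ∈ D, Commute y d ↔ Commute y e :=
  and_congr_right fun _ => ⟨fun h y hy => by
    have := Set.ext_iff.1 h y
    simpa [commutingMembers, hy, commute_iff_eq] using this,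
    fun h => Set.ext fun y => and_congr_right fun hy => h y hy⟩

namespace RI

variable (hD : RI D)
include hD

theorem cls_of_conn (h : IsConnectedSet (OddAdj D) D) : Cls D :=
  fun a ha b hb => hD.cj_of_rt ha (h a ha b hb)

theorem ao_cj {g : G} (hg : g ∈ closure D) :
    Ao D (g * a * g⁻¹) = (fun y => g * y * g⁻¹) '' Ao D a := by
  ext y
  refine ⟨fun h => ⟨g⁻¹ * y * g⁻¹⁻¹, ⟨hD.cj_mem (inv_mem hg) h.1, ?_⟩, by group⟩, ?_⟩
  · simpa [mul_assoc] using h.2.cj g⁻¹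
  · rintro ⟨y, hy, rfl⟩; exact ⟨hD.cj_mem hg hy.1, hy.2.cj g⟩

theorem ao_eq_of_subset [Finite G] (hc : Cls D) (ha : a ∈ D) (hb : b ∈ D) (h : Ao D a ⊆ Ao D b) :
    Ao D a = Ao D b := by
  obtain ⟨g, hg, rfl⟩ := hc a ha b hb
  refine Set.eq_of_subset_of_ncard_le h (le_of_eq ?_)
  rw [hD.ao_cj hg]
  exact Set.ncard_image_of_injective _ fun x y h => by simpa using h

theorem exists_od_not [Finite G] (hc : Cls D) (ha : a ∈ D) (hb : b ∈ D) (h : Ao D a ≠ Ao D b) :
    ∃ y ∈ D, Od y a ∧ ¬ Od y b := by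
  by_contra hn
  push Not at hn
  exact h (hD.ao_eq_of_subset hc ha hb fun y hy => ⟨hy.1, hn y hy.1 hy.2⟩)

theorem ao_of_cm (hd : d ∈ D) (he : e ∈ D) (h : ∀ y ∈ D, Commute y d → Commute y e) :
    Ao D e ⊆ Ao D d := by
  rintro y ⟨hy, h1⟩
  refine ⟨hy, hD.od_of hy hd (fun h2 => hD.not_od hy he (h y hy h2) h1) fun h2 => ?_⟩
  have hz := hD.fr_mem hy hd h2
  refine hD.l1 hz hy ?_ he (h _ hz (hD.fr_cm_r hy hd h2).symm).symm h1.symm
  rw [← hD.fr_symm_eq hy hd h2, mul_assoc, hD.sq y hy, mul_one]; exact hD.cjD y hy d hd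

theorem ao_ln [Finite G] (hc : Cls D) (ha : a ∈ D) (hb : b ∈ D) (hab : a * b ∈ D)
    (h : Ao D a = Ao D b) : Ao D (a * b) = Ao D a := by
  refine hD.ao_eq_of_subset hc hab ha fun y hy => ?_
  rcases hD.l2 ha hab (hD.ln_l ha hb) hy.1 hy.2 with h1 | h1
  · exact ⟨hy.1, h1⟩
  · rw [hD.sq' ha] at h1; exact h ▸ ⟨hy.1, h1⟩

theorem ao_norm {g : G} (hg : g ∈ closure D) (h : Ao D (g * a * g⁻¹) = Ao D a) (hb : Ao D b = Ao D a) :
    Ao D (g * b * g⁻¹) = Ao D a := by
  rw [hD.ao_cj hg, hb, ← hD.ao_cj hg, h]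

theorem cm_of_ao_aux [Finite G] (hc : Cls D) (ha : a ∈ D) (hb : b ∈ D) (h : Ao D b = Ao D a) :
    Commute a b := by
  let T : Set G := {t | t ∈ D ∧ Ao D t = Ao D a}
  have t1 : ∀ s ∈ T, ∀ t ∈ T, ¬ Od s t := fun s hs t ht h => by
    have : s ∈ Ao D s := by rw [hs.2, ← ht.2]; exact ⟨hs.1, h⟩
    exact this.2.1 rfl
  have t2 : ∀ s ∈ T, ∀ t ∈ T, t * s * t ∈ T := fun s hs t ht => by
    refine ⟨hD.cjD s hs.1 t ht.1, ?_⟩
    have := hD.ao_norm (subset_closure ht.1) (by rw [mul_inv_cancel_right]) (hs.2.trans ht.2.symm)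
    rw [hD.inv ht.1] at this; exact this.trans ht.2
  have hT : RI T := hD.mono (fun _ h => h.1) t2 fun s hs t ht hf => by
    have hz := hD.fr_mem hs.1 ht.1 hf
    have h2 := t2 t ht s hs
    exact ⟨hz, (hD.ao_ln hc h2.1 ht.1 hz (h2.2.trans ht.2.symm)).trans h2.2⟩
  obtain ⟨t, ht, hcen⟩ := hT.exists_central t1 (d := a) ⟨ha, rfl⟩
  obtain ⟨g, hg, e⟩ := hc a ha t ht.1
  have hb' : g * b * g⁻¹ ∈ T := ⟨hD.cj_mem hg hb, hD.ao_norm hg (e ▸ ht.2) h⟩
  have := hcen _ hb'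
  rwa [e, cm_cj_iff] at this

theorem cm_of_ao [Finite G] (hc : Cls D) (hd : d ∈ D) (he : e ∈ D) (h : Ao D e = Ao D d)
    (hy : y ∈ D) (hyd : Commute y d) : Commute y e := by
  refine hD.cm_of hy he (fun h1 => ?_) fun hf => ?_
  · have : y ∈ Ao D d := h ▸ ⟨hy, h1⟩
    exact hD.not_od hy hd hyd this.2
  have hz := hD.fr_mem hy he hf
  have h1 : Ao D (y * e * y) = Ao D d := by
    have := hD.ao_norm (subset_closure hy) (by rw [hyd.eq, mul_inv_cancel_right]) h
    rwa [hD.inv hy] at this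
  have h2 : Ao D (y * e * y * e) = Ao D e :=
    (hD.ao_ln hc (hD.cjD e he y hy) he hz (h1.trans h.symm)).trans (h1.trans h.symm)
  have h3 : Ao D (y * e * y * e) ≠ Ao D y := fun h3 =>
    hD.not_fr hy he (hD.cm_of_ao_aux hc hy he (h2.symm.trans h3)) hf
  obtain ⟨p, hp, o1, o2⟩ := hD.exists_od_not hc hz hy h3
  have l1 : y * (y * e * y * e) ∈ D := by
    rw [show y * (y * e * y * e) = y * (y * (e * y * e)) by group, hD.sq' hy]; exact hD.cjD y hy e he
  have l2 := hD.ln_symm hy hz l1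
  obtain ⟨c, hc', -, f1, e1⟩ := hD.l3 hp hz o1.symm hy l2
    (hD.fr_of hp hy (hD.l1' hy hz l1 hp o1) o2)
  have h4 := hD.l4 hz hy l2 he hc' (hD.fr_symm_eq hy he hf) ((hD.fr_symm_eq hz hc' f1).trans e1.symm)
  have h5 : Od c e := Od.symm ⟨by
    rintro rfl; rw [hD.sq _ he, orderOf_one] at h4; exact absurd h4 (by decide), by rw [h4]; decide⟩
  have : c ∈ Ao D (y * e * y * e) := h2 ▸ ⟨hc', h5⟩
  exact this.2.not_fr f1.symm

theorem mem_E_iff [Finite G] (hc : Cls D) (hd : d ∈ D) :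
    e ∈ sameCommutingClass D d ↔ e ∈ D ∧ Ao D e = Ao D d := by
  rw [mem_E]
  refine and_congr_right fun he => ⟨fun h => (hD.ao_of_cm hd he fun y hy => (h y hy).1).antisymm
    (hD.ao_of_cm he hd fun y hy => (h y hy).2), fun h y hy =>
    ⟨hD.cm_of_ao hc hd he h hy, hD.cm_of_ao hc he hd h.symm hy⟩⟩

theorem exists_three [Finite G] (hc : Cls D) (ha : a ∈ D) (hb : b ∈ D) (hab : a * b ∈ D)
    (h : Ao D b ≠ Ao D a) : ∃ x ∈ D, Fr b x ∧ orderOf (a * x) = 3 := by
  have hba := hD.ln_symm ha hb hab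
  obtain ⟨x, hx, o1, o2⟩ := hD.exists_od_not hc ha hb h.symm
  obtain ⟨z, hz, -, f1, e1⟩ := hD.l3 hx ha o1.symm hb hab
    (hD.fr_of hx hb (hD.l1' hb ha hba hx o1) o2)
  have hbz : b * z ∈ D := by rw [e1, mul_assoc, hD.sq z hz, mul_one]; exact hD.cjD z hz a ha
  have hzb := hD.ln_symm hb hz hbz
  have h1 : Ao D b ≠ Ao D z := fun h1 =>
    hD.not_fr ha hz (hD.cm_of_ao hc hb hz h1.symm ha (hD.ln_cm ha hb hab)) f1
  obtain ⟨p, hp, o3, o4⟩ := hD.exists_od_not hc hb hz h1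
  obtain ⟨c, hc', -, f2, e2⟩ := hD.l3 hp hb o3.symm hz hbz
    (hD.fr_of hp hz (hD.l1' hz hb hzb hp o3) o4)
  exact ⟨c, hc', f2, hD.l4 hb hz hbz ha hc' e1.symm ((hD.fr_symm_eq hb hc' f2).trans e2.symm)⟩

/-! ### normal subgroups -/

theorem exists_ln (hc : Cls D) (ha : a ∈ D) (hb : b ∈ D) (hab : a * b ∈ D) (hd : d ∈ D) :
    ∃ c ∈ D, c * d ∈ D := by
  obtain ⟨g, hg, rfl⟩ := hc b hb d hd
  refine ⟨_, hD.cj_mem hg ha, ?_⟩
  have := hD.cj_mem hg hab
  simpa [mul_assoc] using this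

theorem cm_cj_of_normal {N : Subgroup G} [N.Normal] (hN : ∀ d ∈ D, d ∉ N) (hc : c ∈ D) (hd : d ∈ D)
    (hcd : c * d ∈ D) {n : G} (hn : n ∈ N) (hy : n * d * n⁻¹ ∈ D) : Commute (n * d * n⁻¹) d := by
  let π := QuotientGroup.mk' N
  have π1 : π n = 1 := (QuotientGroup.eq_one_iff n).2 hn
  have e : π (n * d * n⁻¹) = π d := by simp [π1]
  have key : ∀ u ∈ D, Commute d u → d * u ∈ D → ¬ Od (n * d * n⁻¹) u := fun u hu h1 h2 h => by
    refine hN _ h2 ((QuotientGroup.eq_one_iff _).1 (eq_one_of_odd_sq (h := π (d * u)) ?_ ?_))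
    · rw [map_mul, ← e, ← map_mul]; exact Odd.of_dvd_nat h.2 (orderOf_map_dvd _ _)
    · rw [← map_mul, hD.sq _ h2, map_one]
  have hcm := hD.ln_cm hc hd hcd
  refine hD.cm_of hy hd (fun h => ?_) fun h => hN _ (hD.fr_mem hy hd h) ?_
  · rcases hD.l2 hc hd hcd hy h with h1 | h1
    · exact key c hc hcm.symm (hcm.eq ▸ hcd) h1
    · exact key _ hcd (hcm.symm.mul_right (Commute.refl d))
        (by rw [hcm.eq, hD.sq' hd]; exact hc) h1
  · refine (QuotientGroup.eq_one_iff _).1 ?_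
    change π _ = 1
    rw [map_mul, map_mul, map_mul, e, ← map_mul, hD.sq d hd, map_one, one_mul, ← map_mul,
      hD.sq d hd, map_one]

/-- a proper normal subgroup centralizes `D` modulo `O₂(G)` -/
theorem le_twoZ [Finite G] (hg : closure D = ⊤) (hc : Cls D) (ha : a ∈ D) (hb : b ∈ D)
    (hab : a * b ∈ D) {N : Subgroup G} [hN : N.Normal] (hne : N ≠ ⊤) : N ≤ twoZCore G := by
  have h0 : ∀ d ∈ D, d ∉ N := fun d hd hdN => hne (top_le_iff.1 (hg ▸ (closure_le _).2 fun e he => by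
    obtain ⟨g, -, rfl⟩ := hc d hd e he
    exact hN.conj_mem d hdN g))
  have hcj : ∀ g : G, ∀ d ∈ D, g * d * g⁻¹ ∈ D := fun g d hd => hD.cj_mem (hg ▸ mem_top g) hd
  have key : ∀ d ∈ D, ∀ n ∈ N, n * d * n⁻¹ * d ∈ pCore 2 G := fun d hd n hn => by
    obtain ⟨c, hc', hcd⟩ := hD.exists_ln hc ha hb hab hd
    have h1 : ∀ m ∈ N, Commute (m * d * m⁻¹) d := fun m hm =>
      hD.cm_cj_of_normal h0 hc' hd hcd hm (hcj m d hd)
    have h2 : ∀ m ∈ N, ∀ m' ∈ N, Commute (m * d * m⁻¹) (m' * d * m'⁻¹) := fun m hm m' hm' => by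
      have := cm_cj (h1 _ (mul_mem (inv_mem hm') hm)) m'
      simpa [mul_assoc] using this
    have h3 : n * d * n⁻¹ * d ∈ N := by
      have := mul_mem hn (hN.conj_mem _ (inv_mem hn) d)
      rw [hD.inv hd] at this; simpa [mul_assoc] using this
    refine map_pCore_le_of_normal N (bs' h3 ((hD.cm_iff (hcj n d hd) hd).1 (h1 n hn)) fun m hm => ?_)
    refine ⟨1, ?_⟩
    have e : m * (n * d * n⁻¹ * d) * m⁻¹ = (m * n * d * (m * n)⁻¹) * (m * d * m⁻¹) := by group
    have s1 := (hD.cm_iff (hcj n d hd) hd).1 (h1 n hn)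
    have s2 := (hD.cm_iff (hcj _ d hd) (hcj _ d hd)).1 (h2 _ (mul_mem hm hn) m hm)
    have cc : Commute (n * d * n⁻¹ * d) ((m * n * d * (m * n)⁻¹) * (m * d * m⁻¹)) :=
      ((h2 n hn _ (mul_mem hm hn)).mul_right (h2 n hn m hm)).mul_left
        ((h1 _ (mul_mem hm hn)).symm.mul_right (h1 m hm).symm)
    rw [e, pow_one, cc.mul_pow, pow_two, pow_two, s1, s2, one_mul]
  intro n hn
  rw [twoZCore, mem_comap, mem_center_iff]
  intro g
  obtain ⟨g, rfl⟩ := QuotientGroup.mk'_surjective _ g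
  have hg' : g ∈ closure D := hg ▸ mem_top g
  induction hg' using closure_induction'' with
  | mem d hd =>
    have := (QuotientGroup.eq_one_iff _).2 (key d hd n hn)
    rw [← map_mul, ← map_mul, eq_comm, ← mul_inv_eq_one, ← map_inv, ← map_mul, mul_inv_rev, hD.inv hd,
      ← mul_assoc]
    exact this
  | inv_mem d hd =>
    have := (QuotientGroup.eq_one_iff _).2 (key d hd n hn)
    rw [hD.inv hd, ← map_mul, ← map_mul, eq_comm, ← mul_inv_eq_one, ← map_inv, ← map_mul, mul_inv_rev,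
      hD.inv hd, ← mul_assoc]
    exact this
  | one => simp
  | mul g k _ _ ihg ihk => rw [map_mul, mul_assoc, ihk, ← mul_assoc, ihg, mul_assoc]

theorem perfect (hg : closure D = ⊤) (hc : Cls D) (ha : a ∈ D) (hb : b ∈ D) (hab : a * b ∈ D) :
    commutator G = ⊤ := by
  have h1 : ∀ d ∈ D, ∀ e ∈ D, d * e ∈ commutator G := fun d hd e he => by
    obtain ⟨g, -, rfl⟩ := hc d hd e he
    have := commutator_mem_commutator (mem_top d) (mem_top g)
    rwa [commutatorElement_def, hD.inv hd, mul_assoc, mul_assoc, ← mul_assoc g] at this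
  refine top_le_iff.1 (hg ▸ (closure_le _).2 fun d hd => ?_)
  have h2 := mul_mem (inv_mem (h1 a ha b hb)) (h1 _ hab d hd)
  rwa [inv_mul_cancel_left] at h2

end RI

theorem isSolvable_twoZ [Finite G] : Group.IsSolvable (twoZCore G) :=
  isSolvable_comap (isSolvable_of_isMulCommutative inferInstance) _
    (by rw [QuotientGroup.ker_mk']; exact isSolvable_of_isPGroup isPGroup_pCore)

theorem ne_top_of_solvable (hp : commutator G = ⊤) (ha : a ≠ 1) {N : Subgroup G}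
    (hN : Group.IsSolvable N) : N ≠ ⊤ := by
  rintro rfl
  haveI : Group.IsSolvable G := isSolvable_of_equiv topEquiv hN
  haveI : Nontrivial G := ⟨⟨a, 1, ha⟩⟩
  exact (Group.IsSolvable.commutator_lt_top_of_nontrivial G).ne hp

theorem RI.simple_quot [Finite G] (hD : RI D) (hg : closure D = ⊤) (hc : Cls D) (ha : a ∈ D)
    (hb : b ∈ D) (hab : a * b ∈ D) : IsSimpleGroup (G ⧸ twoZCore G) := by
  have h1 := ne_top_of_solvable (hD.perfect hg hc ha hb hab) (hD.ne a ha) isSolvable_twoZ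
  haveI : Nontrivial (G ⧸ twoZCore G) := QuotientGroup.nontrivial_iff.2 h1
  refine ⟨fun N hN => ?_⟩
  by_cases h : N.comap (QuotientGroup.mk' (twoZCore G)) = ⊤
  · right
    rwa [← comap_top (QuotientGroup.mk' (twoZCore G)),
      (comap_injective (QuotientGroup.mk'_surjective _)).eq_iff] at h
  · left
    have := hD.le_twoZ hg hc ha hb hab h
    rw [eq_bot_iff]
    intro n hn
    obtain ⟨n, rfl⟩ := QuotientGroup.mk'_surjective _ n
    exact (QuotientGroup.eq_one_iff n).2 (this hn)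

theorem RI.exists_ln_of (hD : RI D) (h : (D ∩ commutingProducts D).Nonempty) :
    ∃ a ∈ D, ∃ b ∈ D, a * b ∈ D := by
  obtain ⟨_, h, a, ha, b, hb, -, -, rfl⟩ := h
  exact ⟨a, ha, b, hb, h⟩

end CA.RInv
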