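import Cfsg.Agent.Lib.Root.I2

/-!
Root involutions with an invariant partition coarser than commuting: fixed blocks, parity, the
involutions centralising members of two blocks.
-/

set_option autoImplicit false
set_option linter.unusedSectionVars false

namespace CA.RInv

open Subgroup Cfsg

variable {G : Type*} [Group G] {ι : Type*} {D : Set G} {c : G → ι} {a b d e g k t v w x y : G}

/-- number of points of an invariant set modulo 2 -/
theorem ncard_modEq [Finite G] {P : Subgroup G} (hP : IsPGroup 2 P) {Y : Set G}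
    (hY : ∀ p ∈ P, ∀ y ∈ Y, p * y * p⁻¹ ∈ Y) :
    Y.ncard ≡ {y | y ∈ Y ∧ ∀ p ∈ P, Commute p y}.ncard [MOD 2] := by
  letI : MulAction P Y :=
    { smul := fun p y => ⟨p * y * (p : G)⁻¹, hY p p.2 y y.2⟩
      one_smul := fun y => Subtype.ext (by change ((1 : P) : G) * y * ((1 : P) : G)⁻¹ = y; simp)
      mul_smul := fun p q y => Subtype.ext (by
        change ((p * q : P) : G) * y * ((p * q : P) : G)⁻¹ = p * (q * y * (q : G)⁻¹) * (p : G)⁻¹
        simp [mul_assoc]) }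
  have h := hP.card_modEq_card_fixedPoints Y
  rw [Nat.card_coe_set_eq, Nat.card_coe_set_eq,
    ← Set.ncard_image_of_injective (MulAction.fixedPoints P Y) Subtype.val_injective] at h
  convert h using 2
  ext y
  refine ⟨fun ⟨h1, h2⟩ => ⟨⟨y, h1⟩, fun p => Subtype.ext ?_, rfl⟩, ?_⟩
  · change (p : G) * y * (p : G)⁻¹ = y
    rw [(h2 p p.2).eq, mul_inv_cancel_right]
  · rintro ⟨y, h1, rfl⟩
    exact ⟨y.2, fun p hp => mul_inv_eq_iff_eq_mul.1 (congrArg Subtype.val (h1 ⟨p, hp⟩))⟩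

theorem exists_cm_of_odd [Finite G] {P : Subgroup G} (hP : IsPGroup 2 P) {Y : Set G}
    (hY : ∀ p ∈ P, ∀ y ∈ Y, p * y * p⁻¹ ∈ Y) (ho : Odd Y.ncard) : ∃ y ∈ Y, ∀ p ∈ P, Commute p y := by
  by_contra h
  have := ncard_modEq hP hY
  rw [show {y | y ∈ Y ∧ ∀ p ∈ P, Commute p y} = ∅ from
    Set.eq_empty_of_forall_notMem fun y hy => h ⟨y, hy⟩, Set.ncard_empty] at this
  exact (Nat.not_even_iff_odd.2 ho) (even_iff_two_dvd.2 ((Nat.modEq_zero_iff_dvd).1 this))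

theorem pg_two (h : y * y = 1) : IsPGroup 2 (zpowers y) := isPGroup_zpowers (k := 1) (by simpa [pow_two] using h)

theorem mem_two (h : y * y = 1) (hk : k ∈ zpowers y) : k = 1 ∨ k = y := by
  obtain ⟨n, rfl⟩ := hk
  have h2 : y ^ (2 : ℤ) = 1 := by rw [zpow_two, h]
  rcases Int.even_or_odd' n with ⟨m, rfl | rfl⟩
  · left; change y ^ (2 * m) = 1; rw [zpow_mul, h2, one_zpow]
  · right; change y ^ (2 * m + 1) = y; rw [zpow_add, zpow_mul, h2, one_zpow, one_mul, zpow_one]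

theorem ncard_modEq_two [Finite G] (h : y * y = 1) {Y : Set G} (hY : ∀ x ∈ Y, y * x * y⁻¹ ∈ Y) :
    Y.ncard ≡ {x | x ∈ Y ∧ Commute y x}.ncard [MOD 2] := by
  have := ncard_modEq (pg_two h) (Y := Y) (fun p hp x hx => by
    rcases mem_two h hp with rfl | rfl
    · simpa using hx
    · exact hY x hx)
  rwa [show {x | x ∈ Y ∧ ∀ p ∈ zpowers y, Commute p x} = {x | x ∈ Y ∧ Commute y x} from
    Set.ext fun x => and_congr_right fun _ => ⟨fun h1 => h1 y (mem_zpowers y), fun h1 p hp => by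
      rcases mem_two h hp with rfl | rfl
      · exact Commute.one_left _
      · exact h1⟩] at this

theorem sq_mul_cm (h : Commute x y) (hx : x * x = 1) (hy : y * y = 1) : x * y * (x * y) = 1 := by
  rw [mul_assoc, ← mul_assoc y, ← h.eq, mul_assoc x y, hy, mul_one, hx]

/-- an invariant non-trivial partition of `D` coarser than commuting -/
structure Blk (D : Set G) (c : G → ι) : Prop where
  ri : RI D
  cm : ∀ a ∈ D, ∀ b ∈ D, Commute a b → c a = c b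
  cj : ∀ d ∈ D, ∀ a ∈ D, ∀ b ∈ D, c a = c b → c (d * a * d) = c (d * b * d)
  nt : ∃ a ∈ D, ∃ b ∈ D, c a ≠ c b

/-- `y` centralises members of two different blocks -/
def Tw (D : Set G) (c : G → ι) (y : G) : Prop :=
  y * y = 1 ∧ ∃ a ∈ D, ∃ b ∈ D, c a ≠ c b ∧ Commute y a ∧ Commute y b

/-- the blocks are commutative -/
def Ab (D : Set G) (c : G → ι) : Prop := ∀ a ∈ D, ∀ b ∈ D, c a = c b → Commute a b

namespace Blk

variable (h : Blk D c)
include h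

theorem od (ha : a ∈ D) (hb : b ∈ D) (n : c a ≠ c b) : Od a b := by
  rcases h.ri.pair a ha b hb with h1 | h1 | h1
  · exact absurd (h.cm a ha b hb h1) n
  · exact h1
  · exact absurd ((h.cm a ha _ h1.2 (h.ri.fr_cm_l ha hb h1.1)).trans
      (h.cm b hb _ h1.2 (h.ri.fr_cm_r ha hb h1.1)).symm) n

theorem exists_ne (a : G) : ∃ x ∈ D, c x ≠ c a := by
  obtain ⟨x, hx, y, hy, n⟩ := h.nt
  by_cases e : c x = c a
  · exact ⟨y, hy, fun e' => n (e.trans e'.symm)⟩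
  · exact ⟨x, hx, e⟩

theorem cls : Cls D := fun a ha b hb => by
  have key : ∀ a ∈ D, ∀ b ∈ D, c a ≠ c b → ∃ g ∈ closure D, b = g * a * g⁻¹ := fun a ha b hb n => by
    obtain ⟨k, hk, e⟩ := h.ri.od_cj hb ha (h.od hb ha n.symm)
    exact ⟨k, zpowers_le.2 (mul_mem (subset_closure hb) (subset_closure ha)) hk, e⟩
  by_cases e : c a = c b
  · obtain ⟨x, hx, n⟩ := h.exists_ne a
    obtain ⟨g, g1, rfl⟩ := key a ha x hx n.symm
    obtain ⟨k, k1, rfl⟩ := key _ hx b hb (e ▸ n)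
    exact ⟨k * g, mul_mem k1 g1, by group⟩
  · exact key a ha b hb e

theorem not_tw (hd : d ∈ D) : ¬ Tw D c d := fun ⟨_, a, ha, b, hb, n, h1, h2⟩ =>
  n ((h.cm d hd a ha h1).symm.trans (h.cm d hd b hb h2))

theorem not_tw_mul (ha : a ∈ D) (hb : b ∈ D) (hc : Commute a b) (n : a ≠ b) : ¬ Tw D c (a * b) := by
  have key : ∀ x ∈ D, Commute (a * b) x → c x = c a := fun x hx h1 => by
    by_contra n1
    have o1 := h.od hx ha n1
    refine h.ri.od_ne_one ha o1 (h.ri.no_two_mul (u := a * b) hx hb ?_ ((h.ri.cm_iff ha hb).1 hc)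
      (fun e => n ?_) (h1.mul_right (Commute.mul_left (Commute.refl a) hc.symm)) o1.2)
    · rw [← mul_assoc, h1.eq, mul_assoc, mul_assoc, ← hc.eq, h.ri.sq' ha]
    · rw [mul_eq_one_iff_eq_inv, h.ri.inv hb] at e; exact e
  rintro ⟨-, x, hx, y, hy, n1, h1, h2⟩
  exact n1 ((key x hx h1).trans (key y hy h2).symm)

theorem cj_cent (ha : a ∈ D) (hb : b ∈ D) (n : c a ≠ c b) (h1 : Commute y a) (h2 : Commute y b) :
    ∃ k, Commute y k ∧ a = k * b * k⁻¹ := by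
  obtain ⟨_, ⟨m, rfl⟩, e⟩ := h.ri.od_cj ha hb (h.od ha hb n)
  exact ⟨_, (h1.mul_right h2).zpow_right m, e⟩

theorem cj_tw (hy : Tw D c y) (ha : a ∈ D) (hb : b ∈ D) (h1 : Commute y a) (h2 : Commute y b) :
    ∃ k, Commute y k ∧ a = k * b * k⁻¹ := by
  by_cases e : c a = c b
  · obtain ⟨-, x, hx, x', hx', n, h3, h4⟩ := hy
    have key : ∀ x ∈ D, Commute y x → c x ≠ c a → ∃ k, Commute y k ∧ a = k * b * k⁻¹ := fun x hx h3 n => by
      obtain ⟨k, k1, e1⟩ := h.cj_cent ha hx n.symm h1 h3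
      obtain ⟨l, l1, e2⟩ := h.cj_cent hx hb (e ▸ n) h3 h2
      exact ⟨k * l, k1.mul_right l1, by rw [e1, e2]; group⟩
    by_cases e' : c x = c a
    · exact key x' hx' h4 fun e'' => n (e'.trans e''.symm)
    · exact key x hx h3 e'
  · exact h.cj_cent ha hb e h1 h2

variable (hg : closure D = ⊤)
include hg

theorem mem (hd : d ∈ D) (g : G) : g * d * g⁻¹ ∈ D := h.ri.cj_mem (hg ▸ mem_top g) hd

theorem cjg (g : G) (ha : a ∈ D) (hb : b ∈ D) (e : c a = c b) : c (g * a * g⁻¹) = c (g * b * g⁻¹) := by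
  have hg' : g ∈ closure D := hg ▸ mem_top g
  induction hg' using closure_induction'' generalizing a b with
  | one => simpa using e
  | mem d hd => rw [h.ri.inv hd]; exact h.cj d hd a ha b hb e
  | inv_mem d hd => rw [inv_inv, h.ri.inv hd]; exact h.cj d hd a ha b hb e
  | mul g k _ _ h1 h2 =>
    have := h1 (h.mem hg ha k) (h.mem hg hb k) (h2 ha hb e)
    simpa [mul_assoc] using this

theorem cjg_iff (g : G) (ha : a ∈ D) (hb : b ∈ D) : c (g * a * g⁻¹) = c (g * b * g⁻¹) ↔ c a = c b :=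
  ⟨fun e => by simpa [mul_assoc] using h.cjg hg g⁻¹ (h.mem hg ha g) (h.mem hg hb g) e, h.cjg hg g ha hb⟩

/-- the stabiliser of the block of `a` -/
def stab (ha : a ∈ D) : Subgroup G where
  carrier := {g | c (g * a * g⁻¹) = c a}
  one_mem' := by simp
  mul_mem' := fun {g k} h1 h2 => by
    have := (h.cjg hg g (h.mem hg ha k) ha h2).trans h1
    simpa [mul_assoc] using this
  inv_mem' := fun {g} h1 => by
    have := h.cjg hg g⁻¹ (h.mem hg ha g) ha h1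
    simpa [mul_assoc] using this.symm

theorem mem_stab (ha : a ∈ D) : g ∈ h.stab hg ha ↔ c (g * a * g⁻¹) = c a := Iff.rfl

theorem stab_eq (ha : a ∈ D) (hb : b ∈ D) (e : c a = c b) : h.stab hg ha = h.stab hg hb := by
  ext g
  rw [mem_stab, mem_stab, h.cjg hg g ha hb e, e]

theorem stab_of_cm (ha : a ∈ D) (h1 : Commute g a) : g ∈ h.stab hg ha := by
  rw [mem_stab, h1.eq, mul_inv_cancel_right]

theorem mem_stab_iff (ha : a ∈ D) (hd : d ∈ D) : d ∈ h.stab hg ha ↔ c d = c a := by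
  have key : ∀ d ∈ D, c d = c a → d ∈ h.stab hg ha := fun d hd e => by
    rw [← h.stab_eq hg hd ha e]; exact h.stab_of_cm hg hd (Commute.refl d)
  refine ⟨fun h1 => ?_, key d hd⟩
  by_contra n
  have o := h.od hd ha n
  obtain ⟨k, hk, e⟩ := h.ri.od_cj hd ha o
  exact n (e ▸ zpowers_le.2 (mul_mem h1 (key a ha rfl)) hk)

theorem dih0 (hy : y * y = 1) (hx : x ∈ D) (o : Od x (y * x * y⁻¹)) :
    ∃ k ∈ zpowers (x * (y * x * y⁻¹)), k * x ∈ D ∧ Commute y (k * x) ∧ Commute (y * (k * x)) x ∧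
      k * x * x * (k * x)⁻¹ = y * x * y⁻¹ := by
  have iy : y⁻¹ = y := inv_eq_of_mul_eq_one_right hy
  have hx' := h.mem hg hx y
  obtain ⟨k, ⟨m, hk⟩, hw, e⟩ := h.ri.middle hx hx' o
  have e1 : y * k * y⁻¹ = k⁻¹ := by
    rw [← hk, ← conj_zpow, ← inv_zpow, h.ri.inv_mul hx hx', iy]
    congr 1
    simp only [← mul_assoc]
    rw [mul_assoc _ y y, hy, mul_one]
  have e2 : Commute y (k * x) := by
    have : y * (k * x) * y⁻¹ = k * x := by
      rw [← conj_mul, e1, ← e, mul_assoc k x x, h.ri.sq x hx]; group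
    exact mul_inv_eq_iff_eq_mul.1 this
  refine ⟨k, ⟨m, hk⟩, hw, e2, ?_, by rw [h.ri.inv hw, e]⟩
  refine mul_inv_eq_iff_eq_mul.1 ?_
  rw [mul_inv_rev, h.ri.inv hw, mul_assoc y, ← mul_assoc _ (k * x), mul_assoc y, mul_assoc y, ← mul_assoc _ _ y⁻¹, e]
  simp [iy, ← mul_assoc, hy, mul_assoc _ y y]

theorem dih (hy : y * y = 1) (hx : x ∈ D) (n : y ∉ h.stab hg hx) :
    ∃ w ∈ D, Commute y w ∧ Commute (y * w) x ∧ c w ≠ c x := by
  obtain ⟨k, -, hw, h1, h2, e⟩ := h.dih0 hg hy hx (h.od hx (h.mem hg hx y) (Ne.symm n))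
  refine ⟨_, hw, h1, h2, fun e3 => n ?_⟩
  have := (h.mem_stab_iff hg hx hw).2 e3
  rwa [mem_stab, e] at this

theorem tw_cj (hy : Tw D c y) (g : G) : Tw D c (g * y * g⁻¹) := by
  obtain ⟨h1, a, ha, b, hb, n, h2, h3⟩ := hy
  exact ⟨by rw [conj_mul, h1]; simp, _, h.mem hg ha g, _, h.mem hg hb g, mt (h.cjg_iff hg g ha hb).1 n,
    cm_cj h2 g, cm_cj h3 g⟩

theorem ker [IsSimpleGroup G] (hy : y ≠ 1) : ∃ x, ∃ hx : x ∈ D, y ∉ h.stab hg hx := by
  by_contra! n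
  let N : Subgroup G := ⨅ x, ⨅ hx : x ∈ D, h.stab hg hx
  have m : ∀ g, g ∈ N ↔ ∀ x (hx : x ∈ D), g ∈ h.stab hg hx := fun g => by simp [N, mem_iInf]
  have hN : N.Normal := ⟨fun u hu g => (m _).2 fun x hx => by
    have := h.cjg hg g (h.mem hg (h.mem hg hx g⁻¹) u) (h.mem hg hx g⁻¹) ((m u).1 hu _ (h.mem hg hx g⁻¹))
    rw [mem_stab]
    simpa [mul_assoc] using this⟩
  rcases hN.eq_bot_or_eq_top with e | e
  · exact hy (mem_bot.1 (e ▸ (m y).2 n))
  · obtain ⟨a, ha, b, hb, n⟩ := h.nt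
    exact n ((h.mem_stab_iff hg hb ha).1 ((m a).1 (e ▸ mem_top a) b hb))

section simple
variable [IsSimpleGroup G]

theorem tw_mul (hy : Tw D c y) (y1 : y ≠ 1) (hw : w ∈ D) (hc : Commute y w) : Tw D c (y * w) := by
  obtain ⟨x, hx, n⟩ := h.ker hg y1
  obtain ⟨u, hu, h1, h2, h3⟩ := h.dih hg hy.1 hx n
  obtain ⟨k, k1, rfl⟩ := h.cj_tw hy hw hu hc h1
  have : Tw D c (y * u) := ⟨sq_mul_cm h1 hy.1 (h.ri.sq u hu), u, hu, x, hx, h3,
    h1.mul_left (Commute.refl u), h2⟩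
  convert h.tw_cj hg this k using 1
  rw [← conj_mul, ← k1.eq, mul_inv_cancel_right]

theorem mem_of_not_tw (hy : y * y = 1) (y1 : y ≠ 1) (n : ¬ Tw D c y) : y ∈ D := by
  obtain ⟨x, hx, n1⟩ := h.ker hg y1
  obtain ⟨u, hu, h1, h2, h3⟩ := h.dih hg hy hx n1
  have t1 : Tw D c (y * u) := ⟨sq_mul_cm h1 hy (h.ri.sq u hu), u, hu, x, hx, h3,
    h1.mul_left (Commute.refl u), h2⟩
  by_cases e : y * u = 1
  · rw [mul_eq_one_iff_eq_inv, h.ri.inv hu] at e
    exact e ▸ hu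
  · have := h.tw_mul hg t1 e hu (h1.mul_left (Commute.refl u))
    rw [mul_assoc, h.ri.sq u hu, mul_one] at this
    exact absurd this n

theorem ln (ha : a ∈ D) (hb : b ∈ D) (hc : Commute a b) (n : a ≠ b) : a * b ∈ D :=
  h.mem_of_not_tw hg ((h.ri.cm_iff ha hb).1 hc)
    (fun e => n (by rw [mul_eq_one_iff_eq_inv, h.ri.inv hb] at e; exact e)) (h.not_tw_mul ha hb hc n)

theorem od_of_stab (ha : a ∈ D) (ht : t ∈ D) (he : e ∈ D) (n : c t ≠ c a) (n' : t ≠ e)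
    (h1 : t * e ∈ h.stab hg ha) : Od t e := by
  rcases h.ri.pair t ht e he with h2 | h2 | h2
  · have h3 := h.ln hg ht he h2 n'
    exact absurd ((h.cm t ht _ h3 ((Commute.refl t).mul_right h2)).trans ((h.mem_stab_iff hg ha h3).1 h1)) n
  · exact h2
  · exact absurd ((h.cm t ht _ h2.2 (h.ri.fr_cm_l ht he h2.1)).trans ((h.mem_stab_iff hg ha h2.2).1
      (by rw [mul_assoc (t * e)]; exact mul_mem h1 h1))) n

theorem odd_blk [Finite G] (hx : x ∈ D) : Odd {b | b ∈ D ∧ c b = c x}.ncard := by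
  obtain ⟨a, ha, n⟩ := h.exists_ne x
  set X := {t | t ∈ D ∧ c (t * a * t⁻¹) = c x} with hX
  have s1 : ∀ t ∈ X, c t ≠ c a := fun t ht e =>
    n (((h.mem_stab hg ha).1 ((h.mem_stab_iff hg ha ht.1).2 e)).symm.trans ht.2)
  have s2 : ∀ t ∈ X, c (t * x * t⁻¹) = c a := fun t ht => by
    have := h.cjg hg t hx (h.mem hg ha t) ht.2.symm
    rw [this, h.ri.inv ht.1, ← mul_assoc, ← mul_assoc, h.ri.sq t ht.1, one_mul, mul_assoc a, h.ri.sq t ht.1, mul_one]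
  have s3 : ∀ t ∈ X, ∀ e ∈ X, t * e ∈ h.stab hg ha := fun t ht e he => by
    have := (h.cjg hg t (h.mem hg ha e) hx he.2).trans (s2 t ht)
    rw [mem_stab]
    simpa [mul_assoc] using this
  have s4 : (fun t => t * a * t⁻¹) '' X = {b | b ∈ D ∧ c b = c x} := by
    ext b
    refine ⟨?_, fun ⟨hb, e⟩ => ?_⟩
    · rintro ⟨t, ht, rfl⟩
      exact ⟨h.mem hg ha t, ht.2⟩
    · obtain ⟨k, -, hk, e1⟩ := h.ri.middle ha hb (h.od ha hb (e ▸ n))
      have e2 : k * a * a * (k * a)⁻¹ = b := by rw [h.ri.inv hk, e1]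
      exact ⟨k * a, ⟨hk, by rw [e2, e]⟩, e2⟩
  have s5 : Set.InjOn (fun t => t * a * t⁻¹) X := fun t ht e he h1 => by
    by_contra n1
    have o := h.od_of_stab hg ha ht.1 he.1 (s1 t ht) n1 (s3 t ht e he)
    refine h.ri.od_ne_one he.1 o (h.ri.inv_lemma o.2 (h.ri.inverts ht.1 he.1) (w := a) ?_
      (h.od ha ht.1 (s1 t ht).symm))
    have h2 : t * a * t⁻¹ = e * a * e⁻¹ := h1
    refine Commute.symm (mul_inv_eq_iff_eq_mul.1 ?_)
    rw [mul_inv_rev, mul_assoc t, mul_assoc t, ← mul_assoc _ e⁻¹, ← h2, h.ri.inv ht.1]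
    simp [← mul_assoc, h.ri.sq t ht.1, mul_assoc _ t t]
  rw [← s4, Set.InjOn.ncard_image s5]
  obtain ⟨t, ht, -⟩ : x ∈ (fun t => t * a * t⁻¹) '' X := s4 ▸ ⟨hx, rfl⟩
  have m := ncard_modEq_two (h.ri.sq t ht.1) (Y := X) fun e he => ⟨h.mem hg he.1 t, by
    have h1 := h.cjg hg e (h.mem hg ha t⁻¹) hx (by rw [inv_inv, h.ri.inv ht.1, ← ht.2, h.ri.inv ht.1])
    have h2 := (h.cjg hg t (h.mem hg (h.mem hg ha t⁻¹) e) ha (h1.trans (s2 e he))).trans ht.2
    simpa [mul_assoc] using h2⟩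
  rw [show {e | e ∈ X ∧ Commute t e} = {t} from Set.ext fun e => ⟨fun he => by
    by_contra n1
    exact h.ri.not_od ht.1 he.1.1 he.2 (h.od_of_stab hg ha ht.1 he.1.1 (s1 t ht) (Ne.symm n1) (s3 t ht e he.1)),
    by rintro rfl; exact ⟨ht, Commute.refl _⟩⟩, Set.ncard_singleton] at m
  exact Nat.odd_iff.2 m

theorem exists_cm [Finite G] (hy : y * y = 1) (ha : a ∈ D) (h1 : y ∈ h.stab hg ha) :
    ∃ b ∈ D, c b = c a ∧ Commute y b := by
  obtain ⟨b, hb, h2⟩ := exists_cm_of_odd (pg_two hy) (Y := {b | b ∈ D ∧ c b = c a}) (fun p hp b hb =>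
    ⟨h.mem hg hb.1 p, (h.cjg hg p hb.1 ha hb.2).trans (zpowers_le.2 h1 hp)⟩) (h.odd_blk hg ha)
  exact ⟨b, hb.1, hb.2, h2 y (mem_zpowers y)⟩

theorem odd_D [Finite G] : Odd D.ncard := by
  obtain ⟨d, hd, -⟩ := h.nt
  have m1 := ncard_modEq_two (h.ri.sq d hd) (Y := D) fun x hx => h.mem hg hx d
  have m2 := ncard_modEq_two (h.ri.sq d hd) (Y := {b | b ∈ D ∧ c b = c d}) fun x hx =>
    ⟨h.mem hg hx.1 d, (h.cjg hg d hx.1 hd hx.2).trans (by simp)⟩
  rw [show {x | x ∈ {b | b ∈ D ∧ c b = c d} ∧ Commute d x} = {x | x ∈ D ∧ Commute d x} from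
    Set.ext fun x => ⟨fun hx => ⟨hx.1.1, hx.2⟩, fun hx => ⟨⟨hx.1, (h.cm d hd x hx.1 hx.2).symm⟩, hx.2⟩⟩] at m2
  exact Nat.odd_iff.2 (Eq.trans (m1.trans m2.symm) (Nat.odd_iff.1 (h.odd_blk hg hd)))

theorem se [Finite G] (hT : ∀ y, y ≠ 1 → ¬ Tw D c y) (ha : a ∈ D) : IsStronglyEmbedded (h.stab hg ha) := by
  obtain ⟨x, hx, n⟩ := h.exists_ne a
  refine ⟨fun e => n ((h.mem_stab_iff hg ha hx).1 (e ▸ mem_top x)), ?_, fun g hg' => ?_⟩
  · rw [even_iff_two_dvd, ← h.ri.ord ha]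
    exact orderOf_dvd_natCard _ ((h.mem_stab_iff hg ha ha).2 rfl)
  · by_contra o
    obtain ⟨⟨y, y1, u, y2, rfl⟩, hy⟩ := exists_prime_orderOf_dvd_card' 2
      (even_iff_two_dvd.1 (Nat.not_odd_iff_even.1 o))
    rw [← orderOf_coe] at hy
    have hy' : orderOf (g * u * g⁻¹) = 2 := hy
    obtain ⟨b, hb, e1, c1⟩ := h.exists_cm hg (sq_of_ord hy') ha y1
    obtain ⟨b', hb', e2, c2⟩ := h.exists_cm hg (sq_of_ord hy') (h.mem hg ha g) (by
      have := h.cjg hg g (h.mem hg ha u) ha y2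
      rw [mem_stab]
      simpa [mul_assoc] using this)
    exact hT _ (ne_of_ord hy') ⟨sq_of_ord hy', b, hb, b', hb', fun e => hg' (e2.symm.trans (e.symm.trans e1)), c1, c2⟩

end simple

end Blk

end CA.RInv
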