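import Cfsg.Agent.Lib.Root.J1
import Cfsg.Agent.Lib.Loc.ZN6
import Cfsg.Agent.Lib.Bend.BendCor

/-!
Root involutions with a line and an invariant partition coarser than commuting: the blocks are
commutative.
-/

set_option autoImplicit false
set_option linter.unusedSectionVars false

namespace CA.RInv

open Subgroup Cfsg CA.Core CA.AmbSyl CA.AmbTr CA.AmbCore

universe u v

section
variable {G : Type*} [Group G] {K : Type*} [Group K] {ι : Type*} {D : Set G} {c : G → ι}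
  {a b d e g k t v v' w x y : G}

theorem RI.comap {D : Set K} (h : RI D) (f : G →* K) (hf : Function.Injective f) : RI (f ⁻¹' D) where
  sq := fun d hd => hf (by rw [map_mul, h.sq _ hd, map_one])
  ne := fun d hd e => h.ne _ hd (by rw [e, map_one])
  cjD := fun d hd e he => by simpa using h.cjD _ hd _ he
  pair := fun a ha b hb => by
    have e : orderOf (f a * f b) = orderOf (a * b) := by rw [← map_mul, orderOf_injective f hf]
    rcases h.pair _ ha _ hb with h1 | h1 | h1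
    · exact Or.inl (hf (by simpa using h1.eq))
    · exact Or.inr (Or.inl ⟨fun e => h1.1 (congrArg f e), e ▸ h1.2⟩)
    · exact Or.inr (Or.inr ⟨e.symm.trans h1.1, by simpa using h1.2⟩)

theorem RI.fr_map (h : RI D) (f : G →* K) (h1 : ∀ d ∈ D, f d ≠ 1) (ha : a ∈ D) (hb : b ∈ D) (h2 : Fr a b) :
    Fr (f a) (f b) := by
  have : orderOf (f (a * b)) = 2 ^ (1 + 1) := orderOf_eq_prime_pow
    (by rw [← map_pow, pow_one, pow_two, ← mul_assoc]; exact h1 _ (h.fr_mem ha hb h2))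
    (by rw [← map_pow, show 2 ^ (1 + 1) = orderOf (a * b) from Eq.symm h2, pow_orderOf_eq_one, map_one])
  rwa [map_mul] at this

theorem od_map (f : G →* K) (h : Od a b) (n : f a ≠ f b) : Od (f a) (f b) :=
  ⟨n, Odd.of_dvd_nat h.2 (by rw [← map_mul]; exact orderOf_map_dvd _ _)⟩

theorem RI.map (h : RI D) (f : G →* K) (h1 : ∀ d ∈ D, f d ≠ 1) : RI (f '' D) where
  sq := by rintro _ ⟨d, hd, rfl⟩; rw [← map_mul, h.sq d hd, map_one]
  ne := by rintro _ ⟨d, hd, rfl⟩; exact h1 d hd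
  cjD := by
    rintro _ ⟨d, hd, rfl⟩ _ ⟨e, he, rfl⟩
    exact ⟨_, h.cjD d hd e he, by simp⟩
  pair := by
    rintro _ ⟨a, ha, rfl⟩ _ ⟨b, hb, rfl⟩
    rcases h.pair a ha b hb with h2 | h2 | h2
    · exact Or.inl (h2.map f)
    · by_cases e : f a = f b
      · exact Or.inl (e ▸ Commute.refl _)
      · exact Or.inr (Or.inl (od_map f h2 e))
    · exact Or.inr (Or.inr ⟨h.fr_map f h1 ha hb h2.1, _, h2.2, by simp⟩)

theorem RI.cm_of_map (h : RI D) (f : G →* K) (h1 : ∀ d ∈ D, f d ≠ 1)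
    (h2 : ∀ a ∈ D, ∀ b ∈ D, Od a b → f a ≠ f b) (ha : a ∈ D) (hb : b ∈ D) (hc : Commute (f a) (f b)) :
    Commute a b :=
  h.cm_of ha hb (fun o => (h.map f h1).not_od ⟨a, ha, rfl⟩ ⟨b, hb, rfl⟩ hc (od_map f o (h2 a ha b hb o)))
    fun o => (h.map f h1).not_fr ⟨a, ha, rfl⟩ ⟨b, hb, rfl⟩ hc (h.fr_map f h1 ha hb o)

theorem closure_map_top (f : G →* K) (hf : Function.Surjective f) (hg : closure D = ⊤) : closure (f '' D) = ⊤ := by
  rw [← MonoidHom.map_closure, hg, map_top_of_surjective f hf]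

theorem RI.not_mem_twoZ [Finite G] (h : RI D) (hg : closure D = ⊤) (hc : Cls D) (hv : v ∈ D) (hv' : v' ∈ D)
    (hl : v * v' ∈ D) (hd : d ∈ D) : QuotientGroup.mk' (twoZCore G) d ≠ 1 := fun e => by
  refine ne_top_of_solvable (h.perfect hg hc hv hv' hl) (h.ne d hd) isSolvable_twoZ (eq_top_iff.2 ?_)
  rw [← hg, closure_le]
  intro x hx
  obtain ⟨g, -, rfl⟩ := hc d hd x hx
  exact (twoZCore_normal G).conj_mem _ ((QuotientGroup.eq_one_iff d).1 e) g

theorem RI.ne_twoZ [Finite G] (h : RI D) (ha : a ∈ D) (hb : b ∈ D) (o : Od a b) :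
    QuotientGroup.mk' (twoZCore G) a ≠ QuotientGroup.mk' (twoZCore G) b := fun e => by
  have m : a * b ∈ twoZCore G := by
    rw [← h.inv ha]; exact QuotientGroup.eq.1 e
  let π := QuotientGroup.mk' (pCore 2 G)
  have e1 : π a * π (a * b) = π (a * b) * π a := mem_center_iff.1 m _
  have e2 : π (a * b) * π (a * b) = 1 := by
    have := congrArg π (h.inverts ha hb)
    rw [map_mul, map_mul, e1, map_inv, mul_inv_cancel_right, map_inv] at this
    exact mul_eq_one_iff_eq_inv.2 this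
  exact h.od_ne_one hb o (eq_one_of_odd_two isPGroup_pCore ((QuotientGroup.eq_one_iff _).1
    (eq_one_of_odd_sq (h := π _) (Odd.of_dvd_nat o.2 (orderOf_map_dvd _ _)) e2)) o.2)

open Classical in
/-- labels on an image -/
noncomputable def lab (D : Set G) (c : G → ι) (f : G → K) (y : K) : ι :=
  if h : ∃ a ∈ D, f a = y then c h.choose else c 1

namespace Blk

variable (h : Blk D c)
include h

theorem lab_eq (f : G →* K) (h1 : ∀ d ∈ D, f d ≠ 1) (h2 : ∀ a ∈ D, ∀ b ∈ D, Od a b → f a ≠ f b) (ha : a ∈ D) :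
    lab D c f (f a) = c a := by
  have e : ∃ b ∈ D, f b = f a := ⟨a, ha, rfl⟩
  rw [lab, dif_pos e]
  exact h.cm _ e.choose_spec.1 a ha (h.ri.cm_of_map f h1 h2 e.choose_spec.1 ha (by rw [e.choose_spec.2]))

theorem map (f : G →* K) (h1 : ∀ d ∈ D, f d ≠ 1) (h2 : ∀ a ∈ D, ∀ b ∈ D, Od a b → f a ≠ f b) :
    Blk (f '' D) (lab D c f) where
  ri := h.ri.map f h1
  cm := by
    rintro _ ⟨a, ha, rfl⟩ _ ⟨b, hb, rfl⟩ e
    rw [h.lab_eq f h1 h2 ha, h.lab_eq f h1 h2 hb]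
    exact h.cm a ha b hb (h.ri.cm_of_map f h1 h2 ha hb e)
  cj := by
    rintro _ ⟨d, hd, rfl⟩ _ ⟨a, ha, rfl⟩ _ ⟨b, hb, rfl⟩ e
    rw [h.lab_eq f h1 h2 ha, h.lab_eq f h1 h2 hb] at e
    rw [← map_mul, ← map_mul, ← map_mul, ← map_mul, h.lab_eq f h1 h2 (h.ri.cjD a ha d hd),
      h.lab_eq f h1 h2 (h.ri.cjD b hb d hd)]
    exact h.cj d hd a ha b hb e
  nt := by
    obtain ⟨a, ha, b, hb, n⟩ := h.nt
    exact ⟨_, ⟨a, ha, rfl⟩, _, ⟨b, hb, rfl⟩, by rwa [h.lab_eq f h1 h2 ha, h.lab_eq f h1 h2 hb]⟩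

theorem sub : Blk ((closure D).subtype ⁻¹' D) (c ∘ (closure D).subtype) where
  ri := h.ri.comap _ (subtype_injective _)
  cm := fun a ha b hb e => h.cm _ ha _ hb (e.map (closure D).subtype)
  cj := fun d hd a ha b hb e => h.cj _ hd _ ha _ hb e
  nt := by
    obtain ⟨a, ha, b, hb, n⟩ := h.nt
    exact ⟨⟨a, subset_closure ha⟩, ha, ⟨b, subset_closure hb⟩, hb, n⟩

theorem cent (hy : Tw D c y) : Blk {x | x ∈ D ∧ Commute y x} c where
  ri := h.ri.mono (fun _ hx => hx.1) (fun d hd e he => ⟨h.ri.cjD d hd.1 e he.1, (he.2.mul_right hd.2).mul_right he.2⟩)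
    fun d hd e he f => ⟨h.ri.fr_mem hd.1 he.1 f, ((hd.2.mul_right he.2).mul_right hd.2).mul_right he.2⟩
  cm := fun a ha b hb => h.cm a ha.1 b hb.1
  cj := fun d hd a ha b hb => h.cj d hd.1 a ha.1 b hb.1
  nt := by
    obtain ⟨-, a, ha, b, hb, n, h1, h2⟩ := hy
    exact ⟨a, ⟨ha, h1⟩, b, ⟨hb, h2⟩, n⟩

variable [Finite G] (hg : closure D = ⊤)
include hg

theorem ab_of_no_od (hv : v ∈ D) (hn : ∀ a ∈ D, c a = c v → ¬ Od a v) : Ab D c := by
  have r : RI {b | b ∈ D ∧ c b = c v} := h.ri.mono (fun _ hx => hx.1)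
    (fun d hd e he => ⟨h.ri.cjD d hd.1 e he.1, by
      rw [h.cj e he.1 d hd.1 e he.1 (hd.2.trans he.2.symm), h.ri.sq e he.1, one_mul, he.2]⟩)
    fun d hd e he f => ⟨h.ri.fr_mem hd.1 he.1 f,
      (h.cm d hd.1 _ (h.ri.fr_mem hd.1 he.1 f) (h.ri.fr_cm_l hd.1 he.1 f)).symm.trans hd.2⟩
  obtain ⟨t, ht, h1⟩ := r.exists_central (d := v) (fun a ha b hb o => by
    obtain ⟨g, -, rfl⟩ := h.cls b hb.1 v hv
    exact hn _ (h.mem hg ha.1 g) (h.cjg hg g ha.1 hb.1 (ha.2.trans hb.2.symm)) (o.cj g)) ⟨hv, rfl⟩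
  intro a ha b hb e
  obtain ⟨g, -, rfl⟩ := h.cls a ha t ht.1
  exact (cm_cj_iff g).1 (h1 _ ⟨h.mem hg hb g, (h.cjg hg g hb ha e.symm).trans ht.2⟩)

variable [IsSimpleGroup G] (hv : v ∈ D) (hv' : v' ∈ D) (hl : v * v' ∈ D)
include hv hv' hl

theorem caseA (ih : ∀ y, y ≠ 1 → Tw D c y → Commute y v → Commute y v' → Ab {x | x ∈ D ∧ Commute y x} c)
    (y1 : y ≠ 1) (hy : Tw D c y) (h1 : Commute y v) (h2 : Commute y v') : Ab D c := by
  refine h.ab_of_no_od hg hv fun a ha e o => ?_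
  have A := ih y y1 hy h1 h2
  have key : ∀ w ∈ D, Commute y w → Commute a w → False := fun w hw h3 h4 => by
    have h5 := A w ⟨hw, h3⟩ v ⟨hv, h1⟩ ((h.cm a ha w hw h4).symm.trans e)
    by_cases n : w = v
    · exact h.ri.not_od ha hv (n ▸ h4) o
    · exact h.ri.l1 hw hv (h.ln hg hw hv h5 n) ha h4 o
  have iy : y⁻¹ = y := inv_eq_of_mul_eq_one_right hy.1
  have s1 : y ∈ h.stab hg ha := h.stab_eq hg ha hv e ▸ h.stab_of_cm hg hv h1
  have ha' := h.mem hg ha y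
  have e1 : y * (y * a * y⁻¹) * y⁻¹ = a := by
    rw [iy, ← mul_assoc, ← mul_assoc, hy.1, one_mul, mul_assoc, hy.1, mul_one]
  by_cases n : a = y * a * y⁻¹
  · exact key a ha (mul_inv_eq_iff_eq_mul.1 n.symm) (Commute.refl a)
  rcases h.ri.pair a ha _ ha' with h3 | h3 | h3
  · refine key _ (h.ln hg ha ha' h3 n) (mul_inv_eq_iff_eq_mul.1 ?_) ((Commute.refl a).mul_right h3)
    rw [← conj_mul, e1, h3.eq]
  · obtain ⟨k, hk, hw, h4, h5, -⟩ := h.dih0 hg hy.1 ha h3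
    have sa := (h.mem_stab_iff hg ha ha).2 rfl
    have e2 : c (k * a) = c v := ((h.mem_stab_iff hg ha hw).1 (mul_mem (zpowers_le.2 (mul_mem sa
      (mul_mem (mul_mem s1 sa) (inv_mem s1))) hk) sa)).trans e
    have n1 : y * (k * a) ≠ 1 := fun e3 => by
      rw [mul_eq_one_iff_eq_inv, h.ri.inv hw] at e3
      exact h.not_tw hw (e3 ▸ hy)
    have c1 := h1.mul_left (A _ ⟨hw, h4⟩ v ⟨hv, h1⟩ e2)
    have c2 := h2.mul_left (A _ ⟨hw, h4⟩ v' ⟨hv', h2⟩ (e2.trans (h.cm v hv v' hv' (h.ri.ln_cm hv hv' hl))))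
    exact h.ri.not_od ha hv (ih _ n1 (h.tw_mul hg hy y1 hw h4) c1 c2 a ⟨ha, h5⟩ v ⟨hv, c1⟩ e) o
  · refine key _ h3.2 (mul_inv_eq_iff_eq_mul.1 ?_) (h.ri.fr_cm_l ha ha' h3.1)
    rw [← conj_mul, ← conj_mul, ← conj_mul, e1, h.ri.fr_symm_eq ha ha' h3.1]

theorem res_top : pResidual 2 G = ⊤ := CA.PRes.pResidual_two_eq_top_iff.2 fun N hN => by
  rcases (normal_of_index_eq_two hN).eq_bot_or_eq_top with rfl | rfl
  · rw [index_bot] at hN
    haveI := Fintype.ofFinite G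
    have : 2 < Fintype.card G := Fintype.two_lt_card_iff.2 ⟨v, v', 1, h.ri.ln_ne hv' hl, h.ri.ne v hv, h.ri.ne v' hv'⟩
    rw [← Nat.card_eq_fintype_card] at this
    omega
  · simp at hN

theorem caseB (hB : ∀ y, y ≠ 1 → Tw D c y → ∀ a ∈ D, ∀ b ∈ D, a ≠ b → Commute a b → Commute y a → ¬ Commute y b)
    (x1 : x ≠ 1) (hx : Tw D c x) : False := by
  have hH := h.res_top hg hv hv' hl
  have cv := h.ri.ln_cm hv hv' hl
  obtain ⟨S, hS, l⟩ := exists_sylIn_ge (isPGroup_two_gen (k := 1) (h.ri.sq v hv) (h.ri.sq v' hv')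
    (by rw [pow_one, pow_two]; exact (h.ri.cm_iff hv hv').1 cv)) le_top
  have v1 : v ∈ S := l (mem_sup_left (mem_zpowers v))
  have v2 : v' ∈ S := l (mem_sup_right (mem_zpowers v'))
  have o : Odd S.index := by
    rw [← Nat.not_even_iff_odd, even_iff_two_dvd, ← relIndex_top_right]; exact hS.not_dvd
  obtain ⟨w, hw, wc⟩ := exists_cm_of_odd hS.pg (fun p _ y hy => h.mem hg hy p) (h.odd_D hg)
  have wc' : w ∈ 𝐂 S := fun s hs => (wc s hs).eq
  have wS : w ∈ S := hS.le_of_norm' (pg_two (h.ri.sq w hw)) le_top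
    (zpowers_le.2 (centralizer_le_normalizer _ wc')) (mem_zpowers w)
  obtain ⟨z, hz, zS, zw⟩ : ∃ z ∈ D, z ∈ S ∧ z ≠ w := by
    by_cases e : v = w
    · exact ⟨v', hv', v2, e ▸ (h.ri.ln_ne hv' hl).symm⟩
    · exact ⟨v, hv, v1, e⟩
  have tr : ∀ M ≤ S, M.relIndex S = 2 → ∃ y ∈ M, y ≠ 1 ∧ Tw D c y := fun M l i => by
    obtain ⟨t, t1, -⟩ := thompson_extremal hH o l i (u := x) (by rw [pow_two, hx.1]) IsPGroup.of_bot bot_le
    exact ⟨_, t1, by simpa using mt (conj_eq_one_iff (a := t⁻¹)).1 x1, by simpa using h.tw_cj hg hx t⁻¹⟩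
  have K : ∀ y ∈ S, y ≠ 1 → Tw D c y → ∀ a ∈ D, Commute a w → Commute y a → a = w := fun y y1 y2 y3 a ha h1 h2 => by
    by_contra n
    exact hB y y2 y3 a ha w hw n h1 h2 (wc y y1)
  rcases CA.ZN6.cyc_or_fo hS (fun e => h.ri.ne w hw (mem_bot.1 (e ▸ wS))) with ⟨A, l, i, cA⟩ | ⟨V, f⟩
  · obtain ⟨g, rfl⟩ := isConj_iff.1 (CA.ZN6.conj_of_cyclic hH hS l i cA (h.ri.ord hw) (ord_of_sq hx.1 x1))
    exact h.not_tw (h.mem hg hw g) hx
  obtain ⟨g, -, l'⟩ := hS.exists_conj_le (pg_two hx.1) le_top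
  have Z : ∀ u ∈ V, u ≠ 1 → u ∈ 𝐂 S → u = w := fun u u1 u2 u3 => by
    by_cases t : Tw D c u
    · exact absurd (Commute.symm (u3 v' v2)) (hB u u2 t v hv v' hv' (h.ri.ln_ne hv' hl) cv (Commute.symm (u3 v v1)))
    · have x2 := l' (CA.Amb.conj_mem_cj.2 (mem_zpowers x))
      exact K _ x2 (by simpa using x1) (h.tw_cj hg hx g) u
        (h.mem_of_not_tw hg (CA.AmbIso.mul_self_of_ea f.ea u1) u2 t) (wc u (f.le u1)) (u3 _ x2)
  have wV : w ∈ V := by
    obtain ⟨⟨u, u1, u3⟩, u2⟩ := ne_bot_iff_exists_ne_one.1 (inf_centralizer_ne_bot hS.pg (hS.pg.to_le f.le) f.norm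
      (fun e => by have := f.card; rw [e, card_bot] at this; omega))
    exact Z u u1 (fun e => u2 (Subtype.ext e)) u3 ▸ u1
  obtain ⟨a, a1, a2, a3⟩ := f.exists_a wV (h.ri.ne w hw)
  have n : ¬ S ≤ 𝐂 V := fun e => a3 (Z a a1 a2 fun s hs => (e hs a a1).symm)
  have i := f.idx' n
  have aS := f.le a1
  by_cases ta : Tw D c a
  swap
  · obtain ⟨y, y1, y2, y3⟩ := tr _ inf_le_left i
    exact a3 (K y y1.1 y2 y3 a (h.mem_of_not_tw hg (CA.AmbIso.mul_self_of_ea f.ea a1) a2 ta) (wc a aS)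
      (Commute.symm (y1.2 a a1)))
  have DM : ∀ d ∈ D, d ∈ S ⊓ 𝐂 V → d = w := fun d hd d1 => K a aS a2 ta d hd (wc d d1.1) (d1.2 a a1)
  have hM : S ⊓ 𝐂 V ≤ V := by
    refine f.key wV (h.ri.ne w hw) wc' zS (fun e => zw (DM z hz ⟨zS, e⟩)) (h.ri.sq z hz) fun u hu e => ?_
    obtain ⟨t, t1, t2⟩ := thompson_extremal hH o inf_le_left i (u := z) (T := S ⊓ centralizer {z})
      (by rw [pow_two, h.ri.sq z hz]) (hS.pg.to_le inf_le_left) inf_le_right
    have t3 := DM _ (by simpa using h.mem hg hz t⁻¹) t1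
    have cu : Commute u z := (mul_inv_eq_iff_eq_mul.1 e).symm
    have inv : ∀ s ∈ zpowers u, s ≠ 1 → s * s = 1 → s = w := fun s ⟨m, hm⟩ s1 s2 => by
      have s3 : s ∈ S ⊓ 𝐂 V := hm ▸ zpow_mem hu m
      by_cases ts : Tw D c s
      · exact absurd (K s s3.1 s1 ts z hz (wc z zS) (hm ▸ cu.zpow_left m)) zw
      · exact DM s (h.mem_of_not_tw hg s2 s1 ts) s3
    by_contra! n1
    obtain ⟨k, hk⟩ := orderOf_eq_pow_of_mem hS.pg hu.1
    rcases k with _ | _ | k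
    · exact n1.1 (by simpa using hk)
    · exact n1.2 (inv u (mem_zpowers u) n1.1 (sq_of_ord hk))
    · have e1 : u ^ 2 ^ k * u ^ 2 ^ k = w := inv _ (mul_mem (npow_mem_zpowers u _) (npow_mem_zpowers u _))
        (by rw [← pow_add]; exact pow_ne_one_of_lt_orderOf (by positivity) (by rw [hk]; grind))
        (by rw [← pow_add, ← pow_add, ← pow_orderOf_eq_one u, hk]; congr 1; ring)
      have e2 : t⁻¹ * u ^ 2 ^ k * t ∈ S := by
        simpa using t2 (CA.Amb.conj_mem_cj.2 (pow_mem (show u ∈ S ⊓ centralizer {z} from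
          ⟨hu.1, mem_centralizer_singleton_iff.2 cu⟩) (2 ^ k)))
      have e3 : t⁻¹ * w * t ∈ S ⊓ 𝐂 V := by
        have := mem_subgroupOf.1 (mul_self_mem_of_index_two i ⟨_, e2⟩)
        rw [← e1]
        simpa [mul_assoc] using this
      have := (DM _ (by simpa using h.mem hg hw t⁻¹) e3).trans t3.symm
      exact zw (by simpa using this.symm)
  have c8 : Nat.card S = 8 := by
    rw [← CA.Amb.card_inf_mul_relIndex (S ⊓ 𝐂 V) S, i, inf_eq_left.2 inf_le_left, le_antisymm hM f.le', f.card]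
  have c1 := CA.Amb.card_inf_mul_relIndex (centralizer {z}) S
  have c2 : 2 < Nat.card ↥(centralizer {z} ⊓ S) := by
    haveI := Fintype.ofFinite ↥(centralizer {z} ⊓ S)
    rw [Nat.card_eq_fintype_card]
    exact Fintype.two_lt_card_iff.2 ⟨⟨z, mem_centralizer_singleton_iff.2 rfl, zS⟩,
      ⟨w, mem_centralizer_singleton_iff.2 (wc z zS).symm, wS⟩, 1, fun e => zw (congrArg Subtype.val e),
      fun e => h.ri.ne z hz (congrArg Subtype.val e), fun e => h.ri.ne w hw (congrArg Subtype.val e)⟩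
  have c3 : (centralizer {z}).relIndex S ≠ 1 := fun e =>
    zw (K a aS a2 ta z hz (wc z zS) (mem_centralizer_singleton_iff.1 (relIndex_eq_one.1 e aS)))
  have c4 : (centralizer {z}).relIndex S = 2 := by
    rw [c8] at c1
    have : (centralizer {z}).relIndex S ≤ 2 := by nlinarith
    interval_cases (centralizer {z}).relIndex S <;> omega
  obtain ⟨y, y1, y2, y3⟩ := tr (centralizer {z} ⊓ S) inf_le_right (by rwa [inf_relIndex_right])
  exact zw (K y y1.2 y2 y3 z hz (wc z zS) (mem_centralizer_singleton_iff.1 y1.1))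

theorem nab : ¬ IsMulCommutative G := fun e => by
  obtain ⟨a, ha, b, hb, n⟩ := h.nt
  exact n (h.cm a ha b hb (e.1.1 a b))

end Blk
end

variable {ι : Type v}

theorem Blk.ab_of_se {G : Type u} [Group G] [Finite G] [IsSimpleGroup G] {D : Set G} {c : G → ι} {v v' : G}
    (h : Blk D c) (hg : closure D = ⊤) (hv : v ∈ D) (hv' : v' ∈ D) (hl : v * v' ∈ D)
    (hs : IsStronglyEmbedded (h.stab hg hv)) : Ab D c := by
  obtain ⟨t, Q, hS, hQ⟩ := CA.BendCor.setup_one (h.nab hg hv hv' hl) hs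
  obtain ⟨S, rfl⟩ := CA.BendCor.syl_Q hS hQ
  have key : ∀ a ∈ D, c a = c v → a ∈ (S : Subgroup G) := fun a ha e => by
    have m : a ∈ MulAction.stabilizer G ((1 : G) : G ⧸ h.stab hg hv) := by
      rw [CA.BendCor.stab_one]; exact (h.mem_stab_iff hg hv ha).2 e
    refine (sylIn_top S).le_of_norm' (pg_two (h.ri.sq a ha)) le_top (zpowers_le.2 ?_) (mem_zpowers a)
    exact mem_normalizer_iff.2 fun x => ⟨hS.conj_mem a m x, fun hx => by
      simpa [mul_assoc] using hS.conj_mem _ (inv_mem m) _ hx⟩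
  exact h.ab_of_no_od hg hv fun a ha e o =>
    h.ri.od_ne_one hv o (eq_one_of_odd_two hQ (mul_mem (key a ha e) (key v hv rfl)) o.2)

theorem ab_aux (n : ℕ) : ∀ {G : Type u} [Group G] [Finite G] {D : Set G} {c : G → ι} {v v' : G},
    Nat.card G ≤ n → Blk D c → closure D = ⊤ → v ∈ D → v' ∈ D → v * v' ∈ D → Ab D c := by
  induction n using Nat.strong_induction_on with
  | _ n ih =>
  have simple : ∀ {G : Type u} [Group G] [Finite G] [IsSimpleGroup G] {D : Set G} {c : G → ι} {v v' : G},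
      Nat.card G ≤ n → Blk D c → closure D = ⊤ → v ∈ D → v' ∈ D → v * v' ∈ D → Ab D c := by
    intro G _ _ _ D c v v' hn h hg hv hv' hl
    by_cases hT : ∀ y, y ≠ 1 → ¬ Tw D c y
    · exact h.ab_of_se hg hv hv' hl (h.se hg hT hv)
    push Not at hT
    obtain ⟨x, x1, hx⟩ := hT
    by_contra hA
    refine h.caseB hg hv hv' hl (fun y y1 hy a ha b hb n1 h1 h2 h3 => hA ?_) x1 hx
    refine h.caseA hg ha hb (h.ln hg ha hb h1 n1) (fun y y1 hy h2 h3 => ?_) y1 hy h2 h3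
    have lt : closure {x | x ∈ D ∧ Commute y x} ≠ ⊤ := fun e => by
      have : centralizer {y} = ⊤ := eq_top_iff.2 (e ▸ (closure_le _).2 fun x hx =>
        mem_centralizer_singleton_iff.2 hx.2.symm)
      obtain ⟨x, hx, n⟩ := h.ker hg y1
      exact n (h.stab_of_cm hg hx (mem_centralizer_singleton_iff.1 (this ▸ mem_top x)).symm)
    have := @ih _ ((CA.Amb.card_lt_of_lt (lt_top_iff_ne_top.2 lt)).trans_le (by rwa [card_top]))
      (closure {x | x ∈ D ∧ Commute y x}) _ _ _ _ ⟨a, subset_closure ⟨ha, h2⟩⟩ ⟨b, subset_closure ⟨hb, h3⟩⟩ le_rfl (h.cent hy).sub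
      closure_closure_coe_preimage ⟨ha, h2⟩ ⟨hb, h3⟩ ⟨h.ln hg ha hb h1 n1, h2.mul_right h3⟩
    intro p hp q hq e
    exact congrArg Subtype.val (this ⟨p, subset_closure hp⟩ hp ⟨q, subset_closure hq⟩ hq e)
  intro G _ _ D c v v' hn h hg hv hv' hl
  haveI := h.ri.simple_quot hg h.cls hv hv' hl
  have h1 := fun d hd => h.ri.not_mem_twoZ hg h.cls hv hv' hl (d := d) hd
  have h2 := fun a ha b hb => h.ri.ne_twoZ (a := a) (b := b) ha hb
  have := simple ((Nat.card_le_card_of_surjective _ (QuotientGroup.mk'_surjective _)).trans hn) (h.map _ h1 h2)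
    (closure_map_top _ (QuotientGroup.mk'_surjective _) hg) ⟨v, hv, rfl⟩ ⟨v', hv', rfl⟩ ⟨_, hl, map_mul _ _ _⟩
  intro a ha b hb e
  exact h.ri.cm_of_map _ h1 h2 ha hb (this _ ⟨a, ha, rfl⟩ _ ⟨b, hb, rfl⟩
    (by rwa [h.lab_eq _ h1 h2 ha, h.lab_eq _ h1 h2 hb]))

/-- the blocks are commutative -/
theorem Blk.ab {G : Type u} [Group G] [Finite G] {D : Set G} {c : G → ι} {v v' : G} (h : Blk D c)
    (hv : v ∈ D) (hv' : v' ∈ D) (hl : v * v' ∈ D) : Ab D c := fun p hp q hq e =>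
  congrArg Subtype.val (ab_aux _ le_rfl h.sub closure_closure_coe_preimage (v := ⟨v, subset_closure hv⟩)
    (v' := ⟨v', subset_closure hv'⟩) hv hv' hl ⟨p, subset_closure hp⟩ hp ⟨q, subset_closure hq⟩ hq e)

end CA.RInv
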