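import Cfsg.Agent.Lib.Root.J2
import Cfsg.Agent.Lib.Grp.SEmb
import Cfsg.Agent.Lib.Grp.Trf
import Cfsg.Prelude.Def_TwoFusion
import Cfsg.Agent.Lib.Suz.Cor

/-!
Root involutions with a line and a disconnected commuting graph, from the theorem on strongly closed
abelian 2-subgroups.
-/

set_option autoImplicit false
set_option linter.unusedSectionVars false

namespace CA.RInv

open Subgroup Cfsg CA.Core

universe u v

/-- the theorem on strongly closed abelian 2-subgroups -/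
def GH : Prop := ∀ {G : Type u} [Group G] [Finite G] [IsSimpleGroup G] (S : Sylow 2 G) (A : Subgroup G), A ≠ ⊥ →
  IsMulCommutative A → IsStronglyClosed A (S : Subgroup G) →
    IsMulCommutative (S : Subgroup G) ∨ ∃ H : Subgroup G, IsStronglyEmbedded H

variable {G : Type u} [Group G] [Finite G] {ι : Type v} {D : Set G} {c : G → ι} {a b d v v' y : G}

theorem eq_one_of_odd_ncard {u : G} (hu : u * u = 1) {Y : Set G} (o : Odd Y.ncard) (h : ∀ y ∈ Y, y * u ∈ Y) :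
    u = 1 := by
  have m : ∀ p : zpowers u, ∀ y ∈ Y, y * (p : G)⁻¹ ∈ Y := fun p y hy => by
    rcases mem_two hu (inv_mem p.2) with e | e <;> rw [e]
    · rwa [mul_one]
    · exact h y hy
  letI : MulAction (zpowers u) Y :=
    { smul := fun p y => ⟨y * (p : G)⁻¹, m p y y.2⟩
      one_smul := fun y => Subtype.ext (by change (y : G) * ((1 : zpowers u) : G)⁻¹ = y; simp)
      mul_smul := fun p q y => Subtype.ext (by
        change (y : G) * ((p * q : zpowers u) : G)⁻¹ = y * (q : G)⁻¹ * (p : G)⁻¹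
        simp [mul_assoc]) }
  obtain ⟨y, hy⟩ := (pg_two hu).nonempty_fixed_point_of_prime_not_dvd_card Y
    (by rwa [Nat.card_coe_set_eq, ← even_iff_two_dvd, Nat.not_even_iff_odd])
  have : (y : G) * u⁻¹ = y := congrArg Subtype.val (hy ⟨u, mem_zpowers u⟩)
  simpa using this

namespace Blk

variable [IsSimpleGroup G] (h : Blk D c) (hg : closure D = ⊤) (hv : v ∈ D) (hv' : v' ∈ D) (hl : v * v' ∈ D)
include h hg hv hv' hl

/-- a block together with the identity -/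
def E (a : G) : Subgroup G where
  carrier := {x | x = 1 ∨ x ∈ D ∧ c x = c a}
  one_mem' := Or.inl rfl
  mul_mem' := by
    rintro x y (rfl | hx) (rfl | hy)
    · exact Or.inl (one_mul 1)
    · exact Or.inr (by rwa [one_mul])
    · exact Or.inr (by rwa [mul_one])
    · by_cases e : x = y
      · exact Or.inl (e ▸ h.ri.sq x hx.1)
      · have h1 := h.ab hv hv' hl x hx.1 y hy.1 (hx.2.trans hy.2.symm)
        have h2 := h.ln hg hx.1 hy.1 h1 e
        exact Or.inr ⟨h2, (h.cm x hx.1 _ h2 ((Commute.refl x).mul_right h1)).symm.trans hx.2⟩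
  inv_mem' := by
    rintro x (rfl | hx)
    · exact Or.inl inv_one
    · exact Or.inr (by rwa [h.ri.inv hx.1])

theorem cm_E {x y : G} (hx : x ∈ h.E hg hv hv' hl a) (hy : y ∈ h.E hg hv hv' hl a) : Commute x y := by
  rcases hx with rfl | hx
  · exact Commute.one_left _
  rcases hy with rfl | hy
  · exact Commute.one_right _
  exact h.ab hv hv' hl x hx.1 y hy.1 (hx.2.trans hy.2.symm)

theorem cj_mul (y1 : y ≠ 1) (hy : Tw D c y) (ha : a ∈ D) (hb : b ∈ D) (h1 : Commute y a) (h2 : Commute y b)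
    (h3 : Commute a b) : ∃ g, g * y * g⁻¹ = y * (a * b) := by
  obtain ⟨k, k1, e⟩ := h.cj_tw (h.tw_mul hg hy y1 ha h1) hb ha (h2.mul_left h3) (h1.mul_left (Commute.refl a))
  refine ⟨k, ?_⟩
  rw [← mul_assoc, e, ← mul_assoc, ← mul_assoc, k1.eq, mul_assoc k (y * a), mul_assoc y, h.ri.sq a ha, mul_one]

theorem mem_of_ord (hG : GH.{u}) (hy : orderOf y = 2) : y ∈ D := by
  obtain ⟨S⟩ : Nonempty (Sylow 2 G) := inferInstance
  obtain ⟨w, hw, wc⟩ := exists_cm_of_odd S.2 (fun p _ y hy => h.mem hg hy p) (h.odd_D hg)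
  set A := h.E hg hv hv' hl w with hA
  have sq : ∀ x ∈ A, x * x = 1 := by
    rintro x (rfl | hx)
    · exact one_mul 1
    · exact h.ri.sq x hx.1
  have nm : ∀ g ∈ h.stab hg hw, ∀ x ∈ A, g * x * g⁻¹ ∈ A := by
    rintro g h1 x (rfl | hx)
    · exact Or.inl (by simp)
    · exact Or.inr ⟨h.mem hg hx.1 g, (h.cjg hg g hx.1 hw hx.2).trans h1⟩
  have l : A ≤ S := (CA.AmbSyl.sylIn_top S).le_of_norm (CA.AmbSyl.isPGroup_iff_mem.2 fun x hx =>
    ⟨1, by rw [pow_one, pow_two, sq x hx]⟩) le_top fun s hs => mem_normalizer_iff.2 fun x =>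
      ⟨nm s (h.stab_of_cm hg hw (wc s hs)) x, fun hx => by
        simpa [mul_assoc] using nm _ (inv_mem (h.stab_of_cm hg hw (wc s hs))) _ hx⟩
  have sc : ∀ x ∈ A, ∀ g : G, g * x * g⁻¹ ∈ (S : Subgroup G) → g * x * g⁻¹ ∈ A := by
    rintro x (rfl | hx) g h1
    · exact Or.inl (by simp)
    · exact Or.inr ⟨h.mem hg hx.1 g, h.cm _ (h.mem hg hx.1 g) w hw (wc _ h1)⟩
  have wA : w ∈ A := Or.inr ⟨hw, rfl⟩
  rcases hG S A (fun e => h.ri.ne w hw (mem_bot.1 (e ▸ wA)))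
    ⟨⟨fun x y => Subtype.ext (h.cm_E hg hv hv' hl x.2 y.2)⟩⟩ ⟨l, sc⟩ with cS | ⟨H, hH⟩
  swap
  · obtain ⟨g, rfl⟩ := isConj_iff.1 (CA.SEmb.isConj hH (h.ri.ord hv) hy)
    exact h.mem hg hv g
  by_contra n
  have cm : ∀ s ∈ (S : Subgroup G), ∀ t ∈ (S : Subgroup G), Commute s t := fun s hs t ht =>
    congrArg Subtype.val (cS.1.1 ⟨s, hs⟩ ⟨t, ht⟩)
  obtain ⟨g, -, l'⟩ := (CA.AmbSyl.sylIn_top S).exists_conj_le (pg_two (sq_of_ord hy)) le_top
  have x2 := l' (CA.Amb.conj_mem_cj.2 (mem_zpowers y))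
  have x3 : Tw D c (g * y * g⁻¹) := h.tw_cj hg (by_contra fun e => n (h.mem_of_not_tw hg (sq_of_ord hy) (ne_of_ord hy) e)) g
  have x1 : g * y * g⁻¹ ≠ 1 := mt conj_eq_one_iff.1 (ne_of_ord hy)
  generalize g * y * g⁻¹ = x at x1 x2 x3
  obtain ⟨u, hu, uw⟩ := h.ri.exists_ln h.cls hv hv' hl hw
  have cu := h.ri.ln_cm hu hw uw
  have uA : u ∈ A := Or.inr ⟨hu, h.cm u hu w hw cu⟩
  let N := normalizer ((S : Subgroup G) : Set G)
  letI : MulAction N G := MulAction.compHom G ((MulAut.conj (G := G)).comp N.subtype)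
  have o : Odd (MulAction.orbit N x).ncard := by
    rw [← MulAction.index_stabilizer]
    refine Odd.of_dvd_nat (CA.Trf.odd_index_sylow S) ((index_dvd_of_le (H := (S : Subgroup G).subgroupOf N)
      fun s hs => ?_).trans (relIndex_dvd_index_of_le le_normalizer))
    exact mul_inv_eq_iff_eq_mul.2 (cm _ hs x x2).eq
  have key : ∀ b ∈ A, ∃ k ∈ N, k * x * k⁻¹ = x * b := by
    rintro b (rfl | hb)
    · exact ⟨1, one_mem _, by simp⟩
    obtain ⟨a, ha, ab⟩ := h.ri.exists_ln h.cls hv hv' hl hb.1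
    have c1 := h.ri.ln_cm ha hb.1 ab
    have a1 : a ∈ A := Or.inr ⟨ha, (h.cm a ha b hb.1 c1).trans hb.2⟩
    have b1 : b ∈ A := Or.inr hb
    obtain ⟨g, e⟩ := h.cj_mul hg hv hv' hl x1 x3 ha ab (cm x x2 a (l a1)) (cm x x2 _ (l (mul_mem a1 b1)))
      ((Commute.refl a).mul_right c1)
    rw [h.ri.sq' ha] at e
    obtain ⟨k, k1, e'⟩ := CA.Trf.exists_normalizer_conj_of_comm S cS x2 (e ▸ mul_mem x2 (l b1))
    exact ⟨k, k1, e'.trans e⟩
  refine h.ri.ne u hu (eq_one_of_odd_ncard (h.ri.sq u hu) o ?_)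
  rintro _ ⟨k, rfl⟩
  obtain ⟨k', k1, e⟩ := key ((k : G)⁻¹ * u * k) (by
    simpa using sc u uA (k : G)⁻¹ (by simpa using (mem_normalizer_iff.1 (inv_mem k.2) u).1 (l uA)))
  refine ⟨k * ⟨k', k1⟩, ?_⟩
  change (k : G) * k' * x * ((k : G) * k')⁻¹ = (k : G) * x * (k : G)⁻¹ * u
  rw [mul_inv_rev, mul_assoc (k : G), mul_assoc (k : G), ← mul_assoc _ k'⁻¹, e]
  group

theorem se' (hG : GH.{u}) (ha : a ∈ D) : IsStronglyEmbedded (h.stab hg ha) :=
  h.se hg (fun _ y1 hy => h.not_tw (h.mem_of_ord hg hv hv' hl hG (ord_of_sq hy.1 y1)) hy) ha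

theorem not_cyclic : ¬ IsCyclic G := fun _ => h.nab hg hv hv' hl ⟨⟨(IsCyclic.commGroup (α := G)).mul_comm⟩⟩

theorem cases (hG : GH.{u}) :
    (∃ (F : Type) (_ : Field F) (_ : Fintype F), CharP F 2 ∧ 4 ≤ Fintype.card F ∧
      Nonempty (G ≃* Matrix.ProjectiveSpecialLinearGroup (Fin 2) F)) ∨ Cfsg.Lie.IsoSuzuki G ∨
    (∃ (F : Type) (_ : Field F) (_ : Fintype F) (q : ℕ), CharP F 2 ∧ Fintype.card F = q ^ 2 ∧ 4 ≤ q ∧
      Nonempty (G ≃* Cfsg.PSU 3 F q)) := by
  have hs := h.se' hg hv hv' hl hG hv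
  obtain ⟨t, Q, hS, -⟩ := CA.BendCor.setup_one (h.nab hg hv hv' hl) hs
  haveI := CA.BendRed.faithful_quot hs.1
  have ch : ∀ (F : Type) [Field F] [Fintype F] (n : ℕ), n ≠ 0 → Fintype.card F = 2 ^ n → CharP F 2 := fun F _ _ n hn e =>
    (CharP.charP_iff_prime_eq_zero Nat.prime_two).2 (by
      have := FiniteField.cast_card_eq_zero F
      rw [e, Nat.cast_pow] at this
      exact pow_eq_zero_iff hn |>.1 this)
  rcases CA.SuzCor.simple_cases hS (h.not_cyclic hg hv hv' hl) with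
    ⟨-, F, _, _, ⟨n, hn, e⟩, i⟩ | ⟨-, i⟩ | ⟨-, F, _, _, n, hn, e, -, i⟩
  · exact Or.inl ⟨F, _, _, ch F n (by omega) e, e ▸ Nat.pow_le_pow_right two_pos hn, i⟩
  · exact Or.inr (Or.inl i)
  · exact Or.inr (Or.inr ⟨F, _, _, _, ch F (n * 2) (by omega) (by rw [e, pow_mul]), e,
      Nat.pow_le_pow_right two_pos hn, i⟩)

end Blk

/-- the component of `a` in the commuting graph -/
def comp (D : Set G) (a : G) : Set G := {b | Relation.ReflTransGen (CommAdj D) a b}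

omit [Finite G] in
theorem comp_eq_iff : comp D a = comp D b ↔ Relation.ReflTransGen (CommAdj D) a b := by
  have s : ∀ {a b : G}, Relation.ReflTransGen (CommAdj D) a b → Relation.ReflTransGen (CommAdj D) b a :=
    fun r => by
      induction r with
      | refl => exact Relation.ReflTransGen.refl
      | tail _ h ih => exact Relation.ReflTransGen.head ⟨h.2.1, h.1, h.2.2.1.symm, h.2.2.2.symm⟩ ih
  refine ⟨fun e => ?_, fun r => Set.ext fun x => ⟨(s r).trans, r.trans⟩⟩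
  have : b ∈ comp D b := Relation.ReflTransGen.refl
  rwa [← e] at this

omit [Finite G] in
theorem RI.blk (h : RI D) (n : ¬ IsConnectedSet (CommAdj D) D) : Blk D (comp D) where
  ri := h
  cm := fun a ha b hb e => comp_eq_iff.2 (by
    by_cases e' : a = b
    · exact e' ▸ Relation.ReflTransGen.refl
    · exact Relation.ReflTransGen.single ⟨ha, hb, e', e⟩)
  cj := fun d hd a ha b hb e => comp_eq_iff.2 (by
    have r := comp_eq_iff.1 e
    clear e hb
    induction r with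
    | refl => exact Relation.ReflTransGen.refl
    | tail _ r ih => exact ih.tail ⟨h.cjD _ r.1 d hd, h.cjD _ r.2.1 d hd, fun e => r.2.2.1 (by simpa using e), by
        simpa [h.inv hd] using (cm_cj r.2.2.2 d).eq⟩)
  nt := by
    by_contra! e
    exact n fun a ha b hb => comp_eq_iff.1 (e a ha b hb)

theorem Blk.quot (h : Blk D c) (hg : closure D = ⊤) (hv : v ∈ D) (hv' : v' ∈ D) (hl : v * v' ∈ D) :
    Blk (QuotientGroup.mk' (twoZCore G) '' D) (lab D c (QuotientGroup.mk' (twoZCore G))) :=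
  h.map _ (fun _ hd => h.ri.not_mem_twoZ hg h.cls hv hv' hl hd) fun _ ha _ hb => h.ri.ne_twoZ ha hb

theorem s5044 (hG : GH.{u}) (hD : IsRootInvolutionSet D) (hDD : (D ∩ commutingProducts D).Nonempty) :
    IsConnectedSet (CommAdj D) D ∨
    (∃ (F : Type) (_ : Field F) (_ : Fintype F), CharP F 2 ∧ 4 ≤ Fintype.card F ∧
      Nonempty (G ⧸ twoZCore G ≃* Matrix.ProjectiveSpecialLinearGroup (Fin 2) F)) ∨
    Cfsg.Lie.IsoSuzuki (G ⧸ twoZCore G) ∨
    (∃ (F : Type) (_ : Field F) (_ : Fintype F) (q : ℕ), CharP F 2 ∧ Fintype.card F = q ^ 2 ∧ 4 ≤ q ∧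
      Nonempty (G ⧸ twoZCore G ≃* Cfsg.PSU 3 F q)) := by
  refine or_iff_not_imp_left.2 fun n => ?_
  have h := (ri_of hD).blk n
  obtain ⟨v, hv, v', hv', hl⟩ := h.ri.exists_ln_of hDD
  haveI := h.ri.simple_quot hD.generates h.cls hv hv' hl
  exact (h.quot hD.generates hv hv' hl).cases (closure_map_top _ (QuotientGroup.mk'_surjective _) hD.generates)
    ⟨v, hv, rfl⟩ ⟨v', hv', rfl⟩ ⟨_, hl, map_mul _ _ _⟩ hG

end CA.RInv
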