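import Cfsg.Agent.Lib.Root.J2

/-!
Root involutions: non-degenerate classes.  The graph of lines is connected, generation by `X_d` and an
odd partner, weak TI-subsets.
-/

set_option autoImplicit false
set_option linter.unusedSectionVars false

namespace CA.RInv

open Subgroup Cfsg

variable {G : Type*} [Group G] [Finite G] {ι : Type*} {D : Set G} {c : G → ι} {a b d e x y : G}

/-- an invariant partition of `D` into parts containing pairs with product of order four, such that two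
different parts commute elementwise or have only odd products -/
structure Cmp (D : Set G) (c : G → ι) : Prop where
  ri : RI D
  cj : ∀ d ∈ D, ∀ a ∈ D, ∀ b ∈ D, c a = c b → c (d * a * d) = c (d * b * d)
  ln : ∀ a ∈ D, ∀ b ∈ D, a * b ∈ D → c a = c b
  di : ∀ a ∈ D, ∀ a' ∈ D, ∀ b ∈ D, c a = c a' → c a ≠ c b → Commute a b → Commute a' b
  has : ∀ y ∈ D, ∃ b ∈ D, ∃ b' ∈ D, c b = c y ∧ Fr b b'

theorem RI.fr_ln_l (h : RI D) (ha : a ∈ D) (hb : b ∈ D) : a * (a * b * a * b) ∈ D := by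
  rw [show a * (a * b * a * b) = a * (a * (b * a * b)) by group, h.sq' ha]
  exact h.cjD a ha b hb

theorem RI.fr_ln_r (h : RI D) (ha : a ∈ D) (hb : b ∈ D) (f : Fr a b) : b * (a * b * a * b) ∈ D := by
  rw [← h.fr_symm_eq ha hb f]; exact h.fr_ln_l hb ha

theorem Cmp.fr (h : Cmp D c) (ha : a ∈ D) (hb : b ∈ D) (f : Fr a b) : c a = c b :=
  (h.ln a ha _ (h.ri.fr_mem ha hb f) (h.ri.fr_ln_l ha hb)).trans
    (h.ln b hb _ (h.ri.fr_mem ha hb f) (h.ri.fr_ln_r ha hb f)).symm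

theorem Cmp.cj_iff (h : Cmp D c) (hd : d ∈ D) (ha : a ∈ D) (hb : b ∈ D) :
    c (d * a * d) = c (d * b * d) ↔ c a = c b := by
  refine ⟨fun e => ?_, h.cj d hd a ha b hb⟩
  have := h.cj d hd _ (h.ri.cjD a ha d hd) _ (h.ri.cjD b hb d hd) e
  simpa only [mul_assoc, h.ri.sq' hd, h.ri.sq d hd, mul_one] using this

theorem Cmp.sub (h : Cmp D c) (hy : y ∈ D) : Cmp {w | w ∈ D ∧ c w ≠ c y ∧ Commute w y} c := by
  have key : ∀ w ∈ D, ∀ w' ∈ D, c w = c w' → c w ≠ c y → Commute w y → c w' ≠ c y ∧ Commute w' y :=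
    fun w hw w' hw' e n k => ⟨e ▸ n, h.di w hw w' hw' y hy e n k⟩
  refine ⟨h.ri.mono (fun _ k => k.1) (fun d hd e he => ?_) fun d hd e he f => ?_,
    fun d hd a ha b hb => h.cj d hd.1 a ha.1 b hb.1, fun a ha b hb l => h.ln a ha.1 b hb.1 l.1,
    fun a ha a' ha' b hb => h.di a ha.1 a' ha'.1 b hb.1, fun w hw => ?_⟩
  · have e1 : e * y * e = y := by rw [he.2.2.eq, mul_assoc, h.ri.sq e he.1, mul_one]
    refine ⟨h.ri.cjD d hd.1 e he.1, fun k => hd.2.1 ((h.cj_iff he.1 hd.1 hy).1 (by rw [e1]; exact k)), ?_⟩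
    exact (he.2.2.mul_left hd.2.2).mul_left he.2.2
  · have m := h.ri.fr_mem hd.1 he.1 f
    exact ⟨m, key d hd.1 _ m (h.ln d hd.1 _ m (h.ri.fr_ln_l hd.1 he.1)) hd.2.1 hd.2.2⟩
  · obtain ⟨b, hb, b', hb', e, f⟩ := h.has w hw.1
    exact ⟨b, ⟨hb, key w hw.1 b hb e.symm hw.2.1 hw.2.2⟩, b',
      ⟨hb', key w hw.1 b' hb' (e.symm.trans (h.fr hb hb' f)) hw.2.1 hw.2.2⟩, e, f⟩

theorem cmp_aux (n : ℕ) : ∀ {D : Set G}, D.ncard ≤ n → Cmp D c → ∀ a ∈ D, ∀ b ∈ D, c a ≠ c b → Commute a b := by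
  induction n with
  | zero =>
    intro D hn _ a ha
    rw [Nat.le_zero, Set.ncard_eq_zero] at hn
    exact absurd ha (hn ▸ Set.notMem_empty a)
  | succ n ih =>
    intro D hn h a ha b hb hab
    by_contra hc
    let R : G → G → Prop := fun u v => c u = c v ∨ Commute u v
    have tr : ∀ u ∈ D, ∀ v ∈ D, ∀ w ∈ D, R u v → R v w → R u w := by
      intro u hu v hv w hw r1 r2
      by_cases e1 : c u = c v
      · by_cases e2 : c v = c w
        · exact Or.inl (e1.trans e2)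
        · exact Or.inr (h.di v hv u hu w hw e1.symm e2 (r2.resolve_left e2))
      by_cases e2 : c v = c w
      · exact Or.inr (h.di v hv w hw u hu e2 (Ne.symm e1) (r1.resolve_left e1).symm).symm
      by_cases e3 : c u = c w
      · exact Or.inl e3
      refine Or.inr (ih ?_ (h.sub hv) u ⟨hu, e1, r1.resolve_left e1⟩ w
        ⟨hw, Ne.symm e2, (r2.resolve_left e2).symm⟩ e3)
      exact Nat.le_of_lt_succ (lt_of_lt_of_le (Set.ncard_lt_ncard ⟨fun _ k => k.1, fun k => (k hv).2.1 rfl⟩) hn)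
    have sy : ∀ u v, R u v → R v u := fun u v r => r.imp Eq.symm Commute.symm
    let c' : G → Set G := fun u => {w | w ∈ D ∧ R u w}
    have hi : ∀ u ∈ D, ∀ v ∈ D, c' u = c' v ↔ R u v := fun u hu v hv =>
      ⟨fun e => (e.ge ⟨hv, Or.inl rfl⟩).2, fun r => Set.ext fun w => and_congr_right fun hw =>
        ⟨tr v hv u hu w hw (sy _ _ r), tr u hu v hv w hw r⟩⟩
    have hB : Blk D c' := ⟨h.ri, fun u hu v hv k => (hi u hu v hv).2 (Or.inr k), fun d hd u hu v hv k =>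
      (hi _ (h.ri.cjD u hu d hd) _ (h.ri.cjD v hv d hd)).2 (((hi u hu v hv).1 k).imp (h.cj d hd u hu v hv)
        fun k => by simpa only [h.ri.inv hd] using cm_cj k d),
      a, ha, b, hb, fun k => ((hi a ha b hb).1 k).elim hab hc⟩
    obtain ⟨f, hf, f', hf', -, k⟩ := h.has a ha
    exact h.ri.not_fr hf hf' (hB.ab hf (h.ri.fr_mem hf hf' k) (h.ri.fr_ln_l hf hf') f hf f' hf'
      ((hi f hf f' hf').2 (Or.inl (h.fr hf hf' k)))) k

theorem Cmp.cm (h : Cmp D c) (ha : a ∈ D) (hb : b ∈ D) (n : c a ≠ c b) : Commute a b :=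
  cmp_aux _ le_rfl h a ha b hb n

/-- joined by a path of lines -/
abbrev Et (D : Set G) (a b : G) : Prop := Relation.ReflTransGen (ProdAdj D) a b

theorem RI.adj_ln (h : RI D) (ha : a ∈ D) (hb : b ∈ D) (l : a * b ∈ D) : ProdAdj D a b :=
  ⟨ha, hb, h.ln_ne hb l, h.ln_cm ha hb l, l⟩

theorem RI.et_symm (h : RI D) (r : Et D a b) : Et D b a := by
  induction r with
  | refl => exact Relation.ReflTransGen.refl
  | tail _ k ih => exact Relation.ReflTransGen.head (h.adj_ln k.2.1 k.1 (h.ln_symm k.1 k.2.1 k.2.2.2.2)) ih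

theorem RI.et_map (h : RI D) {g : G} (hg : g ∈ closure D) (r : Et D a b) :
    Et D (g * a * g⁻¹) (g * b * g⁻¹) := by
  induction r with
  | refl => exact Relation.ReflTransGen.refl
  | tail _ k ih =>
    refine ih.tail (h.adj_ln (h.cj_mem hg k.1) (h.cj_mem hg k.2.1) ?_)
    simpa [mul_assoc] using h.cj_mem hg k.2.2.2.2

/-- the component of `a` in the graph of lines -/
def lc (D : Set G) (a : G) : Set G := {b | Et D a b}

theorem RI.lc_iff (h : RI D) : lc D a = lc D b ↔ Et D a b := by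
  refine ⟨fun e => ?_, fun r => Set.ext fun x => ⟨(h.et_symm r).trans, r.trans⟩⟩
  have : b ∈ lc D b := Relation.ReflTransGen.refl
  rwa [← e] at this

theorem RI.et_fr (h : RI D) (ha : a ∈ D) (hb : b ∈ D) (f : Fr a b) : Et D a b :=
  Relation.ReflTransGen.tail (.single (h.adj_ln ha (h.fr_mem ha hb f) (h.fr_ln_l ha hb)))
    (h.adj_ln (h.fr_mem ha hb f) hb (h.ln_symm hb (h.fr_mem ha hb f) (h.fr_ln_r ha hb f)))

theorem RI.cmp (h : RI D) (hf : ∀ y ∈ D, ∃ b ∈ D, Fr y b) : Cmp D (lc D) where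
  ri := h
  cj d hd a _ b _ e := h.lc_iff.2 (by simpa only [h.inv hd] using h.et_map (subset_closure hd) (h.lc_iff.1 e))
  ln a ha b hb l := h.lc_iff.2 (.single (h.adj_ln ha hb l))
  di a ha a' ha' b hb e n k := by
    have r := h.lc_iff.1 e
    have n' : ¬ Et D a b := fun r => n (h.lc_iff.2 r)
    clear e ha' n
    induction r with
    | refl => exact k
    | tail r l ih =>
      exact h.cm_of l.2.1 hb (fun o => h.l1 l.1 l.2.1 l.2.2.2.2 hb ih.symm o.symm)
        fun f => n' ((r.tail l).trans (h.et_fr l.2.1 hb f))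
  has y hy := let ⟨b, hb, f⟩ := hf y hy; ⟨y, hy, b, hb, rfl, f⟩

/-- non-degenerate classes -/
structure ND (D : Set G) : Prop where
  ri : RI D
  gen : closure D = ⊤
  cls : Cls D
  fr : ∀ y ∈ D, ∃ b ∈ D, Fr y b
  od : ∀ y ∈ D, ∃ b ∈ D, Od b y

theorem cls_of (hcl : IsRootInvolutionClass D) : Cls D := fun a ha b hb =>
  let ⟨g, e⟩ := hcl.2.2 a ha b hb; ⟨g, hcl.1.generates ▸ mem_top g, e⟩

theorem nd_of (hD : IsNondegenerateRootInvolutionSet D) (hcl : IsRootInvolutionClass D) : ND D := by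
  obtain ⟨h, -, ⟨a, ha, b, hb, o⟩, a', ha', b', hb', f⟩ := hD
  refine ⟨ri_of h, h.generates, cls_of hcl, fun y hy => ?_, fun y hy => ?_⟩
  · obtain ⟨g, rfl⟩ := hcl.2.2 a' ha' y hy
    exact ⟨_, h.conj_mem b' hb' g, Fr.cj f g⟩
  · obtain ⟨g, rfl⟩ := hcl.2.2 b hb y hy
    exact ⟨_, h.conj_mem a ha g, Od.cj o g⟩

namespace ND

variable (h : ND D)
include h

theorem mem (hd : d ∈ D) (g : G) : g * d * g⁻¹ ∈ D := h.ri.cj_mem (h.gen ▸ mem_top g) hd

theorem et (ha : a ∈ D) (hb : b ∈ D) : Et D a b := by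
  have hC := h.ri.cmp h.fr
  have key : ∀ g ∈ closure D, Et D a (g * a * g⁻¹) := fun g hg => by
    induction hg using closure_induction'' with
    | mem e he =>
      by_cases k : lc D a = lc D e
      · have r := h.ri.lc_iff.1 k
        have := h.ri.et_map (subset_closure he) r
        rw [mul_inv_cancel_right] at this
        exact r.trans (h.ri.et_symm this)
      · rw [← (hC.cm ha he k).eq, mul_inv_cancel_right]
    | inv_mem e he =>
      rw [h.ri.inv he]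
      by_cases k : lc D a = lc D e
      · have r := h.ri.lc_iff.1 k
        have := h.ri.et_map (subset_closure he) r
        rw [mul_inv_cancel_right] at this
        exact r.trans (h.ri.et_symm this)
      · rw [← (hC.cm ha he k).eq, mul_inv_cancel_right]
    | one => simpa using Relation.ReflTransGen.refl
    | mul g k hg _ ihg ihk =>
      have := ihg.trans (h.ri.et_map hg ihk)
      simpa [mul_assoc] using this
  obtain ⟨g, hg, rfl⟩ := h.cls a ha b hb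
  exact key g hg

/-- a mover: `e` fixes `a` and moves `b` on the line `{a, b, a b}` -/
theorem mover (ha : a ∈ D) (hb : b ∈ D) (l : a * b ∈ D) (n : Ao D b ≠ Ao D a) :
    ∃ e ∈ D, a * e ∈ D ∧ Fr b e ∧ b * e * b * e = a := by
  obtain ⟨y, hy, o1, o2⟩ := h.ri.exists_od_not h.cls hb ha n
  obtain ⟨e, he, -, f, e1⟩ := h.ri.l3 hy hb o1.symm ha (h.ri.ln_symm ha hb l)
    (h.ri.fr_of hy ha (h.ri.l1' ha hb l hy o1) o2)
  refine ⟨e, he, ?_, f, e1.symm⟩
  rw [e1, mul_assoc, h.ri.sq e he, mul_one]; exact h.ri.cjD e he b hb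

theorem exists_ln (ha : a ∈ D) : ∃ b ∈ D, a * b ∈ D :=
  let ⟨b, hb, f⟩ := h.fr a ha; ⟨_, h.ri.fr_mem ha hb f, h.ri.fr_ln_l ha hb⟩

theorem gen_top (ha : a ∈ D) (hx : x ∈ D) (o : Od x a) {L : Subgroup G} (h1 : ∀ b ∈ D, a * b ∈ D → b ∈ L)
    (h2 : x ∈ L) : L = ⊤ := by
  have aL : a ∈ L := by
    obtain ⟨b, hb, l⟩ := h.exists_ln ha
    have := mul_mem (h1 _ l (h.ri.ln_l ha hb)) (h1 b hb l)
    rwa [mul_assoc, h.ri.sq b hb, mul_one] at this
  have k0 : ∀ b ∈ D, b ∈ L → Od x b → ∃ g ∈ L, b = g * a * g⁻¹ := fun b hb bL o' => by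
    obtain ⟨k, hk, e⟩ := h.ri.od_cj hb hx o'.symm
    obtain ⟨k', hk', e'⟩ := h.ri.od_cj hx ha o
    exact ⟨k * k', mul_mem (zpowers_le.2 (mul_mem bL h2) hk) (zpowers_le.2 (mul_mem h2 aL) hk'), by
      rw [e, e']; group⟩
  have k1 : ∀ b ∈ D, a * b ∈ D → ∃ g ∈ L, b = g * a * g⁻¹ := fun b hb l => by
    by_cases o' : Od x b
    · exact k0 b hb (h1 b hb l) o'
    obtain ⟨e, he, l', f, e1⟩ := h.mover ha hb l fun n => o' (n.ge ⟨hx, o⟩).2
    have l2 := h.ri.ln_symm ha hb l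
    obtain ⟨g, hg, e2⟩ := k0 _ l2 (mul_mem (h1 b hb l) aL) ((h.ri.l2 hb ha l2 hx o).resolve_left o')
    refine ⟨e * g, mul_mem (h1 e he l') hg, ?_⟩
    rw [mul_inv_rev, show e * g * a * (g⁻¹ * e⁻¹) = e * (g * a * g⁻¹) * e⁻¹ by group, ← e2, ← e1, h.ri.inv he]
    simp only [mul_assoc, h.ri.sq' hb, h.ri.sq' he, h.ri.sq e he, mul_one]
  have k2 : ∀ b, Et D a b → ∃ g ∈ L, b = g * a * g⁻¹ := fun b r => by
    induction r with
    | refl => exact ⟨1, one_mem _, by simp⟩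
    | @tail b b' _ l ih =>
      obtain ⟨g, hg, rfl⟩ := ih
      obtain ⟨k, hk, e⟩ := k1 _ (h.mem l.2.1 g⁻¹) (by simpa [mul_assoc] using h.mem l.2.2.2.2 g⁻¹)
      refine ⟨g * k, mul_mem hg hk, ?_⟩
      rw [mul_inv_rev, show g * k * a * (k⁻¹ * g⁻¹) = g * (k * a * k⁻¹) * g⁻¹ by group, ← e]
      group
  refine top_le_iff.1 (h.gen ▸ (closure_le _).2 fun b hb => ?_)
  obtain ⟨g, hg, rfl⟩ := k2 b (h.et ha hb)
  exact mul_mem (mul_mem hg aL) (inv_mem hg)

theorem ao_ne (ha : a ∈ D) (hb : b ∈ D) (f : Fr a b) : Ao D (a * b * a * b) ≠ Ao D a := fun e =>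
  h.ri.not_fr ha hb (h.ri.cm_of_ao h.cls (h.ri.fr_mem ha hb f) ha e.symm hb (h.ri.fr_cm_r ha hb f)).symm f

theorem weak_ti {T : Set G} (hT : IsWeakTISubsetOfElements D T) (ha : a ∈ T) (hb : b ∈ T) : Commute a b := by
  obtain ⟨h1, -, h2, h3⟩ := hT
  let N : Subgroup G :=
    { carrier := {g | ∀ t, g * t * g⁻¹ ∈ T ↔ t ∈ T}
      one_mem' := fun t => by simp
      mul_mem' := fun {g k} hg hk t => by
        rw [← hk t, ← hg (k * t * k⁻¹), mul_inv_rev]; simp only [mul_assoc]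
      inv_mem' := fun {g} hg t => by rw [← hg]; simp [mul_assoc] }
  have k1 : ∀ t ∈ T, ∀ e ∈ D, Commute e t → e ∈ N := fun t ht e he k => by
    rcases h3 e he with q | q
    · intro s
      refine ⟨fun m => ?_, fun m => q ▸ ⟨s, m, rfl⟩⟩
      obtain ⟨s', hs', e2⟩ := q.ge m
      have : s' = s := by simpa using e2
      exact this ▸ hs'
    · exact absurd ht (Set.disjoint_left.1 q ⟨t, ht, by simp [k.eq]⟩)
  have k2 : ∀ t ∈ T, ∀ e ∈ D, e ∈ N → ¬ Od e t := fun t ht e he m o => h2 (Set.Subset.antisymm h1 fun s hs => by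
    obtain ⟨g, -, rfl⟩ := h.cls t (h1 ht) s hs
    exact ((h.gen_top (h1 ht) he o (fun b hb l => k1 t ht b hb (h.ri.ln_cm (h1 ht) hb l).symm) m).ge
      (mem_top g) t).2 ht)
  have ha' := h1 ha
  have hb' := h1 hb
  refine h.ri.cm_of ha' hb' (k2 b hb a ha' (k1 a ha a ha' (Commute.refl a))) fun f => ?_
  have hz := h.ri.fr_mem ha' hb' f
  obtain ⟨e, he, l, f', e1⟩ := h.mover ha' hz (h.ri.fr_ln_l ha' hb') (h.ao_ne ha' hb' f)
  have := h.ri.l4 ha' hz (h.ri.fr_ln_l ha' hb') he hb' ((h.ri.fr_symm_eq hz he f').trans e1)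
    (h.ri.fr_symm_eq ha' hb' f)
  refine k2 b hb e he (k1 a ha e he (h.ri.ln_cm ha' he l).symm) ⟨?_, by rw [this]; decide⟩
  rintro rfl
  rw [h.ri.sq e he, orderOf_one] at this
  exact absurd this (by decide)

end ND

end CA.RInv
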