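import Cfsg.Agent.Lib.Root.K1

/-!
Root involutions: the commutator map on the classes `E_d`.
-/

set_option autoImplicit false
set_option linter.unusedSectionVars false

namespace CA.RInv

open Subgroup Cfsg

variable {G : Type*} [Group G] [Finite G] {D : Set G} {a a' b c d d' e f p u v w x y z : G}

namespace RI

variable (h : RI D)
include h

theorem cm_cj2 (hx : x ∈ D) (k : Commute a b) : Commute (x * a * x) (x * b * x) := by
  simpa only [h.inv hx] using cm_cj k x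

theorem od_cj2 (hx : x ∈ D) (k : Od a b) : Od (x * a * x) (x * b * x) := by
  simpa only [h.inv hx] using k.cj x

theorem fr_cj2 (hx : x ∈ D) (k : Fr a b) : Fr (x * a * x) (x * b * x) := by
  simpa only [h.inv hx] using k.cj x

theorem cj_cj2 (hx : x ∈ D) (a : G) : x * (x * a * x) * x = a := by
  simp only [mul_assoc, h.sq' hx, h.sq x hx, mul_one]

theorem cj2_of_cm (hx : x ∈ D) (k : Commute x a) : x * a * x = a := by
  rw [k.eq, mul_assoc, h.sq x hx, mul_one]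

theorem cm_of_cj2 (hx : x ∈ D) (k : x * a * x = a) : Commute x a := by
  have : x * a = x * (x * a * x) := by rw [k]
  rwa [mul_assoc, h.sq' hx] at this

theorem cj2_mul (hx : x ∈ D) (a b : G) : x * (a * b) * x = x * a * x * (x * b * x) := by
  simp only [mul_assoc, h.sq' hx]

theorem cj2_br (ha : a ∈ D) (z : G) : z * a * z = a * (a * z * a * z) := by
  simp only [mul_assoc, h.sq' ha]

theorem cj2_br' (ha : a ∈ D) (z : G) : z * a * z = z * a * z * a * a := by
  simp only [mul_assoc, h.sq a ha, mul_one]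

theorem ao_cjg {g : G} (hg : g ∈ closure D) (k : Ao D a = Ao D b) : Ao D (g * a * g⁻¹) = Ao D (g * b * g⁻¹) := by
  rw [h.ao_cj hg, h.ao_cj hg, k]

theorem ao_cj2 (hx : x ∈ D) (k : Ao D a = Ao D b) : Ao D (x * a * x) = Ao D (x * b * x) := by
  simpa only [h.inv hx] using h.ao_cjg (subset_closure hx) k

omit h in
theorem od_of_ao (k : Ao D a = Ao D b) (hy : y ∈ D) (o : Od y a) : Od y b := (k.le ⟨hy, o⟩).2

/-- for a product of order three the two commutator maps are inverse to each other -/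
theorem phi_phi (ha : a ∈ D) (hx : x ∈ D) (o : orderOf (a * x) = 3) (hc : c ∈ D) (l : a * c ∈ D) (f : Fr x c) :
    a * (x * c * x * c) * a * (x * c * x * c) = c := by
  have od : Od x a := Od.symm ⟨fun e => by
    rw [e, h.sq x hx, orderOf_one] at o; exact absurd o (by decide), by rw [o]; decide⟩
  obtain ⟨ht, l', f'⟩ := h.l3_map ha hx od hc l f
  have c1 := h.fr_cm_l hx hc f
  have c2 := h.fr_cm_r hx hc f
  have e0 : x * c * x = x * c * x * c * c := h.cj2_br' hc x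
  generalize x * c * x * c = t at *
  have hn := h.fr_mem ha ht f'
  have c3 := h.fr_cm_l ha ht f'
  have c4 := h.fr_cm_r ha ht f'
  have e1 : a * t * a = a * t * a * t * t := h.cj2_br' ht a
  have e2 : t * a * t = a * (a * t * a * t) := h.cj2_br ha t
  have c5 := h.ln_cm ha hc l
  have c6 : Commute c (a * t * a * t) := ((c5.symm.mul_right c2).mul_right c5.symm).mul_right c2
  generalize a * t * a * t = n at *
  have br : x * a * x = a * x * a := by
    have := pow_orderOf_eq_one (a * x)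
    rw [o, pow_three, show a * x * (a * x * (a * x)) = a * x * a * (x * a * x) by group] at this
    rw [eq_inv_of_mul_eq_one_right this]
    simp only [mul_inv_rev, h.inv hx, h.inv ha, mul_assoc]
  have e3 : x * (a * (x * c * x) * a) * x = a * (x * c * x) * a := by
    calc _ = x * a * x * c * (x * a * x) := by group
      _ = a * (x * (a * c * a) * x) * a := by rw [br]; group
      _ = _ := by rw [h.cj2_of_cm ha c5]
  rw [e0, h.cj2_mul ha, e1, h.cj2_of_cm ha c5, h.cj2_mul hx, h.cj2_mul hx, h.cj2_of_cm hx c1, e0] at e3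
  have e4 : x * (n * c) * x = n * c := by
    rw [h.cj2_mul hx, e0]
    have : x * n * x = n * t := by
      rw [mul_assoc _ t, h.sq' ht] at e3; exact mul_right_cancel e3
    rw [this, mul_assoc, h.sq' ht]
  have c7 : Commute (n * c) x := (h.cm_of_cj2 hx e4).symm
  by_contra hne
  have := h.no_two_mul hx l (u := n * c) (h := x * (a * n)) (by
      rw [c7.left_comm, mul_assoc n, c5.symm.left_comm, c3.symm.left_comm, c6.eq, h.sq' hn])
    (sq_mul_cm c6.symm (h.sq n hn) (h.sq c hc))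
    (fun e => hne (by rw [eq_inv_of_mul_eq_one_left e, h.inv hc]))
    (c7.mul_right ((c3.symm.mul_left c5.symm).mul_right ((Commute.refl n).mul_left c6)))
    (by rw [← e2, ← h.cj2_of_cm ht c1.symm]; exact (h.od_cj2 ht od).2)
  rw [← e2, mul_eq_one_iff_eq_inv, h.inv (h.cjD a ha t ht)] at this
  exact od.1 (by rw [← h.cj2_of_cm ht c1.symm, this, h.cj_cj2 ht])

/-- L3 with an invariant property -/
theorem l3P (P : G → Prop) (ha : a ∈ D) (hx : x ∈ D) (o : Od x a)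
    (p1 : ∀ c ∈ D, P c → Fr x c → P (x * c * x * c)) (p2 : ∀ c ∈ D, P c → Fr a c → P (a * c * a * c))
    (hz : z ∈ D) (hxz : x * z ∈ D) (hf : Fr a z) (pz : P z) :
    ∃ c ∈ D, a * c ∈ D ∧ Fr x c ∧ z = x * c * x * c ∧ P c := by
  let S : G → G → Type _ := fun a x => {c : G // (c ∈ D ∧ a * c ∈ D ∧ Fr x c) ∧ P c}
  have key : ∀ a ∈ D, ∀ x ∈ D, Od x a → (∀ c ∈ D, P c → Fr x c → P (x * c * x * c)) →
      ∃ φ : S a x → S x a, Function.Injective φ ∧ ∀ c, (φ c).1 = x * c.1 * x * c.1 := fun a ha x hx o p =>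
    ⟨fun c => ⟨_, h.l3_map ha hx o c.2.1.1 c.2.1.2.1 c.2.1.2.2, p _ c.2.1.1 c.2.2 c.2.1.2.2⟩, fun c c' e => Subtype.ext
      (h.l3_inj ha hx o c.2.1.1 c.2.1.2.1 c.2.1.2.2 c'.2.1.1 c'.2.1.2.1 c'.2.1.2.2 (congrArg Subtype.val e)),
      fun _ => rfl⟩
  obtain ⟨φ, hφ, e⟩ := key a ha x hx o p1
  obtain ⟨ψ, hψ, -⟩ := key x hx a ha o.symm p2
  obtain ⟨c, hc⟩ := Finite.surjective_of_injective (hφ.comp hψ) ⟨z, ⟨hz, hxz, hf⟩, pz⟩
  exact ⟨(ψ c).1, (ψ c).2.1.1, (ψ c).2.1.2.1, (ψ c).2.1.2.2, by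
    rw [← e]; exact (congrArg Subtype.val hc).symm, (ψ c).2.2⟩

theorem od_of_three (he : e ∈ D) (o : orderOf (e * f) = 3) : Od e f :=
  ⟨fun k => by rw [← k, h.sq e he, orderOf_one] at o; exact absurd o (by decide), by rw [o]; decide⟩

end RI

namespace ND

variable (h : ND D)
include h

theorem cmE (hd : d ∈ D) (he : e ∈ D) (k : Ao D d = Ao D e) (hy : y ∈ D) (c : Commute y d) : Commute y e :=
  h.ri.cm_of_ao h.cls hd he k.symm hy c

theorem frE (hd : d ∈ D) (he : e ∈ D) (k : Ao D d = Ao D e) (hy : y ∈ D) (f : Fr d y) : Fr e y :=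
  h.ri.fr_of he hy (fun c => h.ri.not_fr hd hy (h.cmE he hd k.symm hy c.symm).symm f)
    fun o => (RI.od_of_ao k.symm hy o.symm).symm.not_fr f

theorem ao_ne' (ha : a ∈ D) (hb : b ∈ D) (f : Fr a b) : Ao D (a * b * a * b) ≠ Ao D b :=
  h.ri.fr_symm_eq ha hb f ▸ h.ao_ne hb ha f.symm

theorem br_cm (ha : a ∈ D) (ha' : a' ∈ D) (k : Ao D a = Ao D a') (hz : z ∈ D) (f : Fr a z) :
    Commute (a * z * a * z) a' ∧ Commute (a * z * a * z) (a' * z * a' * z) :=
  have c1 := h.cmE ha ha' k (h.ri.fr_mem ha hz f) (h.ri.fr_cm_l ha hz f).symm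
  have c2 := (h.ri.fr_cm_r ha hz f).symm
  ⟨c1, ((c1.mul_right c2).mul_right c1).mul_right c2⟩

theorem br_mul (ha : a ∈ D) (ha' : a' ∈ D) (k : Ao D a = Ao D a') (hz : z ∈ D) (f : Fr a z) :
    a * a' * z * (a * a') * z = a * z * a * z * (a' * z * a' * z) := by
  have c1 := (h.br_cm ha ha' k hz f).1
  have c2 := h.cmE ha ha' k ha (Commute.refl a)
  calc _ = a * a' * (z * (a * a') * z) := by group
    _ = a' * a * (a * (a * z * a * z) * (a' * (a' * z * a' * z))) := by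
      rw [h.ri.cj2_mul hz, h.ri.cj2_br ha, h.ri.cj2_br ha', c2.eq]
    _ = _ := by
      rw [mul_assoc a', mul_assoc a, h.ri.sq' ha, ← mul_assoc _ a', c1.eq, mul_assoc a', h.ri.sq' ha']

end ND

/-- every `E_d ∪ {1}` is a subgroup -/
def HE (D : Set G) : Prop := ∀ a ∈ D, ∀ b ∈ D, Ao D a = Ao D b → a ≠ b → a * b ∈ D

namespace ND

variable (h : ND D) (hE : HE D)
include h hE

theorem ao_mul (ha : a ∈ D) (hb : b ∈ D) (k : Ao D a = Ao D b) (n : a ≠ b) : Ao D (a * b) = Ao D a :=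
  h.ri.ao_ln h.cls ha hb (hE a ha b hb k n) k

theorem brE_aux (ha : a ∈ D) (ha' : a' ∈ D) (k : Ao D a = Ao D a') (hz : z ∈ D) (f : Fr a z) (hy : y ∈ D)
    (o : Od y a) (o1 : Od y (a * z * a * z)) : Od y (a' * z * a' * z) := by
  by_contra o2
  have r := h.ri
  have f' := h.frE ha ha' k hz f
  have hc1 := r.fr_mem ha hz f
  have hc2 := r.fr_mem ha' hz f'
  have cc := (h.br_cm ha ha' k hz f).2
  have l2 := r.fr_ln_l (b := z) ha' hz
  have o' := RI.od_of_ao k hy o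
  obtain ⟨n, hn, l3, f3, e3⟩ := r.l3 hy ha' o'.symm hc2 l2
    (r.fr_of hy hc2 (r.l1' hc2 ha' (r.ln_symm ha' hc2 l2) hy o') o2)
  have z1 := r.fr_cm_r ha hz f
  have z2 := r.fr_cm_r ha' hz f'
  have e1 := r.cj2_br ha z
  have e2 := r.cj2_br ha' z
  have a1 := r.fr_cm_l ha hz f
  have l4 := e3 ▸ r.fr_ln_r ha' hn f3
  have n2 := e3 ▸ r.fr_cm_r ha' hn f3
  have e4 := e3 ▸ r.cj2_br ha' n
  clear e3
  generalize a * z * a * z = c1 at *
  generalize a' * z * a' * z = c2 at *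
  have n1 : ¬ Commute c1 n := r.l1' hn hy (r.ln_symm hy hn l3) hc1 o1.symm
  have hza := r.cjD a ha z hz
  -- `a₃ = n z a z n`
  have h3 := r.cjD _ hza n hn
  have k1 : Ao D (z * a * z) = Ao D (n * a' * n) := by rw [e4, ← e2]; exact r.ao_cj2 hz k
  have k3 : Ao D (n * (z * a * z) * n) = Ao D a := by
    rw [r.ao_cj2 hn k1, r.cj_cj2 hn, k]
  have e5 : n * (n * (z * a * z) * n) * n = a * c1 := by rw [r.cj_cj2 hn, e1]
  generalize n * (z * a * z) * n = a3 at *
  have f4 := h.frE ha' h3 (k.symm.trans k3.symm) hn f3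
  have hk := r.fr_mem h3 hn f4
  have nk := r.fr_cm_r h3 hn f4
  have lk := r.fr_ln_r h3 hn f4
  have e9 := r.cj2_br h3 n
  rw [e9] at e5
  generalize a3 * n * a3 * n = kk at *
  have e6 : c1 = a * a3 * kk := by rw [mul_assoc, e5, r.sq' ha]
  have n3 : a ≠ a3 := fun e => n1 (by rw [e6, ← e, r.sq a ha, one_mul]; exact nk.symm)
  have h0 := hE a ha a3 h3 k3.symm n3
  have k0 := h.ao_mul hE ha h3 k3.symm n3
  generalize a * a3 = a0 at *
  have f5 := h.frE ha' h0 (k.symm.trans k0.symm) hn f3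
  have hm := r.fr_mem h0 hn f5
  obtain ⟨g, hg, l5, f6, e7⟩ := h.mover hn hm (r.fr_ln_r h0 hn f5) (h.ao_ne' h0 hn f5)
  have o3 := r.l4 hm hn (r.ln_symm hn hm (r.fr_ln_r h0 hn f5)) h0 hg rfl ((r.fr_symm_eq hm hg f6).trans e7)
  have gn := r.ln_cm hn hg l5
  have f7 := r.fr_of hg hk (r.l1' hk h0 (r.ln_symm h0 hk (e6 ▸ hc1)) hg (r.od_of_three h0 o3).symm)
    (r.l1 hn hk lk hg gn.symm)
  have e8 := r.phi_phi h0 hg o3 hk (e6 ▸ hc1) f7
  have ht := r.fr_mem hg hk f7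
  have tk := r.fr_cm_r hg hk f7
  have tn : Commute n (g * kk * g * kk) := ((gn.mul_right nk).mul_right gn).mul_right nk
  generalize g * kk * g * kk = t at *
  have k4 : Ao D c1 = Ao D (t * a3 * t) := by
    rw [e6, ← e8, ← r.cj2_br h0]; exact r.ao_cj2 ht (k0.trans k3.symm)
  have z3 : Commute z (n * c1 * n) := by
    have q := r.cm_cj2 hn z1
    rcases r.pair n hn z hz with q1 | q1 | ⟨q1, q2⟩
    · rwa [r.cj2_of_cm hn q1] at q
    · exact absurd q1.symm (r.l1 hc2 hn (r.ln_symm hn hc2 l4) hz z2)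
    have q3 : Commute (n * z) a' := by
      calc n * z * a' = n * (z * a' * z) * n * (n * z) := by
            simp only [mul_assoc, r.sq' hn, r.sq z hz, mul_one]
        _ = a' * (n * z) := by rw [e2, ← e4, r.cj_cj2 hn]
    have q4 : Commute (n * z * n * z) a' := by rw [mul_assoc]; exact q3.mul_left q3
    have q5 : Commute (n * z * n * z) c2 := ((n2.mul_left z2).mul_left n2).mul_left z2
    have q6 := h.cmE (r.cjD a' ha' n hn) hza k1.symm q2 (e4 ▸ q4.mul_right q5)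
    have q7 := (h.cmE ha' ha k.symm q2 q4).mul_right q6
    rw [e1, r.sq' ha] at q7
    have q8 := (r.fr_cm_l hn hz q1).symm
    have := ((q8.mul_right q7).mul_right q8).mul_left q
    rwa [show n * z * n * z * (n * z * n) = z by
      rw [← mul_left_inj z, mul_assoc _ (n * z * n), r.sq _ q2, r.sq z hz]] at this
  have ht3 := r.cjD a3 h3 t ht
  have z4 := h.cmE hc1 ht3 k4 hz z1
  have z5 := h.cmE (r.cjD _ hc1 n hn) (r.cjD _ ht3 n hn) (r.ao_cj2 hn k4) hz z3
  rw [r.cj2_mul hn, r.cj2_mul hn, r.cj2_of_cm hn tn, e9, ← mul_assoc, mul_assoc _ kk, tk.eq, ← mul_assoc] at z5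
  have z6 := z4.inv_right.mul_right z5
  rw [inv_mul_cancel_left] at z6
  have z7 := z1.mul_right z6
  rw [e6, mul_assoc, r.sq kk hk, mul_one] at z7
  exact r.not_fr h0 hz z7.symm (h.frE ha h0 k0.symm hz f)

/-- `[E(a), z] ≤ E([a, z])` -/
theorem brE (ha : a ∈ D) (ha' : a' ∈ D) (k : Ao D a = Ao D a') (hz : z ∈ D) (f : Fr a z) :
    Ao D (a * z * a * z) = Ao D (a' * z * a' * z) := by
  have r := h.ri
  have f' := h.frE ha ha' k hz f
  refine r.ao_eq_of_subset h.cls (r.fr_mem ha hz f) (r.fr_mem ha' hz f') fun y hy => ⟨hy.1, ?_⟩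
  rcases r.l2 ha (r.fr_mem ha hz f) (r.fr_ln_l ha hz) hy.1 hy.2 with o | o
  · exact h.brE_aux hE ha ha' k hz f hy.1 o hy.2
  rw [← r.cj2_br ha] at o
  have := r.od_cj2 hz (h.brE_aux hE ha ha' k hz f (r.cjD y hy.1 z hz) (by simpa only [r.cj_cj2 hz] using r.od_cj2 hz o)
    (by simpa only [r.cj2_of_cm hz (r.fr_cm_r ha hz f)] using r.od_cj2 hz hy.2))
  rwa [r.cj_cj2 hz, r.cj2_of_cm hz (r.fr_cm_r ha' hz f')] at this

omit hE in
theorem ncard_E (ha : a ∈ D) (hb : b ∈ D) :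
    {e | e ∈ D ∧ Ao D e = Ao D a}.ncard = {e | e ∈ D ∧ Ao D e = Ao D b}.ncard := by
  have key : ∀ a ∈ D, ∀ b ∈ D, {e | e ∈ D ∧ Ao D e = Ao D a}.ncard ≤ {e | e ∈ D ∧ Ao D e = Ao D b}.ncard :=
    fun a ha b hb => by
      obtain ⟨g, hg, rfl⟩ := h.cls a ha b hb
      exact Set.ncard_le_ncard_of_injOn (fun e => g * e * g⁻¹) (fun e he => ⟨h.mem he.1 g, h.ri.ao_cjg hg he.2⟩)
        fun _ _ _ _ e => by simpa using e
  exact (key a ha b hb).antisymm (key b hb a ha)

/-- `[E(a), z] = E([a, z])` -/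
theorem brE_surj (ha : a ∈ D) (hz : z ∈ D) (f : Fr a z) (hd : d ∈ D) (k : Ao D d = Ao D (a * z * a * z)) :
    ∃ a' ∈ D, Ao D a' = Ao D a ∧ a' * z * a' * z = d := by
  have r := h.ri
  obtain ⟨a', ha', e⟩ := Set.surj_on_of_inj_on_of_ncard_le (s := {e | e ∈ D ∧ Ao D e = Ao D a})
    (t := {e | e ∈ D ∧ Ao D e = Ao D (a * z * a * z)}) (fun e _ => e * z * e * z)
    (fun e he => ⟨r.fr_mem he.1 hz (h.frE ha he.1 he.2.symm hz f),
      (h.brE hE ha he.1 he.2.symm hz f).symm⟩) (fun e e' he he' q => by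
      by_contra n
      have k' := he.2.trans he'.2.symm
      have f1 := h.frE ha he.1 he.2.symm hz f
      have m := r.fr_mem (hE e he.1 e' he'.1 k' n) hz (h.frE he.1 (hE e he.1 e' he'.1 k' n)
        (h.ao_mul hE he.1 he'.1 k' n).symm hz f1)
      rw [h.br_mul he.1 he'.1 k' hz f1, ← q, r.sq _ (r.fr_mem he.1 hz f1)] at m
      exact r.ne 1 m rfl) (h.ncard_E (r.fr_mem ha hz f) ha).le (Set.toFinite _) d ⟨hd, k⟩
  exact ⟨a', ha'.1, ha'.2, e.symm⟩

/-- `X_d ∪ {d}` depends on `E_d` only -/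
theorem lnE (hd : d ∈ D) (hc : c ∈ D) (l : d * c ∈ D) (hd' : d' ∈ D) (k : Ao D d' = Ao D d) (n : d' ≠ c) :
    d' * c ∈ D := by
  by_cases q : Ao D c = Ao D d
  · exact hE _ hd' _ hc (k.trans q.symm) n
  obtain ⟨e, he, -, f, e1⟩ := h.mover hd hc l q
  obtain ⟨e', he', -, e2⟩ := h.brE_surj hE he hc f.symm hd' (by rw [h.ri.fr_symm_eq hc he f, e1, k])
  rw [← e2, mul_assoc, h.ri.sq c hc, mul_one]
  exact h.ri.cjD c hc e' he'

end ND

end CA.RInv
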