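import Cfsg.Agent.Lib.Root.K2

/-!
Root involutions: the root structure theorem.
-/

set_option autoImplicit false
set_option linter.unusedSectionVars false

namespace CA.RInv

open Subgroup Cfsg
open scoped commutatorElement

variable {G : Type*} [Group G] [Finite G] {D : Set G} {a a' b c d d' e f p u v w x y z : G}

/-- `C_D(d)` -/
def Cd (D : Set G) (d : G) : Set G := {y | y ∈ D ∧ Commute y d}

/-- `W_d`, the isolated vertices of the graph of odd products on `C_D(d)` -/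
def Wd (D : Set G) (d : G) : Set G := {w | w ∈ Cd D d ∧ ∀ y ∈ Cd D d, ¬ Od y w}

namespace RI

variable (h : RI D)
include h

theorem cd_cj (ha : a ∈ Cd D d) (hb : b ∈ Cd D d) : b * a * b ∈ Cd D d :=
  ⟨h.cjD a ha.1 b hb.1, (hb.2.mul_left ha.2).mul_left hb.2⟩

theorem cd_br (ha : a ∈ Cd D d) (hb : b ∈ Cd D d) (f : Fr a b) : a * b * a * b ∈ Cd D d :=
  ⟨h.fr_mem ha.1 hb.1 f, ((ha.2.mul_left hb.2).mul_left ha.2).mul_left hb.2⟩

theorem ri_cd (d : G) : RI (Cd D d) :=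
  h.mono (fun _ k => k.1) (fun _ ha _ hb => h.cd_cj ha hb) fun _ ha _ hb => h.cd_br ha hb

theorem wd_cj (ha : a ∈ Wd D d) (hb : b ∈ Cd D d) : b * a * b ∈ Wd D d :=
  ⟨h.cd_cj ha.1 hb, fun y hy o => ha.2 _ (h.cd_cj hy hb) (by
    simpa only [h.cj_cj2 hb.1] using h.od_cj2 hb.1 o)⟩

theorem wd_br (ha : a ∈ Wd D d) (hb : b ∈ Cd D d) (f : Fr a b) : a * b * a * b ∈ Wd D d := by
  refine ⟨h.cd_br ha.1 hb f, fun y hy o => ?_⟩
  rcases h.l2 ha.1.1 (h.fr_mem ha.1.1 hb.1 f) (h.fr_ln_l ha.1.1 hb.1) hy.1 o with k | k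
  · exact ha.2 y hy k
  · rw [← h.cj2_br ha.1.1] at k
    exact (h.wd_cj ha hb).2 y hy k

theorem ri_wd (d : G) : RI (Wd D d) :=
  h.mono (fun _ k => k.1.1) (fun _ ha _ hb => h.wd_cj ha hb.1) fun _ ha _ hb => h.wd_br ha hb.1

theorem wd_of_ln (hd : d ∈ D) (hc : c ∈ D) (l : d * c ∈ D) : c ∈ Wd D d :=
  ⟨⟨hc, (h.ln_cm hd hc l).symm⟩, fun _ hy => h.l1 hd hc l hy.1 hy.2⟩

theorem wd_self (hd : d ∈ D) : d ∈ Wd D d :=
  ⟨⟨hd, Commute.refl d⟩, fun _ hy => h.not_od hy.1 hd hy.2⟩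

theorem pg_wd (d : G) : IsPGroup 2 (closure (Wd D d)) :=
  (h.ri_wd d).isPGroup_closure fun _ ha _ hb => hb.2 _ ha.1

theorem mem_wd (he : e ∈ D) (m : e ∈ closure (Wd D d)) : e ∈ Wd D d := by
  have hc : e ∈ Cd D d := ⟨he, by
    have : closure (Wd D d) ≤ centralizer {d} := (closure_le _).2 fun w hw =>
      mem_centralizer_singleton_iff.2 hw.1.2
    exact mem_centralizer_singleton_iff.1 (this m)⟩
  refine ⟨hc, fun y hy o => (h.ri_cd d).not_od_of_mem (h.pg_wd d) ((closure_le _).2 fun g hg => ?_) hc hy m o.symm⟩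
  refine mem_normalizer_fintype fun n hn => ?_
  have : (closure (Wd D d)).map (MulAut.conj g).toMonoidHom ≤ closure (Wd D d) := by
    rw [MonoidHom.map_closure]
    refine closure_mono ?_
    rintro _ ⟨w, hw, rfl⟩
    simpa [h.inv hg.1] using h.wd_cj hw hg
  exact this ⟨n, hn, rfl⟩

end RI

namespace ND

variable (h : ND D)
include h

theorem exists_fr (hd : d ∈ D) (hw : w ∈ Wd D d) (n : Ao D w ≠ Ao D d) : ∃ u ∈ D, d * u ∈ D ∧ Fr u w := by
  have r := h.ri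
  obtain ⟨y, hy, o1, o2⟩ := r.exists_od_not h.cls hw.1.1 hd n
  have f := r.fr_of hy hd (fun k => hw.2 y ⟨hy, k⟩ o1) o2
  have hu := r.fr_mem hy hd f
  refine ⟨_, hu, r.fr_ln_r hy hd f, r.fr_of hu hw.1.1 (fun k => ?_) (hw.2 _ ⟨hu, (r.fr_cm_r hy hd f).symm⟩)⟩
  exact r.l1' hu hy (r.ln_symm hy hu (r.fr_ln_l hy hd)) hw.1.1 o1.symm k.symm

variable (hE : HE D)
include hE

/-- the common line partners of a pair with product of order four -/
theorem ao_of_two (hd : d ∈ D) (hp : p ∈ D) (f : Fr p d) (hw : w ∈ D) (o : Od w p)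
    (hZ : ∀ t ∈ D, p * t ∈ D → d * t ∈ D → Fr w t ∧ Ao D (w * t * w * t) = Ao D d)
    (hx : x ∈ D) (l1 : p * x ∈ D) (l2 : d * x ∈ D) : Ao D x = Ao D (p * d * p * d) := by
  have r := h.ri
  have hm := r.fr_mem hp hd f
  have := Set.eq_of_subset_of_ncard_le (s := {e | e ∈ D ∧ Ao D e = Ao D (p * d * p * d)})
    (t := {t | t ∈ D ∧ p * t ∈ D ∧ d * t ∈ D}) (fun e he => ⟨he.1,
      r.ln_symm he.1 hp (h.lnE hE hm hp (r.ln_symm hp hm (r.fr_ln_l hp hd)) he.1 he.2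
        fun q => h.ao_ne hp hd f (q ▸ he.2.symm)),
      r.ln_symm he.1 hd (h.lnE hE hm hd (r.ln_symm hd hm (r.fr_ln_r hp hd f)) he.1 he.2
        fun q => h.ao_ne' hp hd f (q ▸ he.2.symm))⟩)
    ((Set.ncard_le_ncard_of_injOn (t := {e | e ∈ D ∧ Ao D e = Ao D d}) (fun t => w * t * w * t) (fun t ht =>
      ⟨r.fr_mem hw ht.1 (hZ t ht.1 ht.2.1 ht.2.2).1, (hZ t ht.1 ht.2.1 ht.2.2).2⟩) fun t ht t' ht' q =>
      r.l3_inj hp hw o ht.1 ht.2.1 (hZ t ht.1 ht.2.1 ht.2.2).1 ht'.1 ht'.2.1 (hZ t' ht'.1 ht'.2.1 ht'.2.2).1 q).trans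
      (h.ncard_E hd hm).le)
  exact (this.ge ⟨hx, l1, l2⟩).2

theorem rst_aux (hd : d ∈ D) (hu : u ∈ Wd D d) (hv : v ∈ D) (l : d * v ∈ D) (f : Fr u v)
    (hZ : ∀ t ∈ D, d * t ∈ D → Fr (u * v * u * v) t → Ao D (u * v * u * v * t * (u * v * u * v) * t) = Ao D d)
    (hp : p ∈ D) (o1 : Od p (u * v * u * v)) (o2 : ¬ Od p d) (o3 : Od p v) : False := by
  have r := h.ri
  have hw := r.wd_br hu (r.wd_of_ln hd hv l).1 f
  have hu' := hu.1.1
  have lw := r.ln_symm hv hw.1.1 (r.fr_ln_r hu' hv f)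
  have nw := h.ao_ne' hu' hv f
  have uw := r.fr_cm_l hu' hv f
  have e0 : u * v * u * v = u * v * u * v := rfl
  generalize hw0 : u * v * u * v = w at hZ o1 hw lw nw uw
  have hw' := hw.1.1
  have f1 := r.fr_of hp hd (fun k => hw.2 p ⟨hp, k⟩ o1) o2
  have hZ' : ∀ t ∈ D, p * t ∈ D → d * t ∈ D → Fr w t ∧ Ao D (w * t * w * t) = Ao D d := fun t ht l1 l2 =>
    have q := r.fr_of hw' ht (r.l1' ht hp (r.ln_symm hp ht l1) hw' o1.symm) (r.l1 hd ht l2 hw' hw.1.2)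
    ⟨q, hZ t ht l2 q⟩
  obtain ⟨m, hm, l1, f2, e1⟩ := r.l3 hp hv o3.symm hd (r.ln_symm hd hv l) f1
  have l2 : d * m ∈ D := r.ln_symm hm hd (e1 ▸ r.fr_ln_r hv hm f2)
  have k1 := h.ao_of_two hE hd hp f1 hw' o1.symm hZ' hm l1 l2
  obtain ⟨f3, k2⟩ := hZ' m hm l1 l2
  obtain ⟨w', hw2, k3, e2⟩ := h.brE_surj hE hw' hm f3 hd k2.symm
  have hv' := h.lnE hE hw' hv lw hw2 k3 fun q => nw (q ▸ k3.symm)
  have c1 : Commute w' d := (h.cmE hw' hw2 k3.symm hd hw.1.2.symm).symm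
  have c2 := r.ln_cm hd hv l
  have c3 : Commute m (w' * v) := r.cm_of_cj2 hm (by
    rw [r.cj2_mul hm, r.cj2_br hw2, r.cj2_br hv, e2, ← e1, mul_assoc, c2.left_comm, r.sq d hd, mul_one])
  have hm0 := r.fr_mem hp hd f1
  have c4 := h.cmE hm hm0 k1 hv' c3.symm
  have c5 := r.ln_cm hw2 hv hv'
  have f4 := r.fr_of hp hv' (r.l1' hv' hw2 (by rw [← c5.eq.symm, mul_assoc, r.sq w' hw2, mul_one]; exact hv) hp
    (RI.od_of_ao k3.symm hp o1)) fun o => r.l1 hm hp (r.ln_symm hp hm l1) hv' c3.symm o.symm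
  have l3 : w * (w' * v) ∈ D := by
    by_cases q : w = w'
    · rw [q, r.sq' hw2]; exact hv
    · rw [← mul_assoc]
      have k4 := h.ao_mul hE hw' hw2 k3.symm q
      exact h.lnE hE hw' hv lw (hE _ hw' _ hw2 k3.symm q) k4 fun q => nw (q ▸ k4.symm)
  obtain ⟨f5, k5⟩ := hZ' _ hm0 (r.fr_ln_l hp hd) (r.fr_ln_r hp hd f1)
  have pm := r.fr_cm_l hp hd f1
  have e3 := r.cj2_br hd p
  rw [r.fr_symm_eq hp hd f1] at e3
  generalize p * d * p * d = m0 at *
  obtain ⟨j, hj, -, f6, e4, j1, -⟩ := r.l3P (fun x => Commute x d ∧ Commute x m0) hp hw' o1.symm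
    (fun c hc k q => by
      have q1 := r.cm_cj2 hw' k.1
      have q2 := r.cm_cj2 hw' k.2
      rw [r.cj2_of_cm hw' hw.1.2] at q1
      rw [r.cj2_br' hm0] at q2
      have q3 := (h.cmE hd (r.fr_mem hw' hm0 f5) k5.symm (r.cjD c hc w hw') q1).inv_right.mul_right q2
      rw [inv_mul_cancel_left] at q3
      exact ⟨q1.mul_left k.1, q3.mul_left k.2⟩)
    (fun c hc k q => by
      have q1 := r.cm_cj2 hp k.1
      have q2 := r.cm_cj2 hp k.2
      rw [r.cj2_of_cm hp pm] at q2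
      rw [e3] at q1
      have q3 := q1.mul_right q2.inv_right
      rw [mul_inv_cancel_right] at q3
      exact ⟨q3.mul_left k.1, q2.mul_left k.2⟩)
    hv' l3 f4 ⟨c1.mul_left c2.symm, c4⟩
  have c6 := h.cmE hw' hw2 k3.symm hu' uw
  have := r.l4 hw' hv' l3 hu' hj (by
    rw [← hw0]
    calc u * (w' * v) * u * (w' * v) = u * (w' * (v * (u * (w' * v)))) := by group
      _ = _ := by rw [c6.left_comm, c6.left_comm, c5.symm.left_comm, c6.left_comm, r.sq' hw2]; group)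
    ((r.fr_symm_eq hw' hj f6).trans e4.symm)
  exact hu.2 j ⟨hj, j1⟩ (r.od_of_three hu' this).symm

/-- `[W_d, X_d] ≤ E(d)` -/
theorem rst (hd : d ∈ D) (hu : u ∈ Wd D d) (hv : v ∈ D) (l : d * v ∈ D) (f : Fr u v) :
    Ao D (u * v * u * v) = Ao D d := by
  have r := h.ri
  by_contra n0
  have key : ∀ n : ℕ, ∃ u ∈ Wd D d, u ∈ (closure (Wd D d)).lowerCentralSeries n ∧
      ∃ v ∈ D, d * v ∈ D ∧ Fr u v ∧ Ao D (u * v * u * v) ≠ Ao D d := by
    intro n
    induction n with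
    | zero => exact ⟨u, hu, subset_closure hu, v, hv, l, f, n0⟩
    | succ n ih =>
      obtain ⟨u, hu, m, v, hv, l, f, n1⟩ := ih
      have hv' := r.wd_of_ln hd hv l
      have hw := r.wd_br hu hv'.1 f
      refine ⟨_, hw, by
        simpa [commutatorElement_def, r.inv hu.1.1, r.inv hv] using
          commutator_mem_commutator m (subset_closure hv'), ?_⟩
      by_contra! hZ
      obtain ⟨p, hp, o1, o2⟩ := r.exists_od_not h.cls hw.1.1 hd n1
      rcases r.l2 hv hw.1.1 (r.fr_ln_r hu.1.1 hv f) hp o1 with o | o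
      · exact h.rst_aux hE hd hu hv l f hZ hp o1 o2 o
      have e : u * (u * v * u) * u * (u * v * u) = u * v * u * v := by
        rw [r.cj_cj2 hu.1.1, ← r.fr_symm_eq hu.1.1 hv f]; group
      rw [← r.fr_symm_eq hu.1.1 hv f, ← r.cj2_br hv] at o
      refine h.rst_aux hE hd hu (r.cjD v hv u hu.1.1) ?_ ?_ (e ▸ hZ) hp (e ▸ o1) o2 o
      · rw [← r.cj2_of_cm hu.1.1 hu.1.2, ← r.cj2_mul hu.1.1]; exact r.cjD _ l u hu.1.1
      · simpa only [r.cj2_of_cm hu.1.1 (Commute.refl u)] using r.fr_cj2 hu.1.1 f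
  obtain ⟨n, hn⟩ := (isNilpotent_iff_lowerCentralSeries _).1 (r.pg_wd d).isNilpotent
  obtain ⟨t, ht, htn, -⟩ := key n
  rw [hn, mem_bot] at htn
  exact r.ne _ ht.1.1 htn

/-- `W_d = X_d ∪ {d}` -/
theorem ln_of_wd (hd : d ∈ D) (hw : w ∈ Wd D d) (n : d ≠ w) : d * w ∈ D := by
  by_cases q : Ao D w = Ao D d
  · exact hE d hd w hw.1.1 q.symm n
  obtain ⟨u, hu, l, f⟩ := h.exists_fr hd hw q
  have hw' := hw.1.1
  exact h.lnE hE (h.ri.fr_mem hw' hu f.symm) hw' (h.ri.ln_symm hw' (h.ri.fr_mem hw' hu f.symm) (h.ri.fr_ln_l hw' hu))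
    hd (h.rst hE hd hw hu l f.symm).symm n

theorem wd_eq (hd : d ∈ D) : Wd D d = productPartners D d ∪ {d} := by
  refine Set.Subset.antisymm (fun w hw => ?_) ?_
  · by_cases e : w = d
    · exact Or.inr e
    · exact Or.inl ⟨⟨hw.1.1, hw.1.2, e⟩, h.ri.ln_symm hd hw.1.1 (h.ln_of_wd hE hd hw (Ne.symm e))⟩
  · rintro w (hw | rfl)
    · exact h.ri.wd_of_ln hd hw.1.1 (h.ri.ln_symm hw.1.1 hd hw.2)
    · exact h.ri.wd_self hd

theorem E_cm (hd : d ∈ D) (he : e ∈ D) (k : Ao D e = Ao D d) (hy : y ∈ closure (Wd D d)) : Commute e y := by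
  have : closure (Wd D d) ≤ centralizer {e} := (closure_le _).2 fun w hw =>
    mem_centralizer_singleton_iff.2 (h.cmE hd he k.symm hw.1.1 hw.1.2)
  exact (mem_centralizer_singleton_iff.1 (this hy)).symm

theorem wd_of_E (hd : d ∈ D) (he : e ∈ D) (k : Ao D e = Ao D d) : Wd D e = Wd D d := by
  have : Cd D e = Cd D d := Set.ext fun y => and_congr_right fun hy =>
    ⟨h.cmE he hd k hy, h.cmE hd he k.symm hy⟩
  rw [Wd, Wd, this]

theorem comm_wd (hd : d ∈ D) : ⁅closure (Wd D d), closure (Wd D d)⁆ = sameCommutingSubgroup D d := by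
  have r := h.ri
  have hc : ∀ z ∈ sameCommutingSubgroup D d, ∀ y ∈ closure (Wd D d), Commute z y := fun z hz y hy => by
    have : sameCommutingSubgroup D d ≤ centralizer {y} := (closure_le _).2 fun e he =>
      mem_centralizer_singleton_iff.2 (h.E_cm hE hd he.1 ((r.mem_E_iff h.cls hd).1 he).2 hy)
    exact mem_centralizer_singleton_iff.1 (this hz)
  refine le_antisymm (commutator_le.2 fun x hx y hy => ?_) ((closure_le _).2 fun e he => ?_)
  · induction hx using closure_induction with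
    | mem a ha =>
      induction hy using closure_induction with
      | mem b hb =>
        by_cases c : Commute a b
        · rw [c.commutator_eq]; exact one_mem _
        have f := r.fr_of ha.1.1 hb.1.1 c (hb.2 a ha.1)
        have := h.rst hE hd ha hb.1.1 (h.ln_of_wd hE hd hb fun q => c (q ▸ ha.1.2)) f
        rw [commutatorElement_def, r.inv ha.1.1, r.inv hb.1.1]
        exact subset_closure ((r.mem_E_iff h.cls hd).2 ⟨r.fr_mem ha.1.1 hb.1.1 f, this⟩)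
      | one => simp
      | mul b b' hb _ i1 i2 =>
        rw [show ⁅a, b * b'⁆ = ⁅a, b⁆ * (b * ⁅a, b'⁆ * b⁻¹) by group, ← (hc _ i2 b hb).eq, mul_inv_cancel_right]
        exact mul_mem i1 i2
      | inv b hb i1 =>
        rw [show ⁅a, b⁻¹⁆ = b⁻¹ * ⁅a, b⁆⁻¹ * b by group, ← (hc _ (inv_mem i1) _ (inv_mem hb)).eq,
          inv_mul_cancel_right]
        exact inv_mem i1
    | one => simp
    | mul a a' ha _ i1 i2 =>
      rw [show ⁅a * a', y⁆ = a * ⁅a', y⁆ * a⁻¹ * ⁅a, y⁆ by group, ← (hc _ i2 a ha).eq, mul_inv_cancel_right]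
      exact mul_mem i2 i1
    | inv a ha i1 =>
      rw [show ⁅a⁻¹, y⁆ = a⁻¹ * ⁅a, y⁆⁻¹ * a by group, ← (hc _ (inv_mem i1) _ (inv_mem ha)).eq,
        inv_mul_cancel_right]
      exact inv_mem i1
  · obtain ⟨he, k⟩ := (r.mem_E_iff h.cls hd).1 he
    obtain ⟨b, hb, f⟩ := h.fr e he
    obtain ⟨c, hc, l, f', e1⟩ := h.mover he (r.fr_mem he hb f) (r.fr_ln_l he hb) (h.ao_ne he hb f)
    have := commutator_mem_commutator (subset_closure (h.wd_of_E hE hd he k ▸ r.wd_of_ln he (r.fr_mem he hb f)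
      (r.fr_ln_l he hb))) (subset_closure (h.wd_of_E hE hd he k ▸ r.wd_of_ln he hc l))
    rwa [commutatorElement_def, r.inv (r.fr_mem he hb f), r.inv hc, e1] at this

end ND

theorem he_of (h : RI D) (hc : Cls D)
    (hE : ∀ d ∈ D, (sameCommutingSubgroup D d : Set G) = sameCommutingClass D d ∪ {1}) : HE D :=
  fun a ha b hb k n => by
    have : a * b ∈ (sameCommutingSubgroup D a : Set G) := mul_mem
      (subset_closure ((h.mem_E_iff hc ha).2 ⟨ha, rfl⟩)) (subset_closure ((h.mem_E_iff hc ha).2 ⟨hb, k.symm⟩))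
    rw [hE a ha] at this
    rcases this with m | m
    · exact m.1
    · exact absurd (by rw [eq_inv_of_mul_eq_one_left m, h.inv hb]) n

theorem wd_iso : {w | IsIsolatedElem (OddAdj (commutingMembers D d)) (commutingMembers D d) w} = Wd D d :=
  Set.ext fun _ => isolated_iff

end CA.RInv
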