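import Cfsg.Agent.Lib.Root.K2
import Cfsg.Agent.Lib.Root.J3

/-!
Odd transpositions: basic lemmas, the classes `E_d`, components.
-/

set_option autoImplicit false
set_option linter.unusedSectionVars false

namespace CA.RInv

open Subgroup Cfsg CA.Core

variable {G : Type*} [Group G] [Finite G] {D : Set G} {a a' b c d e f g s t u v w x y z : G}

/-- sets of odd transpositions, without the generation axiom -/
structure OT (D : Set G) : Prop where
  ri : RI D
  nf : ∀ a ∈ D, ∀ b ∈ D, ¬ Fr a b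

theorem ot_of (h : IsOddTranspositionSet D) : OT D := ⟨ri_of h.1, h.2⟩

/-- the same commuting members -/
def Sm (D : Set G) (a b : G) : Prop := ∀ y ∈ D, Commute y a ↔ Commute y b

theorem Sm.refl : Sm D a a := fun _ _ => Iff.rfl
theorem Sm.symm (h : Sm D a b) : Sm D b a := fun y hy => (h y hy).symm
theorem Sm.trans (h : Sm D a b) (h' : Sm D b c) : Sm D a c := fun y hy => (h y hy).trans (h' y hy)
theorem Sm.cm (h : Sm D a b) (hy : y ∈ D) (k : Commute y a) : Commute y b := (h y hy).1 k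
theorem Sm.cm' (h : Sm D a b) (ha : a ∈ D) : Commute a b := h.cm ha (Commute.refl a)
theorem Sm.mono {T : Set G} (h : Sm D a b) (hT : T ⊆ D) : Sm T a b := fun y hy => h y (hT hy)

theorem RI.sm_cj (h : RI D) (hg : g ∈ closure D) (k : Sm D a b) : Sm D (g * a * g⁻¹) (g * b * g⁻¹) := fun y hy => by
  have := k _ (h.cj_mem (inv_mem hg) hy)
  rw [← cm_cj_iff g, ← cm_cj_iff g (b := b)] at this
  simpa [mul_assoc] using this

theorem RI.sm_cj2 (h : RI D) (hx : x ∈ D) (k : Sm D a b) : Sm D (x * a * x) (x * b * x) := by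
  simpa only [h.inv hx] using h.sm_cj (subset_closure hx) k

/-- commuting with two reflections of a dihedral group -/
theorem RI.cm_of_two (h : RI D) (hw : w ∈ D) (o : Od u w) (h1 : Commute g u) (h2 : Commute g (w * u * w)) :
    Commute g w := by
  have := h1.inv_right.mul_right (cm_of_sq o.2 (by
    rw [mul_assoc u, ← mul_assoc w]; exact h1.mul_right h2))
  rwa [inv_mul_cancel_left] at this

theorem eq_of_sq {x y : G} (hx : Odd (orderOf x)) (hy : Odd (orderOf y)) (h : x * x = y * y) : x = y :=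
  CA.RankOne.eq_of_sq_eq hx hy (by rw [pow_two, pow_two, h])

theorem mid_uniq (o : Od u c) (o' : Od u e) (k : c * u * c = e * u * e) : c = e :=
  mul_left_cancel (eq_of_sq o.2 o'.2 (by rw [mul_assoc u, ← mul_assoc c, k]; group))

theorem RI.middle' (h : RI D) (ha : a ∈ D) (hb : b ∈ D) (o : Od a b) :
    ∃ s ∈ D, (∀ H : Subgroup G, a ∈ H → b ∈ H → s ∈ H) ∧ s * a * s = b :=
  let ⟨k, hk, hs, e⟩ := h.middle ha hb o
  ⟨k * a, hs, fun _ h1 h2 => mul_mem (zpowers_le.2 (mul_mem h1 h2) hk) h1, e⟩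

namespace OT

variable (h : OT D)
include h

theorem od_of (ha : a ∈ D) (hb : b ∈ D) (n : ¬ Commute a b) : Od a b := h.ri.od_of ha hb n (h.nf a ha b hb)

theorem cm_of (ha : a ∈ D) (hb : b ∈ D) (n : ¬ Od a b) : Commute a b := h.ri.cm_of ha hb n (h.nf a ha b hb)

theorem mono {T : Set G} (hT : T ⊆ D) (h1 : ∀ d ∈ T, ∀ e ∈ T, e * d * e ∈ T) : OT T :=
  ⟨h.ri.mono hT h1 fun d hd e he f => absurd f (h.nf d (hT hd) e (hT he)), fun a ha b hb => h.nf a (hT ha) b (hT hb)⟩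

theorem inter (R : Subgroup G) : OT (D ∩ R) :=
  h.mono Set.inter_subset_left fun d hd e he => ⟨h.ri.cjD d hd.1 e he.1, mul_mem (mul_mem he.2 hd.2) he.2⟩

theorem od_sm (k : Sm D a b) (ha : a ∈ D) (hb : b ∈ D) (hy : y ∈ D) (o : Od y a) : Od y b :=
  h.od_of hy hb fun c => h.ri.not_od hy ha (k.symm.cm hy c) o

theorem sm_of_ln (ha : a ∈ D) (hb : b ∈ D) (l : a * b ∈ D) : Sm D a b := fun _ hy =>
  ⟨fun k => h.cm_of hy hb (h.ri.l1 ha hb l hy k), fun k => h.cm_of hy ha (h.ri.l1 hb ha (h.ri.ln_symm ha hb l) hy k)⟩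

theorem sm_of_cj (hg : g ∈ closure D) (ha : a ∈ D) (k : ∀ y ∈ D, Commute y a → Commute y (g * a * g⁻¹)) :
    Sm D a (g * a * g⁻¹) := by
  have := Set.eq_of_subset_of_ncard_le (s := Ao D (g * a * g⁻¹)) (t := Ao D a) (fun y hy => ⟨hy.1, h.od_of hy.1 ha
    fun c => h.ri.not_od hy.1 (h.ri.cj_mem hg ha) (k y hy.1 c) hy.2⟩) (le_of_eq (by
      rw [h.ri.ao_cj hg]; exact (Set.ncard_image_of_injective _ fun x y h => by simpa using h).symm))
  exact fun y hy => ⟨k y hy, fun c => h.cm_of hy ha fun o =>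
    h.ri.not_od hy (h.ri.cj_mem hg ha) c (this.ge ⟨hy, o⟩).2⟩

theorem sm_of_le (hc : Cls D) (ha : a ∈ D) (hb : b ∈ D) (k : ∀ y ∈ D, Commute y a → Commute y b) : Sm D a b := by
  obtain ⟨g, hg, rfl⟩ := hc a ha b hb
  exact h.sm_of_cj hg ha k

/-- `C_D(a w) = C_D(a) ∩ C_D(w)` -/
theorem cent2 (ha : a ∈ D) (hw : w ∈ D) (c : Commute a w) (n : a ≠ w) (hy : y ∈ D) (k : Commute y (a * w)) :
    Commute y a := h.cm_of hy ha fun o => by
  refine h.ri.od_ne_one hy o.symm (h.ri.no_two_mul (h.ri.cjD y hy a ha) hw (u := a * w) ?_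
    (sq_mul_cm c (h.ri.sq a ha) (h.ri.sq w hw)) (fun e => n (by rw [eq_inv_of_mul_eq_one_left e, h.ri.inv hw]))
    ((((Commute.refl a).mul_right c).symm).mul_right k.symm) o.symm.2)
  rw [mul_assoc _ a, mul_assoc a, k.eq, mul_assoc a w (a * y), c.symm.left_comm, mul_assoc]

end OT

/-- the middle of `y` and `t y t` -/
theorem RI.beta (h : RI D) (ht : t * t = 1) (hy : y ∈ D) (hy' : t * y * t ∈ D) (o : Od y (t * y * t)) :
    ∃ c ∈ D, (∀ H : Subgroup G, y ∈ H → t * y * t ∈ H → c ∈ H) ∧ Commute t c ∧ Commute (t * c) y ∧ Od y c ∧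
      c * y * c = t * y * t := by
  obtain ⟨k, ⟨m, hk⟩, hw, e⟩ := h.middle hy hy' o
  have it : t⁻¹ = t := inv_eq_of_mul_eq_one_right ht
  have tt : ∀ g, t * (t * g) = g := fun g => by rw [← mul_assoc, ht, one_mul]
  have e1 : t * k * t⁻¹ = k⁻¹ := by
    rw [← hk, ← conj_zpow, ← inv_zpow, h.inv_mul hy hy', it]
    simp only [mul_assoc, ht, mul_one]
  have e2 : Commute t (k * y) := by
    have : t * (k * y) * t⁻¹ = k * y := by
      rw [← conj_mul, e1, it, ← e, mul_assoc k y y, h.sq y hy]; group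
    exact mul_inv_eq_iff_eq_mul.1 this
  have ok : Odd (orderOf k) := odd_mem_zpowers o.2 ⟨m, hk⟩
  refine ⟨k * y, hw, fun H h1 h2 => mul_mem (zpowers_le.2 (mul_mem h1 h2) ⟨m, hk⟩) h1, e2, ?_, Od.symm ⟨fun q => ?_, ?_⟩, e⟩
  · calc t * (k * y) * y = t * (k * y * y * (k * y)) * (k * y) := by simp only [mul_assoc _ (k * y) (k * y), mul_assoc t,
          h.sq _ hw, mul_one]
      _ = y * (t * (k * y)) := by rw [e]; simp only [mul_assoc, tt]
  · rw [q, h.sq y hy, one_mul] at e; exact o.1 e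
  · rwa [mul_assoc, h.sq y hy, mul_one]

namespace OT

variable (h : OT D)
include h

/-- the `β`-middle of an unmatched pair -/
theorem beta2 (ha : a ∈ D) (hw : w ∈ D) (c : Commute a w) (n : a ≠ w) (hy : y ∈ D)
    (k : ¬ Commute (a * y * a) (w * y * w)) :
    ∃ c ∈ D, (∀ H : Subgroup G, y ∈ H → a * w * y * (a * w) ∈ H → c ∈ H) ∧ Commute c a ∧ Commute c w ∧
      Commute (a * w * c) y ∧ Od y c := by
  have r := h.ri
  have e : a * w * y * (a * w) = a * (w * y * w) * a := by rw [c.eq]; simp only [mul_assoc, c.symm.left_comm]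
  have m := r.cjD _ (r.cjD y hy w hw) a ha
  obtain ⟨s, hs, s1, s2, s3, s4, -⟩ := r.beta (sq_mul_cm c (r.sq a ha) (r.sq w hw)) hy (e ▸ m)
    (h.od_of hy (e ▸ m) fun q => k (by simpa only [e, r.cj_cj2 ha] using r.cm_cj2 ha q))
  exact ⟨s, hs, s1, h.cent2 ha hw c n hs s2.symm, h.cent2 hw ha c.symm n.symm hs (c.eq ▸ s2.symm), s3, s4⟩

/-- at most one point of a line is matched with `w` -/
theorem unmatched (ha : a ∈ D) (ha' : a' ∈ D) (l : a * a' ∈ D) (hw : w ∈ D) (c : Commute a w) (hy : y ∈ D)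
    (o : Od y a) : ¬ Commute (a * y * a) (w * y * w) ∨ ¬ Commute (a' * y * a') (w * y * w) := by
  have r := h.ri
  by_contra! k
  have s1 := h.sm_of_ln ha l (r.ln_l ha ha')
  have c1 := r.ln_cm ha ha' l
  have o1 := r.od_cj2 ha (h.od_sm s1 ha l hy o)
  rw [r.cj2_of_cm ha (s1.cm' ha)] at o1
  have c2 := s1.cm hw c.symm
  have := r.cm_cj2 hw (r.cm_of_two l o1 k.1.symm (by
    rw [show a * a' * (a * y * a) * (a * a') = a' * y * a' by
      conv_lhs => enter [1, 1]; rw [c1.eq]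
      simp only [mul_assoc, r.sq' ha]]
    exact k.2.symm))
  rw [r.cj_cj2 hw, r.cj2_of_cm hw c2] at this
  exact r.not_od hy l this (h.od_sm s1 ha l hy o)

/-- a torus element -/
theorem exists_tor (ha : a ∈ D) (ha' : a' ∈ D) (l : a * a' ∈ D) (hy : y ∈ D) (o : Od y a) :
    ∃ g, ∃ s ∈ D, (∀ H : Subgroup G, a ∈ H → a' ∈ H → y ∈ H → g ∈ H ∧ s ∈ H) ∧ Odd (orderOf g) ∧ g ≠ 1 ∧
      s * g * s⁻¹ = g⁻¹ ∧ s * a * s = y ∧ g * a * g⁻¹ = a' := by
  have r := h.ri
  have k := h.sm_of_ln ha ha' l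
  obtain ⟨s, hs, s1, e⟩ := r.middle' ha hy o.symm
  obtain ⟨s', hs', s2, e'⟩ := r.middle' ha' hy (h.od_sm k ha ha' hy o).symm
  have e1 : s' * s * a * (s' * s)⁻¹ = a' := by
    rw [r.inv_mul hs' hs, ← r.cj_cj2 hs' a', e', ← e]; group
  have n : s' ≠ s := fun q => r.ln_ne ha' l (by rw [← e1, q, r.sq s hs]; group)
  have od : Od s' s := h.od_of hs' hs fun c => by
    have e2 : s' * s * a' * (s' * s)⁻¹ = a := by
      rw [c.eq, r.inv_mul hs hs', ← r.cj_cj2 hs a, e, ← e']; group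
    have c1 : Commute (a * a') (s * s') := by
      rw [← c.eq, Commute, SemiconjBy, eq_comm, ← mul_inv_eq_iff_eq_mul, ← conj_mul, e1, e2]
      exact (r.ln_cm ha ha' l).eq.symm
    have := (h.sm_of_ln ha l (r.ln_l ha ha')).symm.cm hs (h.cent2 hs hs' c.symm n.symm l c1).symm
    rw [r.cj2_of_cm hs this] at e
    exact o.1 e.symm
  exact ⟨s' * s, s, hs, fun H h1 h2 h3 => ⟨mul_mem (s2 H h2 h3) (s1 H h1 h3), s1 H h1 h3⟩, od.2, r.od_ne_one hs od,
    r.inverts' hs' hs, e, e1⟩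

end OT

/-! ### components -/

/-- the component of `x` in the graph of odd products -/
def Cp (D : Set G) (x : G) : Set G := {e | Rt D x e}

theorem cp_self : x ∈ Cp D x := Rt.refl

theorem cp_sub (hx : x ∈ D) : Cp D x ⊆ D := fun _ he => Rt.mem he hx

theorem cp_od (hx : x ∈ D) (ha : a ∈ Cp D x) (hb : b ∈ D) (o : Od a b) : b ∈ Cp D x :=
  Rt.trans ha (rt_of (cp_sub hx ha) hb o)

theorem RI.cp_cj (h : RI D) (hx : x ∈ D) (hy : y ∈ D) (o : Od y x) (ha : a ∈ Cp D x) (hg : g ∈ closure D) :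
    g * a * g⁻¹ ∈ Cp D x := (h.rt_cj hx hy o hg).trans (h.rt_map hg ha)

theorem OT.cp (h : OT D) (hx : x ∈ D) : OT (Cp D x) :=
  h.mono (cp_sub hx) fun d hd e he => by
    have := h.ri.rt_cj_of_rt (cp_sub hx he) (Rt.trans (Rt.symm hd) he)
    rw [h.ri.inv (cp_sub hx he)] at this
    exact Rt.trans hd this

theorem rt_cp (h : Rt D x a) : Rt (Cp D x) x a := by
  induction h with
  | refl => exact Rt.refl
  | tail r k ih => exact ih.trans (rt_of r (Relation.ReflTransGen.tail r k) k.2.2)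

theorem OT.cls_cp (h : OT D) (hx : x ∈ D) : Cls (Cp D x) :=
  (h.cp hx).ri.cls_of_conn fun _ ha _ hb => (rt_cp ha).symm.trans (rt_cp hb)

/-- a central member of a component -/
theorem OT.not_cent (h : OT D) (hx : x ∈ D) (ha : a ∈ D) (o : Od a x) (hf : f ∈ Cp D x) :
    ¬ ∀ y ∈ D, Commute y f := fun k => by
  by_cases e : f = x
  · exact h.ri.not_od ha hx (e ▸ k a ha) o
  · obtain ⟨y, hy, o'⟩ := Rt.exists_od (Rt.symm hf) (Ne.symm e)
    exact h.ri.not_od hy (cp_sub hx hf) (k y hy) o'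

/-! ### `E_d ∪ {1}` is a subgroup -/

theorem OT.bsE (h : OT D) (hg : closure D = ⊤) (hO : pCore 2 G = ⊥) (hd : d ∈ D)
    (hu : u ∈ closure {e | e ∈ D ∧ Sm D d e}) (u2 : u * u = 1) (k : ∀ y ∈ D, Commute y (u * y * u)) : u = 1 := by
  have iu : u⁻¹ = u := inv_eq_of_mul_eq_one_right u2
  have m : ∀ g : G, g ∈ closure D := fun g => hg ▸ mem_top g
  rw [← mem_bot, ← hO]
  refine bs u2 fun g => ⟨2, ?_⟩
  have hd' := h.ri.cj_mem (m g) hd
  have key : ∀ x ∈ closure {e | e ∈ D ∧ Sm D d e}, ∀ x' ∈ closure {e | e ∈ D ∧ Sm D d e},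
      Commute (u * (g * x * g⁻¹) * u⁻¹) (g * x' * g⁻¹) := fun x hx x' hx' => by
    induction hx, hx' using closure_induction₂ with
    | mem e e' he he' =>
      have h1 := h.ri.cj_mem (m g) he.1
      have h2 := h.ri.cj_mem (m u) h1
      exact (h.ri.sm_cj (m g) (he.2.symm.trans he'.2)).cm h2 (by rw [iu]; exact (k _ h1).symm)
    | one_left => simp
    | one_right => simp
    | mul_left x y z _ _ _ i1 i2 => simpa [mul_assoc] using i1.mul_left i2
    | mul_right x y z _ _ _ i1 i2 => simpa [mul_assoc] using i1.mul_right i2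
    | inv_left x y _ _ i => simpa [mul_assoc] using i.inv_left
    | inv_right x y _ _ i => simpa [mul_assoc] using i.inv_right
  have v2 : g * u * g⁻¹ * (g * u * g⁻¹) = 1 := by rw [conj_mul, u2]; group
  have := key u hu u hu
  generalize g * u * g⁻¹ = v at *
  rw [show 2 ^ 2 = 2 * 2 from rfl, pow_mul, pow_two, pow_two, ← mul_assoc (u * v)]
  rw [iu] at this
  exact sq_mul_cm this (by simp only [mul_assoc, ← mul_assoc u u, ← mul_assoc v v, u2, v2, one_mul]) v2

end CA.RInv
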