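import Cfsg.Agent.Lib.Root.L1
import Cfsg.Agent.Lib.Root.K3

/-!
Odd transpositions: `E_d ∪ {1}` is a subgroup, the polar axiom, and the diameter of the commuting graph.
-/

set_option autoImplicit false
set_option linter.unusedSectionVars false

namespace CA.RInv

open Subgroup Cfsg CA.Core

universe u

section
variable {G : Type*} [Group G] [Finite G] {D : Set G} {a a' b c d e f g s t u v w x y z : G}

theorem RI.cj_cent (h : RI D) (ha : a ∈ D) (hb : b ∈ D) (o : Od a b) :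
    ∃ k, (∀ H : Subgroup G, a ∈ H → b ∈ H → k ∈ H) ∧ a = k * b * k⁻¹ :=
  let ⟨k, hk, e⟩ := h.od_cj ha hb o
  ⟨k, fun _ h1 h2 => zpowers_le.2 (mul_mem h1 h2) hk, e⟩

theorem mc {a b : G} : a ∈ centralizer {b} ↔ Commute a b := mem_centralizer_singleton_iff

namespace OT

variable (h : OT D)
include h

theorem cd (z : G) : OT (Cd D z) :=
  h.mono (fun _ k => k.1) fun d hd e he => ⟨h.ri.cjD d hd.1 e he.1, (he.2.mul_left hd.2).mul_left he.2⟩

/-- `E_d ∪ {1}` is a subgroup if `O₂(G) = 1` -/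
theorem o3 (hg : closure D = ⊤) (hc : Cls D) (hO : pCore 2 G = ⊥) (hd : d ∈ D) (he : e ∈ D) (k : Sm D d e)
    (n : d ≠ e) : d * e ∈ D := by
  have r := h.ri
  have m : ∀ g : G, g ∈ closure D := fun g => hg ▸ mem_top g
  have de := k.cm' hd
  have d1 : d ∈ closure {e | e ∈ D ∧ Sm D d e} := subset_closure ⟨hd, Sm.refl⟩
  have e1 : e ∈ closure {e | e ∈ D ∧ Sm D d e} := subset_closure ⟨he, k⟩
  have u2 := sq_mul_cm de (r.sq d hd) (r.sq e he)
  have cj : ∀ {u y : G}, u * u = 1 → y ∈ D → u * y * u ∈ D := fun {u y} u2 hy => by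
    simpa only [inv_eq_of_mul_eq_one_right u2] using r.cj_mem (m u) hy
  obtain ⟨y, hy, y1⟩ : ∃ y ∈ D, ¬ Commute y (d * e * y * (d * e)) := by
    by_contra! q
    exact n (by rw [eq_inv_of_mul_eq_one_left (h.bsE hg hO hd (mul_mem d1 e1) u2 q), r.inv he])
  have yd : Od y d := h.od_of hy hd fun q => y1 (by
    rw [← (q.mul_right (k.cm hy q)).eq, mul_assoc, u2, mul_one])
  obtain ⟨c, hc', -, c1, c2, c3, -⟩ := r.beta u2 hy (cj u2 hy) (h.od_of hy (cj u2 hy) y1)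
  have cd := h.cent2 hd he de n hc' c1.symm
  have ce := k.cm hc' cd
  by_cases z1 : d * e * c = 1
  · rw [eq_inv_of_mul_eq_one_left z1, r.inv hc']; exact hc'
  exfalso
  have zd : Commute (d * e * c) d := ((Commute.refl d).mul_left de.symm).mul_left cd
  have zc : Commute (d * e * c) c := (cd.symm.mul_left ce.symm).mul_left (Commute.refl c)
  have ze : Commute (d * e * c) e := (de.mul_left (Commute.refl e)).mul_left ce
  have z2 := sq_mul_cm c1 u2 (r.sq c hc')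
  have nec : e ≠ c := fun q => r.not_od hy hd (by rw [q, mul_assoc, r.sq c hc', mul_one] at c2; exact c2.symm) yd
  have kc : Sm D d c := h.sm_of_le hc hd hc' fun w hw wd => h.cm_of hw hc' fun o => by
    obtain ⟨ρ, ρ1, ρ2⟩ := r.cj_cent hd hy yd.symm
    obtain ⟨σ, σ1, σ2⟩ := r.cj_cent hy hc' c3
    have p : Commute (ρ * σ) (d * e * c) := (mc.1 (ρ1 _ (mc.2 zd.symm) (mc.2 c2.symm))).mul_left
      (mc.1 (σ1 _ (mc.2 c2.symm) (mc.2 zc.symm)))
    have p1 : ρ * σ * c * (ρ * σ)⁻¹ = d := by rw [ρ2, σ2]; group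
    have p2 := cm_cj (wd.mul_right (k.cm hw wd)) (ρ * σ)
    rw [show d * e = d * e * c * c by rw [mul_assoc, r.sq c hc', mul_one], ← conj_mul (a := d * e * c), p1, p.eq,
      mul_inv_cancel_right, zd.eq, mul_assoc d e, r.sq' hd] at p2
    have hw' := r.cj_mem (m (ρ * σ)) hw
    exact r.not_od hw' hd (k.symm.cm hw' (h.cent2 he hc' ce.symm nec hw' p2)) (p1 ▸ o.cj _)
  have zE : d * e * c ∈ closure {e | e ∈ D ∧ Sm D d e} := mul_mem (mul_mem d1 e1) (subset_closure ⟨hc', kc⟩)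
  have zw : ∀ w ∈ D, Commute w d → Commute w (d * e * c) := fun w hw q =>
    (q.mul_right (k.cm hw q)).mul_right (kc.cm hw q)
  have ez : ∀ ρ, Commute ρ (d * e * c) → d * e * c = ρ * d * ρ⁻¹ * (ρ * e * ρ⁻¹ * (ρ * c * ρ⁻¹)) := fun ρ q => by
    rw [conj_mul, conj_mul, ← mul_assoc d, q.eq, mul_inv_cancel_right]
  generalize d * e * c = z at *
  refine z1 (h.bsE hg hO hd zE z2 fun y' hy' => h.cm_of hy' (cj z2 hy') fun o => ?_)
  have yd' : Od y' d := h.od_of hy' hd fun q => o.1 (by rw [← (zw y' hy' q).eq, mul_assoc, z2, mul_one])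
  obtain ⟨f, hf, -, f1, f2, f3, -⟩ := r.beta z2 hy' (cj z2 hy') o
  have nf : ∀ ρ, Commute ρ z → f ≠ ρ * d * ρ⁻¹ := fun ρ q e2 => by
    have e3 := ez ρ q
    rw [← e2] at e3
    have h1 := r.cj_mem (m ρ) he
    have h2 := r.cj_mem (m ρ) hc'
    rw [f1.eq, e3, r.sq' hf] at f2
    exact r.not_od hy' hf (e2 ▸ (r.sm_cj (m ρ) k).symm.cm hy' (h.cent2 h1 h2 (cm_cj ce.symm ρ)
      (fun q => nec (by simpa using q)) hy' f2.symm)) f3
  have fd : Commute f d := h.cm_of hf hd fun o' => by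
    obtain ⟨ρ, ρ1, ρ2⟩ := r.cj_cent hf hd o'
    exact nf ρ (mc.1 (ρ1 _ (mc.2 f1.symm) (mc.2 zd.symm))) ρ2
  have fy : Commute f y := h.cm_of hf hy fun o' => by
    obtain ⟨ρ, ρ1, ρ2⟩ := r.cj_cent hf hy o'
    obtain ⟨σ, σ1, σ2⟩ := r.cj_cent hy hd yd
    exact nf (ρ * σ) ((mc.1 (ρ1 _ (mc.2 f1.symm) (mc.2 c2.symm))).mul_left
      (mc.1 (σ1 _ (mc.2 c2.symm) (mc.2 zd.symm)))) (by rw [ρ2, σ2]; group)
  have m1 : f ∈ Cd D (z * f) := ⟨hf, f1.symm.mul_right (Commute.refl f)⟩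
  have m2 : y' ∈ Cd D (z * f) := ⟨hy', f2.symm⟩
  have m3 : d ∈ Cd D (z * f) := ⟨hd, zd.symm.mul_right fd.symm⟩
  obtain ⟨ρ, ρ1, ρ2⟩ := r.cj_cent hf hy' f3.symm
  obtain ⟨σ, σ1, σ2⟩ := r.cj_cent hy' hd yd'
  have e2 : f = ρ * σ * d * (ρ * σ)⁻¹ := by rw [ρ2, σ2]; group
  have := (h.cd (z * f)).sm_of_cj (mul_mem (ρ1 _ (subset_closure m1) (subset_closure m2))
    (σ1 _ (subset_closure m2) (subset_closure m3))) m3 fun w hw q => by
      have := (zw w hw.1 q).inv_right.mul_right hw.2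
      rwa [inv_mul_cancel_left, e2] at this
  exact r.not_od hy hd (this.symm.cm ⟨hy, c2.symm.mul_right fy.symm⟩ (e2 ▸ fy.symm)) yd

end OT

/-- any two members with odd product have a common neighbour -/
def D2 (D : Set G) : Prop := ∀ d ∈ D, ∀ x ∈ D, Od d x → ∃ e ∈ D, Commute e d ∧ Commute e x

/-- the diameter theorem holds inside `R` -/
def Good (D : Set G) (R : Subgroup G) : Prop := ∀ T ⊆ D, T ⊆ R → OT T → Cls T →
  (∃ a ∈ T, ∃ a' ∈ T, a * a' ∈ T) → IsConnectedSet (CommAdj T) T → D2 T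

theorem Good.mono {R R' : Subgroup G} (h : Good D R) (k : R' ≤ R) : Good D R' :=
  fun T h1 h2 => h T h1 (h2.trans k)

namespace OT

variable (h : OT D)
include h

theorem blk {R : Subgroup G} (hG : Good D R) (hx : x ∈ D ∩ R) (ha : a ∈ D ∩ R) (ha' : a' ∈ D ∩ R)
    (l : a * a' ∈ D) (o : Od x a) (hd : d ∈ Cp (D ∩ R) x) (od : Od d x)
    (hno : ∀ f ∈ Cp (D ∩ R) x, Commute f d → ¬ Commute f x) :
    Blk (Cp (D ∩ R) x) (comp (Cp (D ∩ R) x)) ∧ a ∈ Cp (D ∩ R) x ∧ a' ∈ Cp (D ∩ R) x ∧ a * a' ∈ Cp (D ∩ R) x := by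
  have hT := (h.inter R).cp hx
  have m1 := cp_od hx cp_self ha o
  have m2 := cp_od hx cp_self ha' (h.od_sm (h.sm_of_ln ha.1 ha'.1 l) ha.1 ha'.1 hx.1 o)
  have m3 := cp_od hx cp_self ⟨l, mul_mem ha.2 ha'.2⟩
    (h.od_sm (h.sm_of_ln ha.1 l (h.ri.ln_l ha.1 ha'.1)) ha.1 l hx.1 o)
  refine ⟨hT.ri.blk fun hc => ?_, m1, m2, m3⟩
  obtain ⟨f, hf, f1, f2⟩ := hG _ (fun _ k => (cp_sub hx k).1) (fun _ k => (cp_sub hx k).2) hT
    ((h.inter R).cls_cp hx) ⟨a, m1, a', m2, m3⟩ hc d hd x cp_self od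
  exact hno f hf f1 f2

theorem dich {R : Subgroup G} (hG : Good D R) (hx : x ∈ D ∩ R) (ha : a ∈ D ∩ R) (ha' : a' ∈ D ∩ R)
    (l : a * a' ∈ D) (o : Od x a) (hd : d ∈ Cp (D ∩ R) x) (od : Od d x)
    (hno : ∀ f ∈ Cp (D ∩ R) x, Commute f d → ¬ Commute f x)
    (hu : u ∈ Cp (D ∩ R) x) (hv : v ∈ Cp (D ∩ R) x) (he : e ∈ Cp (D ∩ R) x) (c1 : Commute u e) (c2 : Commute e v) :
    Commute u v := by
  obtain ⟨b, m1, m2, m3⟩ := h.blk hG hx ha ha' l o hd od hno
  exact b.ab m1 m2 m3 u hu v hv ((b.cm u hu e he c1).trans (b.cm e he v hv c2))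

/-- a member of the component of `x` in `⟨S, x⟩` does not centralise the generators -/
theorem no_cent {S : Set G} (hx : x ∈ D) (ha : a ∈ D) (haS : a ∈ S) (o : Od a x)
    (hf : f ∈ Cp (D ∩ closure (S ∪ {x})) x) (k : ∀ s ∈ S, Commute f s) : ¬ Commute f x := fun k' => by
  have : closure (S ∪ {x}) ≤ centralizer {f} := (closure_le _).2 (by
    rintro s (hs | rfl)
    exacts [mc.2 (k s hs).symm, mc.2 k'.symm])
  exact (h.inter _).not_cent ⟨hx, subset_closure (Or.inr rfl)⟩ ⟨ha, subset_closure (Or.inl haS)⟩ o hf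
    fun y hy => mc.1 (this hy.2)

/-- an unmatched point on a line and its middle -/
theorem exists_beta (ha : a ∈ D) (ha' : a' ∈ D) (l : a * a' ∈ D) (hw : w ∈ D) (c : Commute a w) (n : ¬ Sm D a w)
    (hy : y ∈ D) (o : Od y a) : ∃ a₀, (a₀ = a ∨ a₀ = a') ∧ ∃ c ∈ D,
      (∀ H : Subgroup G, y ∈ H → a₀ * w * y * (a₀ * w) ∈ H → c ∈ H) ∧ Commute c a₀ ∧ Commute c w ∧
      Commute (a₀ * w * c) y ∧ Od y c ∧ a₀ * w * c ≠ 1 ∧ w ≠ c := by
  have k := h.sm_of_ln ha ha' l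
  have key : ∀ a₀ ∈ D, Sm D a a₀ → ¬ Commute (a₀ * y * a₀) (w * y * w) → ∃ c ∈ D,
      (∀ H : Subgroup G, y ∈ H → a₀ * w * y * (a₀ * w) ∈ H → c ∈ H) ∧ Commute c a₀ ∧ Commute c w ∧
      Commute (a₀ * w * c) y ∧ Od y c ∧ a₀ * w * c ≠ 1 ∧ w ≠ c := fun a₀ h0 k0 q => by
    obtain ⟨c, hc, c1, c2, c3, c4, c5⟩ := h.beta2 h0 hw (k0.cm hw c.symm).symm (fun e => n (e ▸ k0)) hy q
    refine ⟨c, hc, c1, c2, c3, c4, c5, fun e => n (k0.trans (h.sm_of_ln h0 hw ?_)), fun e => ?_⟩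
    · rw [eq_inv_of_mul_eq_one_left e, h.ri.inv hc]; exact hc
    · rw [e, mul_assoc, h.ri.sq c hc, mul_one] at c4
      exact h.ri.not_od hy h0 c4.symm (h.od_sm k0 ha h0 hy o)
  rcases h.unmatched ha ha' l hw c hy o with q | q
  · exact ⟨a, Or.inl rfl, key a ha Sm.refl q⟩
  · exact ⟨a', Or.inr rfl, key a' ha' k q⟩

variable (hI : ∀ z : G, z * z = 1 → z ≠ 1 → Good D (centralizer {z}))
include hI

/-- in `⟨a, a', w, y⟩` the commuting graph is disconnected -/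
theorem gen2 (ha : a ∈ D) (ha' : a' ∈ D) (l : a * a' ∈ D) (hw : w ∈ D) (c : Commute a w) (n : ¬ Sm D a w)
    (hy : y ∈ D) (o : Od y a) {S : Set G} (haS : a ∈ S) (haS' : a' ∈ S) (hwS : w ∈ S)
    (hS : ∀ s ∈ S, s = w ∨ s ∈ D ∧ Sm D a s)
    (hu : u ∈ Cp (D ∩ closure (S ∪ {y})) y) (hv : v ∈ Cp (D ∩ closure (S ∪ {y})) y)
    (c1 : Commute u a) (c2 : Commute a v) : Commute u v := by
  have r := h.ri
  have c0' := c.symm
  obtain ⟨a₀, h0, c, hc, -, c3, c4, c5, -, c6, c7⟩ := h.exists_beta ha ha' l hw c n hy o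
  have k := h.sm_of_ln ha ha' l
  obtain ⟨h0, k0⟩ : a₀ ∈ D ∧ Sm D a a₀ := by rcases h0 with rfl | rfl; exacts [⟨ha, Sm.refl⟩, ⟨ha', k⟩]
  have c0 := k0.cm hw c0'
  have le : closure (S ∪ {y}) ≤ centralizer {a₀ * w * c} := (closure_le _).2 (by
    rintro s (hs | rfl)
    · rcases hS s hs with rfl | ⟨hs, ks⟩
      · exact mc.2 ((c0.mul_right (Commute.refl _)).mul_right c4.symm)
      · have := k0.symm.trans ks
        exact mc.2 (((this.cm' h0).symm.mul_right (this.cm hw c0).symm).mul_right (this.cm hc c3).symm)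
    · exact mc.2 c5.symm)
  have my : y ∈ D ∩ closure (S ∪ {y}) := ⟨hy, subset_closure (Or.inr rfl)⟩
  have ma : a ∈ D ∩ closure (S ∪ {y}) := ⟨ha, subset_closure (Or.inl haS)⟩
  refine h.dich ((hI _ (sq_mul_cm (c3.symm.mul_left c4.symm) (sq_mul_cm c0.symm (r.sq _ h0) (r.sq w hw))
    (r.sq c hc)) c6).mono le) my ma ⟨ha', subset_closure (Or.inl haS')⟩ l o (cp_od my cp_self ma o) o.symm
    (fun f hf q => h.no_cent hy ha haS o.symm hf fun s hs => ?_) hu hv (cp_od my cp_self ma o) c1 c2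
  have hf' := cp_sub my hf
  rcases hS s hs with rfl | ⟨-, ks⟩
  · have := (k0.cm hf'.1 q).inv_right.mul_right (mc.1 (le hf'.2))
    rw [mul_assoc, inv_mul_cancel_left] at this
    exact h.cent2 hw hc c4.symm c7 hf'.1 this
  · exact ks.cm hf'.1 q

/-- a torus element moves `v ∈ C_D(a)` to a commuting member -/
theorem tor_cm (ha : a ∈ D) (ha' : a' ∈ D) (l : a * a' ∈ D) (hy : y ∈ D) (o : Od y a)
    (hg : ∀ H : Subgroup G, a ∈ H → a' ∈ H → y ∈ H → g ∈ H) (ga : Sm D a (g * a * g⁻¹))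
    (hv : v ∈ D) (c : Commute v a) : Commute (g * v * g⁻¹) v := by
  have k := h.sm_of_ln ha ha' l
  have gD : g ∈ closure D := hg _ (subset_closure ha) (subset_closure ha') (subset_closure hy)
  have c1 := ga.symm.cm (h.ri.cj_mem gD hv) (cm_cj c g)
  by_cases q : Commute v y
  · rw [(mc.1 (hg _ (mc.2 c.symm) (mc.2 (k.cm hv c).symm) (mc.2 q.symm))).eq, mul_inv_cancel_right]
  by_cases n : Sm D a v
  · exact n.cm (h.ri.cj_mem gD hv) c1
  have my : y ∈ D ∩ closure ({a, a', v} ∪ {y}) := ⟨hy, subset_closure (Or.inr rfl)⟩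
  have ma : a ∈ D ∩ closure ({a, a', v} ∪ {y}) := ⟨ha, subset_closure (Or.inl (by simp))⟩
  have ma' : a' ∈ D ∩ closure ({a, a', v} ∪ {y}) := ⟨ha', subset_closure (Or.inl (by simp))⟩
  have mv := cp_od my cp_self ⟨hv, subset_closure (Or.inl (by simp))⟩ (h.od_of hv hy q).symm
  refine h.gen2 hI ha ha' l hv c.symm n hy o (S := {a, a', v}) (by simp) (by simp) (by simp) ?_
    ((h.inter _).ri.cp_cj my ma o.symm mv
      (hg _ (subset_closure ma) (subset_closure ma') (subset_closure my))) mv c1 c.symm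
  rintro s (rfl | rfl | rfl)
  exacts [Or.inr ⟨ha, Sm.refl⟩, Or.inr ⟨ha', k⟩, Or.inl rfl]

/-- the polar axiom -/
theorem pa (ha : a ∈ D) (ha' : a' ∈ D) (l : a * a' ∈ D) (hw : w ∈ D) (hc : c ∈ D) (aw : Commute a w)
    (ac : Commute a c) (hy : y ∈ D) (o : Od y a) (oc : Od y c) (hz : Commute (a * w * c) y)
    (hu : u ∈ D) (ua : Commute u a) (uw : Commute u w) : Commute u c := by
  have r := h.ri
  refine h.cm_of hu hc fun o1 => ?_
  have k := h.sm_of_ln ha ha' l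
  obtain ⟨g, s, hs, g1, g2, g3, g4, g5, g6⟩ := h.exists_tor ha ha' l hy o
  have gD : g ∈ closure D := (g1 _ (subset_closure ha) (subset_closure ha') (subset_closure hy)).1
  have ga : Sm D a (g * a * g⁻¹) := g6 ▸ k
  have T := fun v hv c => h.tor_cm hI ha ha' l hy o (fun H h1 h2 h3 => (g1 H h1 h2 h3).1) ga (v := v) hv c
  have gz : Commute g (a * w * c) := mc.1 (g1 _ (mc.2 (((Commute.refl a).mul_right aw).mul_right ac))
    (mc.2 (((k.cm' ha).symm.mul_right (k.cm hw aw.symm).symm).mul_right (k.cm hc ac.symm).symm)) (mc.2 hz.symm)).1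
  have cs : Od c s := h.od_of hc hs fun q => r.not_od hy hc (g5 ▸ ((q.mul_right ac.symm).mul_right q).symm) oc
  have key : ∀ p ∈ closure D, Commute p (a * w * c) → Sm D a (p * a * p⁻¹) → ¬ Commute c p →
      Od u (p * w * p⁻¹) := fun p hp pz pa n => h.od_of hu (r.cj_mem hp hw) fun q => n (by
    have hc' := r.cj_mem hp hc
    have e1 : a * w * c = p * a * p⁻¹ * (p * w * p⁻¹) * (p * c * p⁻¹) := by
      rw [conj_mul, conj_mul, pz.eq, mul_inv_cancel_right]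
    have u1 := (pa.cm hu ua).mul_right q
    have u2 := ua.mul_right uw
    have e2 : c * u * c = p * c * p⁻¹ * u * (p * c * p⁻¹) := by
      calc c * u * c = (a * w * c)⁻¹ * u * (a * w * c) := by
            rw [mul_inv_rev, r.inv hc, mul_assoc c _ u, ← u2.inv_right.eq]; group
        _ = _ := by
            rw [e1, mul_inv_rev, r.inv hc', mul_assoc _ _ u, ← u1.inv_right.eq]; group
    have := mid_uniq o1 (h.od_of hu hc' fun q' => by
      rw [r.cj2_of_cm hc' q'.symm] at e2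
      exact r.not_od hu hc (r.cm_of_cj2 hc e2).symm o1) e2
    exact (mul_inv_eq_iff_eq_mul.1 this.symm).symm)
  have o2 := key g gD gz ga fun q => g3 (r.inv_lemma g2 g4 q cs)
  have o3 := key (g * g) (mul_mem gD gD) (gz.mul_left gz)
    (ga.trans (by simpa [mul_assoc] using r.sm_cj gD ga)) fun q => g3 (r.inv_lemma g2 g4 (cm_of_sq g2 q) cs)
  have hw1 := r.cj_mem gD hw
  have w1 := ga.symm.cm hw1 (cm_cj aw.symm g)
  have t1 := T u hu ua
  have t2 := T _ hw1 w1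
  have t3 := T _ (r.cjD u hu _ hw1) ((w1.mul_left ua).mul_left w1)
  have t4 := cm_cj uw g
  have t5 := o2.cj g
  rw [show g * g * w * (g * g)⁻¹ = g * (g * w * g⁻¹) * g⁻¹ by group] at o3
  rw [← conj_mul, ← conj_mul] at t3
  have hw2 := r.cj_mem gD hw1
  generalize g * (g * w * g⁻¹) * g⁻¹ = w2 at *
  generalize g * w * g⁻¹ = w1 at *
  generalize g * u * g⁻¹ = u1 at *
  have := r.cm_cj2 hw1 (r.cm_of_two hw2 t5 ((t4.mul_right t1).mul_right t4).symm t3.symm)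
  rw [r.cj_cj2 hw1, r.cj2_of_cm hw1 t2.symm] at this
  exact r.not_od hu hw2 this o3

theorem no_fix (ha : a ∈ D) (ha' : a' ∈ D) (l : a * a' ∈ D) (hd : d ∈ D) (hx : x ∈ D) (o : Od d x) (o' : Od x a)
    (hno : ∀ e ∈ D, Commute e d → ¬ Commute e x) (z2 : z * z = 1) (z1 : z ≠ 1) (c1 : Commute a z)
    (c2 : Commute a' z) (c3 : Commute d z) (c4 : Commute x z) (hf : f ∈ D) (f1 : Commute f z) (f2 : Commute f a)
    (f3 : Commute f x) : False := by
  have mx : x ∈ D ∩ centralizer {z} := ⟨hx, mc.2 c4⟩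
  have ma : a ∈ D ∩ centralizer {z} := ⟨ha, mc.2 c1⟩
  have md := cp_od mx cp_self ⟨hd, mc.2 c3⟩ o.symm
  exact h.ri.not_od ha hx (h.dich (hI z z2 z1) mx ma ⟨ha', mc.2 c2⟩ l o' md o
    (fun e he => hno e (cp_sub mx he).1) (cp_od mx cp_self ma o') cp_self
    (cp_od mx md ⟨hf, mc.2 f1⟩ (h.od_of hd hf fun q => hno f hf q.symm f3)) f2.symm f3) o'.symm

theorem no_path (hg : closure D = ⊤) (hc : Cls D) (hO : pCore 2 G = ⊥) (hl : ∀ a ∈ D, ∃ a' ∈ D, a * a' ∈ D)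
    (hd : d ∈ D) (hx : x ∈ D) (o : Od d x) (hno : ∀ e ∈ D, Commute e d → ¬ Commute e x)
    (ha : a ∈ D) (hb : b ∈ D) (ad : Commute a d) (ab : Commute a b) (bx : Commute b x) : False := by
  have r := h.ri
  have m : ∀ g : G, g ∈ closure D := fun g => hg ▸ mem_top g
  have ob := h.od_of hb hd fun q => hno b hb q bx
  obtain ⟨a', ha', l⟩ := hl a ha
  obtain ⟨a₀, h0, c, hc', -, c1, c2, c3, -, c4, -⟩ := h.exists_beta ha ha' l hd ad
    (fun k => r.not_od hb hd (k.cm hb ab.symm) ob) hx (h.od_of hx ha fun q => hno a ha ad q.symm)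
  obtain ⟨h0, k0⟩ : a₀ ∈ D ∧ Sm D a a₀ := by
    rcases h0 with rfl | rfl; exacts [⟨ha, Sm.refl⟩, ⟨ha', h.sm_of_ln ha ha' l⟩]
  replace ad := (k0.cm hd ad.symm).symm
  replace ab := (k0.cm hb ab.symm).symm
  clear k0 l ha ha'
  obtain ⟨a', ha', l⟩ := hl a₀ h0
  have k := h.sm_of_ln h0 ha' l
  have oa := h.od_of hx h0 fun q => hno a₀ h0 ad q.symm
  have z2 := sq_mul_cm (c1.symm.mul_left c2.symm) (sq_mul_cm ad (r.sq _ h0) (r.sq d hd)) (r.sq c hc')
  have za : Commute a₀ (a₀ * d * c) := ((Commute.refl _).mul_right ad).mul_right c1.symm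
  have zd : Commute d (a₀ * d * c) := (ad.symm.mul_right (Commute.refl _)).mul_right c2.symm
  have P := fun f hf f1 f2 f3 => h.no_fix hI h0 ha' l hd hx o oa hno z2 c4 za
    (((k.cm' h0).symm.mul_right (k.cm hd ad.symm).symm).mul_right (k.cm hc' c1).symm) zd c3.symm (f := f) hf f1 f2 f3
  generalize a₀ * d * c = z at *
  have hb1 : z * b * z ∈ D := by simpa only [inv_eq_of_mul_eq_one_right z2] using r.cj_mem (m z) hb
  have b1a : Commute (z * b * z) a₀ := (za.symm.mul_left ab.symm).mul_left za.symm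
  have b1x : Commute (z * b * z) x := (c3.mul_left bx).mul_left c3
  have bb : Commute b (z * b * z) := h.cm_of hb hb1 fun q => by
    obtain ⟨f, hf, f0, f1, -⟩ := r.beta z2 hb hb1 q
    exact P f hf f1.symm (mc.1 (f0 _ (mc.2 ab.symm) (mc.2 b1a))) (mc.1 (f0 _ (mc.2 bx) (mc.2 b1x)))
  have zz : ∀ g, z * (z * g) = g := fun g => by rw [← mul_assoc, z2, one_mul]
  by_cases kb : Sm D b (z * b * z)
  · refine P _ (h.o3 hg hc hO hb hb1 kb fun q => P b hb ?_ ab.symm bx) ?_ (ab.symm.mul_left b1a) (bx.mul_left b1x)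
    · calc b * z = z * b * z * z := by rw [← q]
        _ = z * b := by rw [mul_assoc, z2, mul_one]
    · calc b * (z * b * z) * z = z * (z * b * z * b) := by simp only [mul_assoc, zz, z2, mul_one]
        _ = _ := by rw [bb.eq]
  obtain ⟨b', hb', l'⟩ := hl b hb
  obtain ⟨b₀, h1, f, hf, -, f1, f2, f3, f4, f5, -⟩ := h.exists_beta hb hb' l' hb1 bb kb hd ob.symm
  obtain ⟨h1, k1⟩ : b₀ ∈ D ∧ Sm D b b₀ := by
    rcases h1 with rfl | rfl; exacts [⟨hb, Sm.refl⟩, ⟨hb', h.sm_of_ln hb hb' l'⟩]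
  obtain ⟨b'', hb'', l''⟩ := hl b₀ h1
  have p1 := (k1.cm hb1 bb.symm).symm
  have p2 := k1.cm h0 ab
  have p3 := k1.cm hx bx.symm
  have A := fun u hu u1 u2 => h.pa hI h1 hb'' l'' hb1 hf p1 f1.symm hd (h.od_sm k1 hb h1 hd ob.symm) f4 f3
    (u := u) hu u1 u2
  have fa := A _ h0 p2 b1a.symm
  have fx := A _ hx p3 b1x.symm
  exact h.no_fix hI h0 ha' l hd hx o oa hno
    (sq_mul_cm (f1.symm.mul_left f2.symm) (sq_mul_cm p1 (r.sq _ h1) (r.sq _ hb1)) (r.sq f hf)) f5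
    ((p2.mul_right b1a.symm).mul_right fa)
    (((k.cm h1 p2.symm).symm.mul_right (k.cm hb1 b1a).symm).mul_right (k.cm hf fa.symm).symm) f3.symm
    ((p3.mul_right b1x.symm).mul_right fx) hf ((f1.mul_right f2).mul_right (Commute.refl f)) fa.symm fx.symm

theorem d2_of (hg : closure D = ⊤) (hc : Cls D) (hO : pCore 2 G = ⊥) (hl : ∀ a ∈ D, ∃ a' ∈ D, a * a' ∈ D)
    (hcon : IsConnectedSet (CommAdj D) D) : D2 D := fun d hd x hx o => by
  have key : ∀ y, Relation.ReflTransGen (CommAdj D) d y → ∃ e ∈ D, Commute e d ∧ Commute e y := fun y r => by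
    induction r with
    | refl => exact ⟨d, hd, Commute.refl d, Commute.refl d⟩
    | @tail b y _ k ih =>
      obtain ⟨e, he, e1, e2⟩ := ih
      by_contra! hno
      exact h.no_path hI hg hc hO hl hd k.2.1 (h.od_of hd k.2.1 fun q => hno d hd (Commute.refl d) q) hno he k.1
        e1 e2 k.2.2.2
  exact key x (hcon d hd x hx)

end OT

theorem RI.all_ln (h : RI D) (hc : Cls D) (hl : ∃ a ∈ D, ∃ a' ∈ D, a * a' ∈ D) : ∀ a ∈ D, ∃ a' ∈ D, a * a' ∈ D :=
  fun a ha => let ⟨_, h1, _, h2, l⟩ := hl; let ⟨c, hc', l'⟩ := h.exists_ln hc h1 h2 l ha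
    ⟨c, hc', h.ln_symm hc' ha l'⟩

variable {K : Type*} [Group K] [Finite K]

theorem OT.map (h : OT D) (φ : G →* K) (h1 : ∀ d ∈ D, φ d ≠ 1) : OT (φ '' D) := ⟨h.ri.map φ h1, by
  rintro _ ⟨a, ha, rfl⟩ _ ⟨b, hb, rfl⟩ f
  by_cases c : Commute a b
  · exact (h.ri.map φ h1).not_fr ⟨a, ha, rfl⟩ ⟨b, hb, rfl⟩ (c.map φ) f
  · have := Odd.of_dvd_nat (h.od_of ha hb c).2 (orderOf_map_dvd φ _)
    rw [map_mul, show orderOf (φ a * φ b) = 4 from f] at this
    exact absurd this (by decide)⟩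

theorem OT.comap {D : Set K} (h : OT D) (φ : G →* K) (hφ : Function.Injective φ) : OT (φ ⁻¹' D) :=
  ⟨h.ri.comap φ hφ, fun a ha b hb f => h.nf _ ha _ hb (by
    unfold Fr at *; rw [← map_mul, orderOf_injective φ hφ, f])⟩

theorem Cls.map (h : Cls D) (φ : G →* K) : Cls (φ '' D) := by
  rintro _ ⟨a, ha, rfl⟩ _ ⟨b, hb, rfl⟩
  obtain ⟨g, hg, rfl⟩ := h a ha b hb
  exact ⟨φ g, by rw [← MonoidHom.map_closure]; exact mem_map_of_mem φ hg, by simp⟩

theorem Cls.sub (h : Cls D) : Cls ((closure D).subtype ⁻¹' D) := fun a ha b hb => by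
  obtain ⟨g, hg, e⟩ := h a ha b hb
  exact ⟨⟨g, hg⟩, closure_closure_coe_preimage.ge (mem_top _), Subtype.ext e⟩

theorem conn_map (h : IsConnectedSet (CommAdj D) D) (φ : G →* K) : IsConnectedSet (CommAdj (φ '' D)) (φ '' D) := by
  rintro _ ⟨a, ha, rfl⟩ _ ⟨b, hb, rfl⟩
  have r := h a ha b hb
  clear hb
  induction r with
  | refl => exact .refl
  | @tail b c _ k ih =>
    by_cases e : φ b = φ c
    · exact e ▸ ih
    · exact ih.tail ⟨⟨b, k.1, rfl⟩, ⟨c, k.2.1, rfl⟩, e, by rw [← map_mul, k.2.2.2, map_mul]⟩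

theorem conn_sub (h : IsConnectedSet (CommAdj D) D) :
    IsConnectedSet (CommAdj ((closure D).subtype ⁻¹' D)) ((closure D).subtype ⁻¹' D) := by
  rintro ⟨a, a1⟩ ha ⟨b, b1⟩ hb
  have r := h a ha b hb
  clear hb
  induction r with
  | refl => exact .refl
  | @tail b c _ k ih =>
    exact (ih (subset_closure k.1)).tail ⟨k.1, k.2.1, fun e => k.2.2.1 (congrArg Subtype.val e), Subtype.ext k.2.2.2⟩

end

theorem d2_aux (n : ℕ) : ∀ {G : Type u} [Group G] [Finite G] {D : Set G}, Nat.card G ≤ n → OT D → closure D = ⊤ →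
    Cls D → (∃ a ∈ D, ∃ a' ∈ D, a * a' ∈ D) → IsConnectedSet (CommAdj D) D → D2 D := by
  induction n using Nat.strong_induction_on with
  | _ n ih =>
  have red : ∀ {G : Type u} [Group G] [Finite G] {D : Set G}, Nat.card G ≤ n → OT D → closure D = ⊤ →
      Cls D → (∃ a ∈ D, ∃ a' ∈ D, a * a' ∈ D) → IsConnectedSet (CommAdj D) D → pCore 2 G = ⊥ → D2 D := by
    intro G _ _ D hn h hg hc hl hcon hO
    refine h.d2_of (fun z z2 z1 T _ h2 hT cT ⟨a, ha, a', ha', l⟩ con d hd x hx o => ?_) hg hc hO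
      (h.ri.all_ln hc hl) hcon
    have lt : closure T ≠ ⊤ := fun e => z1 (by
      have : centralizer {z} = ⊤ := eq_top_iff.2 (e ▸ (closure_le _).2 h2)
      rw [← mem_bot, ← hO]
      exact bs z2 fun g => ⟨0, by
        rw [(mc.1 (this.ge (mem_top g))).eq, mul_inv_cancel_right, pow_zero, pow_one, z2]⟩)
    obtain ⟨e, he, e1, e2⟩ := @ih _ ((CA.Amb.card_lt_of_lt (lt_top_iff_ne_top.2 lt)).trans_le (by rwa [card_top]))
      (closure T) _ _ _ le_rfl (hT.comap _ (subtype_injective _)) closure_closure_coe_preimage cT.sub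
      ⟨⟨a, subset_closure ha⟩, ha, ⟨a', subset_closure ha'⟩, ha', l⟩ (conn_sub con)
      ⟨d, subset_closure hd⟩ hd ⟨x, subset_closure hx⟩ hx
      ⟨fun e => o.1 (congrArg Subtype.val e), by rw [← orderOf_coe]; exact o.2⟩
    exact ⟨e, he, e1.map (closure T).subtype, e2.map (closure T).subtype⟩
  intro G _ _ D hn h hg hc ⟨a, ha, a', ha', l⟩ hcon d hd x hx o
  have nO : ∀ a ∈ D, ∀ b ∈ D, Od a b → QuotientGroup.mk' (pCore 2 G) a ≠ QuotientGroup.mk' (pCore 2 G) b :=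
    fun a ha b hb o e => h.ri.od_ne_one hb o (eq_one_of_odd_two isPGroup_pCore (by
      rw [← h.ri.inv ha]; exact QuotientGroup.eq.1 e) o.2)
  have n1 : ∀ a ∈ D, QuotientGroup.mk' (pCore 2 G) a ≠ 1 := fun a ha e => by
    obtain ⟨g, hg', rfl⟩ := hc d hd a ha
    exact h.ri.not_od_of_mem isPGroup_pCore (by rw [normalizer_eq_top]; exact le_top) ha (h.ri.cj_mem hg' hx)
      ((QuotientGroup.eq_one_iff _).1 e) (o.cj g)
  obtain ⟨_, ⟨e, he, rfl⟩, e1, e2⟩ := red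
    ((Nat.card_le_card_of_surjective _ (QuotientGroup.mk'_surjective _)).trans hn) (h.map _ n1)
    (closure_map_top _ (QuotientGroup.mk'_surjective _) hg) (hc.map _)
    ⟨_, ⟨a, ha, rfl⟩, _, ⟨a', ha', rfl⟩, _, l, map_mul _ _ _⟩ (conn_map hcon _) CA.Core.pCore_quotient_pCore
    _ ⟨d, hd, rfl⟩ _ ⟨x, hx, rfl⟩ (od_map _ o (nO d hd x hx o))
  exact ⟨e, he, h.ri.cm_of_map _ n1 nO he hd e1, h.ri.cm_of_map _ n1 nO he hx e2⟩

/-- the commuting graph has diameter two -/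
theorem good {G : Type u} [Group G] [Finite G] (D : Set G) (R : Subgroup G) : Good D R :=
  fun T _ _ hT cT ⟨a, ha, a', ha', l⟩ con d hd x hx o => by
    obtain ⟨e, he, e1, e2⟩ := d2_aux _ le_rfl (hT.comap _ (subtype_injective _)) closure_closure_coe_preimage cT.sub
      ⟨⟨a, subset_closure ha⟩, ha, ⟨a', subset_closure ha'⟩, ha', l⟩ (conn_sub con)
      ⟨d, subset_closure hd⟩ hd ⟨x, subset_closure hx⟩ hx
      ⟨fun e => o.1 (congrArg Subtype.val e), by rw [← orderOf_coe]; exact o.2⟩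
    exact ⟨e, he, e1.map (closure T).subtype, e2.map (closure T).subtype⟩

end CA.RInv
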