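import Cfsg.Agent.Lib.Root.L2
import Cfsg.Agent.Lib.Bend.BendCor
import Cfsg.Agent.Lib.Lin.SLnCard
import Cfsg.Agent.S0102
import Cfsg.Agent.S0206
import Cfsg.Agent.S0262
import Cfsg.Agent.S0331

/-!
Groups generated by a block of commuting odd transpositions and one further transposition.
-/

set_option autoImplicit false
set_option linter.unusedSectionVars false

namespace CA.RInv

open Subgroup MulAction Cfsg CA.Core CA.RankOne

universe u v

variable {G : Type u} [Group G] [Finite G] {ι : Type v} {D : Set G} {c : G → ι} {a d e r r' s s' v v' x y : G}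

/-- elements of 2-power order -/
def Tp (r : G) : Prop := ∃ k : ℕ, r ^ 2 ^ k = 1

theorem Tp.map {K : Type*} [Group K] (h : Tp r) (f : G →* K) : Tp (f r) :=
  let ⟨k, e⟩ := h; ⟨k, by rw [← map_pow, e, map_one]⟩

theorem tp_of {P : Subgroup G} (hP : IsPGroup 2 P) (h : r ∈ P) : Tp r :=
  let ⟨k, e⟩ := hP ⟨r, h⟩; ⟨k, congrArg Subtype.val e⟩

/-- the two simple groups -/
def L2 (G : Type*) [Group G] (q : ℕ) : Prop := ∃ (F : Type) (_ : Field F) (_ : Fintype F),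
  CharP F 2 ∧ 4 ≤ Fintype.card F ∧ Fintype.card F = q ∧ Nonempty (G ≃* Matrix.ProjectiveSpecialLinearGroup (Fin 2) F)

theorem cyc_map {K : Type*} [Group K] [Finite K] {p : ℕ} [Fact p.Prime] (f : K →* G) (hf : Function.Surjective f)
    (h : ∀ P : Sylow p K, IsCyclic P) (P : Sylow p G) : IsCyclic P := by
  obtain ⟨P, rfl⟩ := Sylow.mapSurjective_surjective hf p P
  have := h P
  exact isCyclic_of_surjective _ (f.subgroupMap_surjective P)

theorem cyc_of {q p : ℕ} [Fact p.Prime] (hp : p ≠ 2) (h : L2 G q ∨ Lie.IsoSuzuki G) (P : Sylow p G) : IsCyclic P := by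
  rcases h with ⟨F, _, _, _, -, -, ⟨e⟩⟩ | ⟨F, _, _, m, hm, hF, ⟨e⟩⟩
  · haveI := fact2
    exact cyc_map (e.symm.toMonoidHom.comp (QuotientGroup.mk' _)) (e.symm.surjective.comp (QuotientGroup.mk'_surjective _))
      (Cfsg.Agent.S0262.result 2 p hp hp) P
  · have : CA.SzBasic.Hyp F m := ⟨hm, hF⟩
    exact cyc_map ((CA.SzModel.szEquiv F).trans e.symm).toMonoidHom ((CA.SzModel.szEquiv F).trans e.symm).surjective
      (Cfsg.Agent.S0331.result hm hF hp) P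

namespace Blk

section
variable [IsSimpleGroup G] (h : Blk D c) (hg : closure D = ⊤) (hv : v ∈ D) (hv' : v' ∈ D) (hl : v * v' ∈ D)
  (hG : GH.{u}) (ha : a ∈ D) (hx : x ∈ D) (n : c x ≠ c a)
include h hg hv hv' hl hG ha hx n

theorem rk1 : ∃ Q, IsRankOneSetup G (G ⧸ h.stab hg ha) ((1 : G) : G ⧸ h.stab hg ha) x Q ∧ IsPGroup 2 Q := by
  obtain ⟨t, Q, hS, hQ⟩ := CA.BendCor.setup_one (h.nab hg hv hv' hl) (h.se' hg hv hv' hl hG ha)
  have nx : x • ((1 : G) : G ⧸ h.stab hg ha) ≠ (1 : G) := fun e => n ((h.mem_stab_iff hg ha hx).1 (by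
    rw [← CA.BendCor.stab_one (H := h.stab hg ha)]; exact e))
  refine ⟨Q, CA.SuzCor.setup_of_split (split hS) (h.ri.sq x hx) nx hS.even_card ?_, hQ⟩
  rw [← Nat.not_even_iff_odd, even_iff_two_dvd]
  intro e
  haveI := fact2
  obtain ⟨g, e⟩ := exists_prime_orderOf_dvd_card' 2 e
  have := odd_of_fix_two hS nx.symm g.2.1 g.2.2
  rw [orderOf_coe, e] at this
  exact absurd this (by decide)

theorem uniq_s (hs : s ∈ D) (cs : c s = c a) (hs' : s' ∈ D) (cs' : c s' = c a) (hr : r ∈ h.stab hg ha) (tr : Tp r)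
    (hr' : r' ∈ h.stab hg ha) (tr' : Tp r') (e : x * s * x = r⁻¹ * x * r) (e' : x * s' * x = r'⁻¹ * x * r') :
    s = s' := by
  obtain ⟨Q, hS, hQ⟩ := h.rk1 hg hv hv' hl hG ha hx n
  obtain ⟨S, rfl⟩ := CA.BendCor.syl_Q hS hQ
  have st := CA.BendCor.stab_one (H := h.stab hg ha)
  have key : ∀ r ∈ h.stab hg ha, Tp r → r ∈ (S : Subgroup G) := fun r hr ⟨k, tr⟩ =>
    (((isPGroup_zpowers tr).inf_normalizer_sylow S).le ⟨mem_zpowers r,
      mem_normalizer_fintype (hS.conj_mem r (st.ge hr))⟩).2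
  have k2 : ∀ s ∈ D, c s = c a → s ∈ involutionsIn (stabilizer G ((1 : G) : G ⧸ h.stab hg ha) : Set G) :=
    fun s hs cs => mem_involutionsIn.2 ⟨st.ge ((h.mem_stab_iff hg ha hs).2 cs), h.ri.ne s hs, h.ri.sq s hs⟩
  exact (structure_unique hS (k2 s hs cs) (k2 s' hs' cs') (key r hr tr) (key r' hr' tr') e e').1

theorem two (hgen : closure ({e | e ∈ D ∧ c e = c a} ∪ {x}) = ⊤) : ∃ S : Sylow 2 G, (S : Subgroup G) ≤ h.stab hg ha ∧
    (∃ s ∈ D, c s = c a ∧ ∃ r ∈ S, x * s * x = r⁻¹ * x * r) ∧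
    ((∀ y, y ∈ S ↔ y = 1 ∨ y ∈ D ∧ c y = c a) ∧ L2 G (Nat.card S) ∨
      Lie.IsoSuzuki G ∧ ∃ r ∈ S, r * r ∈ D ∧ c (r * r) = c a ∧ x * (r * r) * x = r⁻¹ * x * r) := by
  obtain ⟨Q, hS, hQ⟩ := h.rk1 hg hv hv' hl hG ha hx n
  obtain ⟨S, rfl⟩ := CA.BendCor.syl_Q hS hQ
  haveI := CA.BendRed.faithful_quot (h.se' hg hv hv' hl hG ha).1
  have st := CA.BendCor.stab_one (H := h.stab hg ha)
  have le : (S : Subgroup G) ≤ h.stab hg ha := hS.le.trans st.le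
  have k1 : ∀ s ∈ h.stab hg ha, s ≠ 1 → s * s = 1 → s ∈ D ∧ c s = c a := fun s hs s1 s2 =>
    have := h.mem_of_ord hg hv hv' hl hG (ord_of_sq s2 s1)
    ⟨this, (h.mem_stab_iff hg ha this).1 hs⟩
  have k2 : ∀ s ∈ D, c s = c a → s ∈ (S : Subgroup G) := fun s hs cs =>
    mem_Q_of_inv hS (st.ge ((h.mem_stab_iff hg ha hs).2 cs)) (h.ri.sq s hs)
  obtain ⟨s, hs, r, hr, e⟩ := exists_structure hS
  have hc := h.not_cyclic hg hv hv' hl
  have T := CA.SuzStep.tri G _ _ x S hS (CA.SuzCor.exists_four hc)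
  have q1 : (∀ y ∈ (S : Subgroup G), y * y = 1) → CA.Tri.qq (S : Subgroup G) = Nat.card S := fun q =>
    Nat.card_congr (Equiv.subtypeEquivRight fun y => ⟨fun k => k.1, fun k => ⟨k, q y k⟩⟩)
  have c1 : 1 < Nat.card S := (one_lt_card_iff_ne_bot _).2 (Q_ne_bot hS)
  have q2 : 1 < CA.Tri.qq (S : Subgroup G) := Finite.one_lt_card_iff_nontrivial.2
    ⟨⟨1, one_mem _, one_mul 1⟩, ⟨a, k2 a ha rfl, h.ri.sq a ha⟩, fun e => h.ri.ne a ha (congrArg Subtype.val e).symm⟩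
  refine ⟨S, le, ⟨s, (k1 s (st.le hs.1) hs.2.1 hs.2.2).1, (k1 s (st.le hs.1) hs.2.1 hs.2.2).2, r, hr, e⟩, ?_⟩
  have n3 : Nat.card S ≠ CA.Tri.qq (S : Subgroup G) ^ 3 := fun q => by
    rcases T.2 with t | ⟨t, -⟩ | ⟨-, -, ω, -, -, ζ, hζ, z1, z2, -⟩
    · rw [q1 t] at q
      exact absurd (Nat.pow_right_injective c1 ((pow_one _).trans q)) (by decide)
    · exact absurd (Nat.pow_right_injective q2 (t.symm.trans q)) (by decide)
    have z3 := CA.RankOne2.comm_t_of_comm_s hS hs hr e hζ (z1 s (mem_Q_of_inv hS hs.1 hs.2.2) hs.2.2).symm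
    have : closure ({e | e ∈ D ∧ c e = c a} ∪ {x}) ≤ centralizer {ζ} := (closure_le _).2 (by
      rintro y (hy | rfl)
      exacts [mc.2 (z1 y (k2 y hy.1 hy.2) (h.ri.sq y hy.1)).symm, mc.2 z3])
    exact z2 (mc.1 (this (hgen ▸ mem_top ω))).eq.symm
  rcases CA.SuzCor.simple_cases hS hc with ⟨t, F, _, _, ⟨m, hm, e⟩, ⟨i⟩⟩ | ⟨t, i⟩ | ⟨t, -⟩
  · refine Or.inl ⟨fun y => ⟨fun hy => or_iff_not_imp_left.2 fun y1 => k1 y (le hy) y1 (t y hy), ?_⟩, F, _, _,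
      (CharP.charP_iff_prime_eq_zero Nat.prime_two).2 ?_, e ▸ Nat.pow_le_pow_right two_pos hm, ?_, ⟨i⟩⟩
    · rintro (rfl | hy)
      exacts [one_mem _, k2 y hy.1 hy.2]
    · have := FiniteField.cast_card_eq_zero F
      rw [e, Nat.cast_pow] at this
      exact pow_eq_zero_iff (by omega) |>.1 this
    · obtain ⟨j, hj⟩ := IsPGroup.iff_card.1 hQ
      have e1 := Nat.card_congr i.toEquiv
      have ev : Even (2 ^ m) := (Nat.even_pow' (by omega)).2 even_two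
      rw [CA.SLnCard.card_PSL2_even (by rwa [Nat.card_eq_fintype_card, e]), Nat.card_eq_fintype_card (α := F), e,
        ← (S : Subgroup G).card_mul_index, hj] at e1
      rw [e, hj]
      exact (CA.SuzCor.two_pow_eq (CA.Trf.odd_index_sylow S)
        (Nat.Even.sub_odd (Nat.one_le_pow _ _ (by positivity)) (ev.pow_of_ne_zero two_ne_zero) odd_one) e1).symm
  · refine Or.inr ⟨i, ?_⟩
    rcases T.2 with t' | ⟨-, r, hr, r1, e⟩ | ⟨t', -⟩
    · rw [q1 t'] at t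
      exact absurd (Nat.pow_right_injective c1 ((pow_one _).trans t)) (by decide)
    · have r2 : r * r * (r * r) = 1 := by
        have : x * (r * r) * x * (x * (r * r) * x) = 1 := by
          rw [e]; simp only [mul_assoc, mul_inv_cancel_left, h.ri.sq' hx, inv_mul_cancel]
        rw [← h.ri.cj2_mul hx] at this
        rw [← h.ri.cj_cj2 hx (r * r * (r * r)), this, mul_one, h.ri.sq x hx]
      have := k1 _ (le (mul_mem hr hr)) r1 r2
      exact ⟨r, hr, this.1, this.2, e⟩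
    · exact absurd t' n3
  · exact absurd t n3

end

end Blk

theorem mem_pCore_of_twoZ (h : y ∈ twoZCore G) (h2 : y * y = 1) : y ∈ pCore 2 G := by
  rw [← QuotientGroup.eq_one_iff, ← mem_bot, ← pCore_quotient_pCore (p := 2)]
  have e : (y : G ⧸ pCore 2 G) * y = 1 := by rw [← QuotientGroup.mk_mul, h2, QuotientGroup.mk_one]
  exact bs e fun g => ⟨0, by
    rw [show g * y = y * g from mem_center_iff.1 h g, mul_inv_cancel_right, pow_zero, pow_one, e]⟩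

theorem twoZ_bot {q : ℕ} (hp : commutator G = ⊤) (hz : twoZCore G ≤ center G) (h2 : ∀ u ∈ twoZCore G, u * u = 1 → u = 1)
    (h : L2 (G ⧸ twoZCore G) q ∨ Lie.IsoSuzuki (G ⧸ twoZCore G)) : Nonempty (G ≃* G ⧸ twoZCore G) := by
  have : twoZCore G = ⊥ := by
    rw [← card_eq_one]
    by_contra n
    obtain ⟨p, pp, d⟩ := Nat.exists_prime_and_dvd n
    haveI := Fact.mk pp
    by_cases e : p = 2
    · obtain ⟨g, e'⟩ := exists_prime_orderOf_dvd_card' p d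
      rw [← orderOf_coe, e] at e'
      exact ne_of_ord e' (h2 g g.2 (sq_of_ord e'))
    · have s := QuotientGroup.mk'_surjective (twoZCore G)
      refine Cfsg.Agent.S0102.result ?_ (cyc_of e h) _ s (by rwa [QuotientGroup.ker_mk']) hp
        (by rwa [QuotientGroup.ker_mk'])
      rw [commutator_def, ← map_top_of_surjective _ s, ← map_commutator, ← commutator_def, hp]
  exact ⟨(QuotientGroup.quotientBot.symm.trans (QuotientGroup.quotientMulEquivOfEq this.symm))⟩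

namespace Blk

variable (h : Blk D c) (hg : closure D = ⊤) (hv : v ∈ D) (hv' : v' ∈ D) (hl : v * v' ∈ D)
include h hg hv hv' hl

theorem labq (hd : d ∈ D) : lab D c (QuotientGroup.mk' (twoZCore G)) (QuotientGroup.mk' (twoZCore G) d) = c d :=
  h.lab_eq _ (fun _ hd => h.ri.not_mem_twoZ hg h.cls hv hv' hl hd) (fun _ ha _ hb => h.ri.ne_twoZ ha hb) hd

theorem stabq (ha : a ∈ D) : QuotientGroup.mk' (twoZCore G) r ∈ (h.quot hg hv hv' hl).stab
    (closure_map_top _ (QuotientGroup.mk'_surjective _) hg) (Set.mem_image_of_mem _ ha) ↔ r ∈ h.stab hg ha := by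
  rw [mem_stab, mem_stab, ← map_inv, ← map_mul, ← map_mul, h.labq hg hv hv' hl ha, h.labq hg hv hv' hl (h.mem hg ha r)]

variable (hG : GH.{u}) (ha : a ∈ D) (hx : x ∈ D) (n : c x ≠ c a)
include hG ha hx n

theorem uniqO (hs : s ∈ D) (cs : c s = c a) (hs' : s' ∈ D) (cs' : c s' = c a) (hr : r ∈ h.stab hg ha) (tr : Tp r)
    (hr' : r' ∈ h.stab hg ha) (tr' : Tp r') (e : x * s * x = r⁻¹ * x * r) (e' : x * s' * x = r'⁻¹ * x * r') :
    s * s' ∈ pCore 2 G := by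
  haveI := h.ri.simple_quot hg h.cls hv hv' hl
  have L := fun d hd => h.labq hg hv hv' hl (d := d) hd
  have := (h.quot hg hv hv' hl).uniq_s _ ⟨v, hv, rfl⟩ ⟨v', hv', rfl⟩ ⟨_, hl, map_mul _ _ _⟩ hG ⟨a, ha, rfl⟩
    ⟨x, hx, rfl⟩ (by rwa [L x hx, L a ha]) ⟨s, hs, rfl⟩ (by rw [L s hs, L a ha, cs]) ⟨s', hs', rfl⟩
    (by rw [L s' hs', L a ha, cs']) ((h.stabq hg hv hv' hl ha).2 hr) (tr.map _) ((h.stabq hg hv hv' hl ha).2 hr')
    (tr'.map _) (by simpa only [map_mul, map_inv] using congrArg (QuotientGroup.mk' (twoZCore G)) e)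
    (by simpa only [map_mul, map_inv] using congrArg (QuotientGroup.mk' (twoZCore G)) e')
  refine mem_pCore_of_twoZ (by rw [← h.ri.inv hs]; exact QuotientGroup.eq.1 this)
    (sq_mul_cm (h.ab hv hv' hl s hs s' hs' (cs.trans cs'.symm)) (h.ri.sq s hs) (h.ri.sq s' hs'))

variable (hgen : closure ({e | e ∈ D ∧ c e = c a} ∪ {x}) = ⊤)
include hgen

theorem twoq : ∃ S : Sylow 2 G, (S : Subgroup G) ≤ h.stab hg ha ∧
    (∃ s ∈ D, c s = c a ∧ ∃ r ∈ S, (x * s * x)⁻¹ * (r⁻¹ * x * r) ∈ twoZCore G) ∧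
    ((∀ y ∈ S, y ∈ twoZCore G ∨ ∃ e ∈ D, c e = c a ∧ e⁻¹ * y ∈ twoZCore G) ∧ (∃ q, L2 (G ⧸ twoZCore G) q) ∨
      Lie.IsoSuzuki (G ⧸ twoZCore G) ∧ ∃ s ∈ D, c s = c a ∧ ∃ r ∈ S, (x * s * x)⁻¹ * (r⁻¹ * x * r) ∈ twoZCore G ∧
        s⁻¹ * (r * r) ∈ twoZCore G) := by
  haveI := h.ri.simple_quot hg h.cls hv hv' hl
  haveI := fact2
  have L := fun d hd => h.labq hg hv hv' hl (d := d) hd
  have sj := QuotientGroup.mk'_surjective (twoZCore G)
  obtain ⟨S, le, ⟨_, ⟨s, hs, rfl⟩, cs, r, hr, e⟩, k⟩ := (h.quot hg hv hv' hl).two (closure_map_top _ sj hg)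
    ⟨v, hv, rfl⟩ ⟨v', hv', rfl⟩ ⟨_, hl, map_mul _ _ _⟩ hG ⟨a, ha, rfl⟩ ⟨x, hx, rfl⟩ (by rwa [L x hx, L a ha])
    (top_le_iff.1 ((closure_map_top _ sj hgen).ge.trans (closure_mono (by
      rintro _ ⟨y, hy | rfl, rfl⟩
      exacts [Or.inl ⟨⟨y, hy.1, rfl⟩, by rw [L y hy.1, L a ha, hy.2]⟩, Or.inr rfl]))))
  obtain ⟨S, rfl⟩ := Sylow.mapSurjective_surjective sj 2 S
  obtain ⟨r, hr, rfl⟩ := hr
  rw [L s hs, L a ha] at cs
  refine ⟨S, fun y hy => (h.stabq hg hv hv' hl ha).1 (le (mem_map_of_mem _ hy)),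
    ⟨s, hs, cs, r, hr, QuotientGroup.eq.1 e⟩, k.imp ?_ ?_⟩
  · rintro ⟨k, l⟩
    refine ⟨fun y hy => ((k _).1 (mem_map_of_mem _ hy)).imp (QuotientGroup.eq_one_iff y).1 ?_, _, l⟩
    rintro ⟨⟨e, he, q⟩, ce⟩
    exact ⟨e, he, by rwa [← q, L e he, L a ha] at ce, QuotientGroup.eq.1 q⟩
  · rintro ⟨i, _, ⟨r, hr, rfl⟩, ⟨s, hs, q⟩, cs, e⟩
    rw [← q] at cs e
    exact ⟨i, s, hs, by rwa [L s hs, L a ha] at cs, r, hr, QuotientGroup.eq.1 e, QuotientGroup.eq.1 q⟩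

theorem iso (hO : pCore 2 G = ⊥) : (∃ q, L2 G q) ∨ Lie.IsoSuzuki G := by
  obtain ⟨S, -, -, k⟩ := h.twoq hg hv hv' hl hG ha hx n hgen
  obtain ⟨q, k⟩ : ∃ q, L2 (G ⧸ twoZCore G) q ∨ Lie.IsoSuzuki (G ⧸ twoZCore G) := by
    rcases k with ⟨-, q, k⟩ | ⟨k, -⟩
    exacts [⟨q, Or.inl k⟩, ⟨0, Or.inr k⟩]
  obtain ⟨i⟩ := twoZ_bot (h.ri.perfect hg h.cls hv hv' hl) (fun y hy => mem_center_iff.2 fun g => by
    have := QuotientGroup.eq.1 (show ((g * y : G) : G ⧸ pCore 2 G) = (y * g : G) from mem_center_iff.1 hy g)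
    rwa [hO, mem_bot, inv_mul_eq_one] at this)
    (fun u hu u2 => by rw [← mem_bot, ← hO]; exact mem_pCore_of_twoZ hu u2) k
  rcases k with ⟨F, _, _, k1, k2, k3, ⟨j⟩⟩ | ⟨F, _, _, m, k1, k2, ⟨j⟩⟩
  exacts [Or.inl ⟨q, F, _, _, k1, k2, k3, ⟨i.trans j⟩⟩, Or.inr ⟨F, _, _, m, k1, k2, ⟨i.trans j⟩⟩]

variable (hE : ∀ u ∈ D, ∀ u' ∈ D, u ≠ u' → Commute u u' → u * u' ∈ D)
include hE

omit hG ha hx n hgen in
theorem injq (hd : d ∈ D) (he : e ∈ D) (k : d⁻¹ * e ∈ twoZCore G) : d = e := by_contra fun n => by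
  have q : QuotientGroup.mk' (twoZCore G) d = QuotientGroup.mk' _ e := QuotientGroup.eq.2 k
  have c1 := h.ri.cm_of_map _ (fun _ hd => h.ri.not_mem_twoZ hg h.cls hv hv' hl hd)
    (fun _ ha _ hb => h.ri.ne_twoZ ha hb) hd he (q ▸ Commute.refl _)
  rw [h.ri.inv hd] at k
  exact h.ri.not_mem_twoZ hg h.cls hv hv' hl (hE d hd e he n c1) ((QuotientGroup.eq_one_iff _).2 k)

omit hG ha hx n hgen in
theorem twoZ_le : twoZCore G ≤ center G := fun y hy => by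
  have : closure D ≤ centralizer {y} := (closure_le _).2 fun d hd => mc.2 (mul_inv_eq_iff_eq_mul.1
    (h.injq hg hv hv' hl hE hd (h.mem hg hd y) (by
      simpa [mul_assoc] using mul_mem ((twoZCore_normal G).conj_mem y hy d⁻¹) (inv_mem hy))).symm).symm
  exact mem_center_iff.2 fun g => mc.1 (this (hg ▸ mem_top g))

theorem main : (∃ s ∈ D, c s = c a ∧ ∃ r ∈ h.stab hg ha, Tp r ∧ x * s * x = r⁻¹ * x * r) ∧
    ((∃ S : Subgroup G, (∀ y, y ∈ S ↔ y = 1 ∨ y ∈ D ∧ c y = c a) ∧ L2 G (Nat.card S)) ∨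
      ∃ s ∈ D, c s = c a ∧ ∃ r ∈ h.stab hg ha, Tp r ∧ x * s * x = r⁻¹ * x * r ∧ s * (r * r) ∈ center G) := by
  haveI := fact2
  obtain ⟨S, le, ⟨s, hs, cs, r, hr, e⟩, k⟩ := h.twoq hg hv hv' hl hG ha hx n hgen
  have I := fun s hs r e => h.injq hg hv hv' hl hE (h.ri.cjD s hs x hx) (e := r⁻¹ * x * r)
    (by simpa using h.mem hg hx r⁻¹) e
  have hz := h.twoZ_le hg hv hv' hl hE
  have hp := h.ri.perfect hg h.cls hv hv' hl
  refine ⟨⟨s, hs, cs, r, le hr, tp_of S.2 hr, I s hs r e⟩, ?_⟩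
  rcases k with ⟨k, q, l⟩ | ⟨-, s, hs, cs, r, hr, e, k⟩
  swap
  · exact Or.inr ⟨s, hs, cs, r, le hr, tp_of S.2 hr, I s hs r e, h.ri.inv hs ▸ hz k⟩
  have ab : IsMulCommutative (S : Subgroup G) := ⟨⟨fun y z => Subtype.ext (by
    rcases k y y.2 with k1 | ⟨e, he, ce, k1⟩
    · exact (mem_center_iff.1 (hz k1) _).symm
    rcases k z z.2 with k2 | ⟨f, hf, cf, k2⟩
    · exact mem_center_iff.1 (hz k2) _
    have c1 : ∀ g, Commute g (f⁻¹ * z) := mem_center_iff.1 (hz k2)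
    have c2 : ∀ g, Commute g (e⁻¹ * y) := mem_center_iff.1 (hz k1)
    simpa using (((h.ab hv hv' hl e he f hf (ce.trans cf.symm)).mul_right (c1 e)).mul_left (c2 _).symm).eq)⟩⟩
  obtain ⟨i⟩ := twoZ_bot hp hz (fun u hu u2 => CA.NPC2.eq_one_of_mem_commutator_of_center ab S.card_coprime_index
    (isPGroup_pCore.le_sylow_of_normal S (mem_pCore_of_twoZ hu u2)) (hp ▸ mem_top u) (hz hu)) (Or.inl l)
  haveI := h.ri.simple_quot hg h.cls hv hv' hl
  haveI : IsSimpleGroup G := i.isSimpleGroup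
  obtain ⟨S, le, -, k | ⟨-, r, hr, k1, k2, e⟩⟩ := h.two hg hv hv' hl hG ha hx n hgen
  · exact Or.inl ⟨S, k⟩
  · exact Or.inr ⟨_, k1, k2, r, le hr, tp_of S.2 hr, e, h.ri.sq _ k1 ▸ one_mem _⟩

end Blk

section
variable (hG : GH.{u}) (h : OT D) (hg : closure D = ⊤) (hc : Cls D) {E : Set G} (hd : d ∈ E) (hx : x ∈ D)
  (o : Od d x) (hE : ∀ e ∈ E, e ∈ D ∧ Sm D d e) (hgen : closure (E ∪ {x}) = ⊤)
include hG h hg hc hd hx o hE hgen

theorem gen_iso (hO : pCore 2 G = ⊥) : (∃ q, L2 G q) ∨ Lie.IsoSuzuki G ∨ ∃ n, Nonempty (G ≃* DihedralGroup n) := by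
  have hd' := (hE d hd).1
  by_cases q : ∀ e ∈ E, d = e
  · obtain ⟨i⟩ := Cfsg.Agent.S0206.result d x (h.ri.ord hd') (h.ri.ord hx) o.1
    have : closure ({d, x} : Set G) = ⊤ := top_le_iff.1 (hgen.ge.trans (closure_mono (by
      rintro y (hy | rfl)
      exacts [Or.inl (q y hy).symm, Or.inr rfl])))
    exact Or.inr (Or.inr ⟨_, ⟨(topEquiv.symm.trans (MulEquiv.subgroupCongr this.symm)).trans i⟩⟩)
  push Not at q
  obtain ⟨e, he, n⟩ := q
  have l := h.o3 hg hc hO hd' (hE e he).1 (hE e he).2 n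
  have b := h.ri.blk fun con => by
    obtain ⟨f, hf, f1, f2⟩ := good D ⊤ D le_rfl (fun _ _ => mem_top _) h hc ⟨d, hd', e, (hE e he).1, l⟩ con d hd' x hx o
    have : closure (E ∪ {x}) ≤ centralizer {f} := (closure_le _).2 (by
      rintro y (hy | rfl)
      exacts [mc.2 ((hE y hy).2.cm hf f1).symm, mc.2 f2.symm])
    obtain ⟨g, -, rfl⟩ := hc f hf d hd'
    rw [(mc.1 (this (hgen ▸ mem_top g))).eq, mul_inv_cancel_right] at o
    exact h.ri.not_od hf hx f2 o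
  refine (b.iso hg hd' (hE e he).1 l hG hd' hx
    (fun q => h.ri.not_od hx hd' (b.ab hd' (hE e he).1 l x hx d hd' q) o.symm)
    (top_le_iff.1 (hgen.ge.trans (closure_mono (Set.union_subset_union_left _ fun y hy => ⟨(hE y hy).1, ?_⟩)))) hO).imp
    id Or.inl
  exact b.cm y (hE y hy).1 d hd' ((hE y hy).2.cm' hd').symm

theorem gen_quot : (∃ q, L2 (G ⧸ pCore 2 G) q) ∨ Lie.IsoSuzuki (G ⧸ pCore 2 G) ∨
    ∃ n, Nonempty (G ⧸ pCore 2 G ≃* DihedralGroup n) := by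
  have hd' := (hE d hd).1
  have nO : ∀ a ∈ D, ∀ b ∈ D, Od a b → QuotientGroup.mk' (pCore 2 G) a ≠ QuotientGroup.mk' (pCore 2 G) b :=
    fun a ha b hb o e => h.ri.od_ne_one hb o (eq_one_of_odd_two isPGroup_pCore (by
      rw [← h.ri.inv ha]; exact QuotientGroup.eq.1 e) o.2)
  have n1 : ∀ a ∈ D, QuotientGroup.mk' (pCore 2 G) a ≠ 1 := fun a ha e => by
    obtain ⟨g, hg', rfl⟩ := hc d hd' a ha
    exact h.ri.not_od_of_mem isPGroup_pCore (by rw [normalizer_eq_top]; exact le_top) ha (h.ri.cj_mem hg' hx)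
      ((QuotientGroup.eq_one_iff _).1 e) (o.cj g)
  have sj := QuotientGroup.mk'_surjective (pCore 2 G)
  refine gen_iso hG (h.map _ n1) (closure_map_top _ sj hg) (hc.map _) (Set.mem_image_of_mem _ hd)
    (Set.mem_image_of_mem _ hx) (od_map _ o (nO d hd' x hx o)) ?_
    (by simpa only [Set.image_union, Set.image_singleton] using closure_map_top _ sj hgen) pCore_quotient_pCore
  rintro _ ⟨e, he, rfl⟩
  refine ⟨⟨e, (hE e he).1, rfl⟩, ?_⟩
  rintro _ ⟨y, hy, rfl⟩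
  exact ⟨fun k => ((hE e he).2.cm hy (h.ri.cm_of_map _ n1 nO hy hd' k)).map _,
    fun k => ((hE e he).2.symm.cm hy (h.ri.cm_of_map _ n1 nO hy (hE e he).1 k)).map _⟩

end

omit [Finite G] in
theorem od_sub {H : Subgroup G} {a b : H} (o : Od (a : G) b) : Od a b :=
  ⟨fun e => o.1 (congrArg Subtype.val e), by rw [← orderOf_coe]; exact o.2⟩

theorem s5051 (hG : GH.{u}) (h : OT D) (hd : d ∈ D) (hx : x ∈ D) (o : Od d x) {X : Subgroup G}
    (hX : X = closure (sameCommutingClass D d ∪ {x})) : (∃ q, L2 (X ⧸ pCore 2 X) q) ∨ Lie.IsoSuzuki (X ⧸ pCore 2 X) ∨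
    ∃ n, Nonempty (X ⧸ pCore 2 X ≃* DihedralGroup n) := by
  have mx : x ∈ D ∩ X := ⟨hx, hX ▸ subset_closure (Or.inr rfl)⟩
  have mE : ∀ e ∈ sameCommutingClass D d, e ∈ Cp (D ∩ X) x := fun e he =>
    cp_od mx cp_self ⟨he.1, hX ▸ subset_closure (Or.inl he)⟩ (h.od_sm (mem_E.1 he).2 hd he.1 hx o.symm)
  have e : closure (Cp (D ∩ X) x) = X := le_antisymm ((closure_le _).2 fun y hy => (cp_sub mx hy).2)
    (hX.trans_le (closure_mono (by rintro y (hy | rfl); exacts [mE y hy, cp_self])))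
  have dE : d ∈ sameCommutingClass D d := mem_E.2 ⟨hd, Sm.refl⟩
  have hT := (h.inter X).cp mx
  have cT := (h.inter X).cls_cp mx
  have sub : Cp (D ∩ X) x ⊆ D := fun y hy => (cp_sub mx hy).1
  have xT : x ∈ Cp (D ∩ X) x := cp_self
  generalize Cp (D ∩ X) x = T at *
  subst e
  refine gen_quot hG (hT.comap _ (subtype_injective _)) closure_closure_coe_preimage cT.sub
    (E := (closure T).subtype ⁻¹' sameCommutingClass D d) (d := ⟨d, subset_closure (mE d dE)⟩)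
    (x := ⟨x, subset_closure xT⟩) dE xT (od_sub o) (fun e he => ⟨mE _ he, fun y hy => ?_⟩) ?_
  · have := (mem_E.1 he).2 y (sub hy)
    exact ⟨fun k => Subtype.ext (this.1 (k.map (closure T).subtype)),
      fun k => Subtype.ext (this.2 (k.map (closure T).subtype))⟩
  · apply map_injective (subtype_injective _)
    rw [MonoidHom.map_closure, ← MonoidHom.range_eq_map, range_subtype, Set.image_union, Set.image_singleton,
      Set.image_preimage_eq_of_subset fun y hy => ⟨⟨y, subset_closure (mE y hy)⟩, rfl⟩]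
    exact hX.symm

end CA.RInv
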