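import Cfsg.Agent.Lib.Root.L3

/-!
Odd transpositions with a connected commuting graph: the groups `⟨E_d, x⟩` are `L₂(q)`.
-/

set_option autoImplicit false
set_option linter.unusedSectionVars false

namespace CA.RInv

open Subgroup Cfsg CA.Core

universe u v

variable {G : Type u} [Group G] [Finite G] {ι : Type v} {D : Set G} {c : G → ι}
  {a a' b d e f g r r' s s' t u v v' w x y z : G}

namespace Blk

variable (h : Blk D c) (hv : v ∈ D) (hv' : v' ∈ D) (hl : v * v' ∈ D) (hG : GH.{u}) (ha : a ∈ D) (hx : x ∈ D)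
  (n : c x ≠ c a)
include h hv hv' hl hG ha hx n

theorem uniqA (hs : s ∈ D) (cs : c s = c a) (hs' : s' ∈ D) (cs' : c s' = c a) (hr : r ∈ closure D)
    (cr : c (r * a * r⁻¹) = c a) (tr : Tp r) (hr' : r' ∈ closure D) (cr' : c (r' * a * r'⁻¹) = c a) (tr' : Tp r')
    (e : x * s * x = r⁻¹ * x * r) (e' : x * s' * x = r'⁻¹ * x * r') :
    ∃ O : Subgroup G, IsPGroup 2 O ∧ O ≤ closure D ∧ closure D ≤ normalizer (O : Set G) ∧ s * s' ∈ O := by
  have T : ∀ r (hr : r ∈ closure D), Tp r → Tp (⟨r, hr⟩ : closure D) := fun r hr ⟨k, e⟩ => ⟨k, Subtype.ext e⟩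
  have := h.sub.uniqO closure_closure_coe_preimage (v := ⟨v, subset_closure hv⟩) (v' := ⟨v', subset_closure hv'⟩)
    hv hv' hl hG (a := ⟨a, subset_closure ha⟩) (x := ⟨x, subset_closure hx⟩) ha hx (by exact n) (s := ⟨s, subset_closure hs⟩)
    (s' := ⟨s', subset_closure hs'⟩) hs (by exact cs) hs' (by exact cs') (r := ⟨r, hr⟩) (by exact cr) (T r hr tr)
    (r' := ⟨r', hr'⟩) (by exact cr') (T r' hr' tr')
    (Subtype.ext e) (Subtype.ext e')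
  refine ⟨(pCore 2 (closure D)).map (closure D).subtype, isPGroup_pCore.map _, map_subtype_le _,
    fun g hg => mem_normalizer_fintype ?_, _, this, rfl⟩
  rintro _ ⟨q, hq, rfl⟩
  exact ⟨_, Normal.conj_mem inferInstance q hq ⟨g, hg⟩, rfl⟩

theorem mainA (hgen : D ⊆ closure ({e | e ∈ D ∧ c e = c a} ∪ {x}))
    (hE : ∀ u ∈ D, ∀ u' ∈ D, u ≠ u' → Commute u u' → u * u' ∈ D) :
    (∃ s ∈ D, c s = c a ∧ ∃ r ∈ closure D, c (r * a * r⁻¹) = c a ∧ Tp r ∧ x * s * x = r⁻¹ * x * r) ∧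
    ((∃ S : Subgroup G, (∀ y, y ∈ S ↔ y = 1 ∨ y ∈ D ∧ c y = c a) ∧ L2 (closure D) (Nat.card S)) ∨
      ∃ s ∈ D, c s = c a ∧ ∃ r ∈ closure D, Tp r ∧ x * s * x = r⁻¹ * x * r ∧
        ∀ g ∈ closure D, Commute g (s * (r * r))) := by
  obtain ⟨⟨s, hs, cs, r, hr, tr, e⟩, k⟩ := h.sub.main closure_closure_coe_preimage (v := ⟨v, subset_closure hv⟩)
    (v' := ⟨v', subset_closure hv'⟩) hv hv' hl hG (a := ⟨a, subset_closure ha⟩) (x := ⟨x, subset_closure hx⟩) ha hx (by exact n)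
    (by
      apply map_injective (subtype_injective _)
      rw [MonoidHom.map_closure, ← MonoidHom.range_eq_map, range_subtype]
      refine le_antisymm ((closure_le _).2 ?_) ((closure_le _).2 (hgen.trans (closure_mono ?_)))
      · rintro _ ⟨y, -, rfl⟩; exact y.2
      · rintro y (hy | rfl)
        exacts [⟨⟨y, subset_closure hy.1⟩, Or.inl hy, rfl⟩, ⟨_, Or.inr rfl, rfl⟩])
    fun u hu u' hu' n k => hE _ hu _ hu' (fun e => n (Subtype.ext e)) (k.map (closure D).subtype)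
  refine ⟨⟨s, hs, cs, r, r.2, hr, tr.map (closure D).subtype, congrArg Subtype.val e⟩, k.imp ?_ ?_⟩
  · rintro ⟨S, k, l⟩
    refine ⟨S.map (closure D).subtype, fun y => ⟨?_, ?_⟩, by rwa [card_subtype]⟩
    · rintro ⟨y, hy, rfl⟩
      exact ((k y).1 hy).imp (congrArg Subtype.val) id
    · rintro (rfl | hy)
      exacts [one_mem _, ⟨⟨y, subset_closure hy.1⟩, (k _).2 (Or.inr hy), rfl⟩]
  · rintro ⟨s, hs, cs, r, -, tr, e, k⟩
    exact ⟨s, hs, cs, r, r.2, tr.map (closure D).subtype, congrArg Subtype.val e,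
      fun g hg => congrArg Subtype.val (mem_center_iff.1 k ⟨g, hg⟩)⟩

end Blk

namespace OT

variable (h : OT D) {S : Set G} (hS : S ⊆ D) (cS : ∀ s ∈ S, ∀ t ∈ S, Commute s t) (ha : a ∈ S) (ha' : a' ∈ S)
  (l : a * a' ∈ D) (hx : x ∈ D) (o : Od x a)
include h hS cS ha ha' l hx o

theorem genS (hf : f ∈ D ∩ closure (S ∪ {x})) (k : Commute f a) (hs : s ∈ S) : Commute f s := by
  by_cases n : Sm D a s
  · exact n.cm hf.1 k
  obtain ⟨a₀, h0, c, hc, -, c3, c4, c5, c6, -, c7⟩ := h.exists_beta (hS ha) (hS ha') l (hS hs) (cS a ha s hs) n hx o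
  have k1 := h.sm_of_ln (hS ha) (hS ha') l
  obtain ⟨h0, k0, a₁, h1, l1⟩ : a₀ ∈ S ∧ Sm D a a₀ ∧ ∃ a₁ ∈ D, a₀ * a₁ ∈ D := by
    rcases h0 with rfl | rfl
    exacts [⟨ha, Sm.refl, a', hS ha', l⟩, ⟨ha', k1, a, hS ha, h.ri.ln_symm (hS ha) (hS ha') l⟩]
  have le : closure (S ∪ {x}) ≤ centralizer {a₀ * s * c} := (closure_le _).2 (by
    rintro t (ht | rfl)
    · exact mc.2 (((cS t ht _ h0).mul_right (cS t ht s hs)).mul_right (h.pa (fun _ _ _ => good _ _) (hS h0) h1 l1 (hS hs)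
        hc (cS _ h0 s hs) c3.symm hx (h.od_sm k0 (hS ha) (hS h0) hx o) c6 c5 (hS ht) (cS t ht _ h0) (cS t ht s hs)))
    · exact mc.2 c5.symm)
  have := (k0.cm hf.1 k).inv_right.mul_right (mc.1 (le hf.2))
  rw [mul_assoc, inv_mul_cancel_left] at this
  exact h.cent2 (hS hs) hc c4.symm c7 hf.1 this

theorem blkS {R : Subgroup G} (hR : R = closure (S ∪ {x})) :
    Blk (Cp (D ∩ R) x) (comp (Cp (D ∩ R) x)) ∧ a ∈ Cp (D ∩ R) x ∧ a' ∈ Cp (D ∩ R) x ∧ a * a' ∈ Cp (D ∩ R) x := by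
  subst hR
  have mx : x ∈ D ∩ closure (S ∪ {x}) := ⟨hx, subset_closure (Or.inr rfl)⟩
  have ma : a ∈ D ∩ closure (S ∪ {x}) := ⟨hS ha, subset_closure (Or.inl ha)⟩
  exact h.blk (good _ _) mx ma ⟨hS ha', subset_closure (Or.inl ha')⟩ l o (cp_od mx cp_self ma o) o.symm
    fun f hf q => h.no_cent hx (hS ha) ha o.symm hf fun s hs => h.genS hS cS ha ha' l hx o (cp_sub mx hf) q hs

omit cS ha ha' l o in
theorem clS {R : Subgroup G} (hR : R = closure (S ∪ {x})) (oS : ∀ s ∈ S, Od x s) :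
    S ⊆ Cp (D ∩ R) x ∧ closure (Cp (D ∩ R) x) = R := by
  have mx : x ∈ D ∩ R := ⟨hx, hR ▸ subset_closure (Or.inr rfl)⟩
  have mE : S ⊆ Cp (D ∩ R) x := fun e he => cp_od mx cp_self ⟨hS he, hR ▸ subset_closure (Or.inl he)⟩ (oS e he)
  exact ⟨mE, le_antisymm ((closure_le _).2 fun y hy => (cp_sub mx hy).2)
    (hR.trans_le (closure_mono (by rintro y (hy | rfl); exacts [mE hy, cp_self])))⟩

end OT

/-- a class of odd transpositions with lines generating a group with `O₂(G) = 1` -/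
structure PS (D : Set G) : Prop where
  ot : OT D
  gen : closure D = ⊤
  cls : Cls D
  o2 : pCore 2 G = ⊥
  ln : ∀ a ∈ D, ∃ a' ∈ D, a * a' ∈ D

/-- the class `E_d` -/
abbrev Ec (D : Set G) (d : G) : Set G := {e | e ∈ D ∧ Sm D d e}

theorem ec_cm (hs : s ∈ Ec D d) (ht : t ∈ Ec D d) : Commute s t := (hs.2.symm.trans ht.2).cm' hs.1

namespace PS

variable (h : PS D) (hd : d ∈ D) (hx : x ∈ D) (o : Od x d)
include h hd hx o

theorem genE (hu : u ∈ D) (k : Commute u d) (hf : f ∈ D ∩ closure (Ec D d ∪ {u} ∪ {x})) (k' : Commute f d) :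
    Commute f u := by
  obtain ⟨d', hd', l⟩ := h.ln d hd
  refine h.ot.genS (S := Ec D d ∪ {u}) ?_ ?_ (Or.inl ⟨hd, Sm.refl⟩) (Or.inl ⟨hd', h.ot.sm_of_ln hd hd' l⟩) l hx o hf k'
    (Or.inr rfl)
  · rintro s (hs | rfl); exacts [hs.1, hu]
  · rintro s (hs | rfl) t (ht | rfl)
    exacts [ec_cm hs ht, (hs.2.cm hu k).symm, ht.2.cm hu k, Commute.refl _]

theorem sm_of_gen (hf : f ∈ D ∩ closure (Ec D d ∪ {x})) (k : Commute f d) : Sm D d f :=
  h.ot.sm_of_le h.cls hd hf.1 fun _ hu k' => (h.genE hd hx o hu k'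
    ⟨hf.1, closure_mono (Set.union_subset_union_left _ Set.subset_union_left) hf.2⟩ k).symm

theorem loc (hG : GH.{u}) {X : Subgroup G} (hX : X = closure (Ec D d ∪ {x})) :
    (∃ s ∈ Ec D d, ∃ r ∈ X, Commute (r * d * r⁻¹) d ∧ Tp r ∧ x * s * x = r⁻¹ * x * r) ∧
    ((∃ S : Subgroup G, (∀ y, y ∈ S ↔ y = 1 ∨ y ∈ Ec D d) ∧ L2 X (Nat.card S)) ∨
      ∃ s ∈ Ec D d, ∃ r ∈ X, Tp r ∧ x * s * x = r⁻¹ * x * r ∧ ∀ g ∈ X, Commute g (s * (r * r))) := by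
  obtain ⟨d', hd', l⟩ := h.ln d hd
  have r := h.ot.ri
  have m : ∀ g : G, g ∈ closure D := fun g => h.gen ▸ mem_top g
  obtain ⟨b, m1, m2, m3⟩ := h.ot.blkS (fun _ k => k.1) (fun _ k _ k' => ec_cm k k') ⟨hd, Sm.refl⟩
    ⟨hd', h.ot.sm_of_ln hd hd' l⟩ l hx o hX
  obtain ⟨sub, cl⟩ := h.ot.clS (fun _ k => k.1) hx hX fun s hs => h.ot.od_sm hs.2 hd hs.1 hx o
  have mx : x ∈ D ∩ X := ⟨hx, hX ▸ subset_closure (Or.inr rfl)⟩
  have md := cp_sub mx m1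
  have key : ∀ y, y ∈ Cp (D ∩ X) x ∧ comp (Cp (D ∩ X) x) y = comp (Cp (D ∩ X) x) d ↔ y ∈ Ec D d := fun y =>
    ⟨fun k => ⟨(cp_sub mx k.1).1, h.sm_of_gen hd hx o (hX ▸ cp_sub mx k.1) (b.ab m1 m2 m3 y k.1 d m1 k.2)⟩,
      fun k => ⟨sub k, b.cm y (sub k) d m1 (k.2.cm' hd).symm⟩⟩
  have cj : ∀ g ∈ X, ∀ y ∈ Cp (D ∩ X) x, g * y * g⁻¹ ∈ Cp (D ∩ X) x := fun g hg y hy => b.ri.cj_mem (cl.ge hg) hy
  obtain ⟨⟨s, hs, cs, r, hr, cr, tr, e⟩, k⟩ := b.mainA m1 m2 m3 hG m1 cp_self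
    (fun q => r.not_od hx hd (b.ab m1 m2 m3 x cp_self d m1 q) o)
    (fun y hy => closure_mono (Set.union_subset_union_left _ fun y hy => (key y).2 hy) (hX.le (cp_sub mx hy).2)) (fun u hu u' hu' n k => by
      obtain ⟨g, hg, rfl⟩ := b.cls d m1 u hu
      rw [cl] at hg
      have h1 := cj _ (inv_mem hg) _ hu'
      have h2 := r.sm_cj (m g) (h.sm_of_gen hd hx o (hX ▸ cp_sub mx h1) (by
        simpa [mul_assoc] using (cm_cj k g⁻¹).symm))
      rw [show g * (g⁻¹ * u' * g⁻¹⁻¹) * g⁻¹ = u' by group] at h2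
      have hu0 := cp_sub mx hu
      have hu1 := cp_sub mx hu'
      have l' := h.ot.o3 h.gen h.cls h.o2 hu0.1 hu1.1 h2 n
      exact cp_od mx (cj g hg x cp_self) ⟨l', mul_mem hu0.2 hu1.2⟩ (h.ot.od_sm (h.ot.sm_of_ln hu0.1 l'
        (r.ln_l hu0.1 hu1.1)) hu0.1 l' (r.cj_mem (m g) hx) (o.cj g)))
  rw [cl] at hr k
  refine ⟨⟨s, (key s).1 ⟨hs, cs⟩, r, hr, b.ab m1 m2 m3 _ (cj r hr d m1) d m1 cr, tr, e⟩, k.imp ?_ ?_⟩
  · rintro ⟨S, k, l⟩
    exact ⟨S, fun y => by rw [k, key], l⟩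
  · rintro ⟨s, hs, cs, k⟩
    exact ⟨s, (key s).1 ⟨hs, cs⟩, k⟩

theorem exists_od (hb : b ∈ D) : ∃ y ∈ D, Od y d ∧ Od y b := by
  by_contra! q
  have r := h.ot.ri
  have le : closure (Ao D d) ≤ centralizer {b} := (closure_le _).2 fun y hy => mc.2 (h.ot.cm_of hy.1 hb (q y hy.1 hy.2))
  have nm : closure D ≤ normalizer (closure (Ao D d) : Set G) := (closure_le _).2 fun y hy => by
    by_cases c : Commute y d
    · refine mem_normalizer_fintype fun z hz => ?_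
      refine (closure_le ((closure (Ao D d)).comap (MulAut.conj y).toMonoidHom)).2 (fun z hz => subset_closure ?_) hz
      have := hz.2.cj y
      rw [c.eq, mul_inv_cancel_right] at this
      exact ⟨r.cj_mem (subset_closure hy) hz.1, this⟩
    · exact le_normalizer (subset_closure ⟨hy, h.ot.od_of hy hd c⟩)
  obtain ⟨g, hg, rfl⟩ := h.cls d hd b hb
  exact r.not_od (r.cj_mem hg hx) hb (mc.1 (le ((mem_normalizer_iff.1 (nm hg) x).1 (subset_closure ⟨hx, o⟩)))) (o.cj g)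

theorem config (h2 : D2 D) : ∃ b ∈ D, ∃ w ∈ D, Commute b d ∧ Commute b x ∧ Commute w d ∧ Od x w ∧ Od b w := by
  have r := h.ot.ri
  obtain ⟨b, hb, b1, b2⟩ := h2 d hd x hx o.symm
  have n : ¬ Sm D d b := fun k => r.not_od hx hd (k.symm.cm hx b2.symm) o
  obtain ⟨w, hw, w1, w2⟩ : ∃ w ∈ D, Commute w d ∧ ¬ Commute w b := by
    by_contra! q
    exact n (h.ot.sm_of_le h.cls hd hb q)
  by_cases w3 : Commute w x
  swap
  · exact ⟨b, hb, w, hw, b1, b2, w1, (h.ot.od_of hw hx w3).symm, (h.ot.od_of hw hb w2).symm⟩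
  obtain ⟨y, hy, y1, y2⟩ := h.exists_od hd hx o hb
  obtain ⟨d', hd', l⟩ := h.ln d hd
  obtain ⟨a, h0, c, hc, -, c1, c2, c3, -⟩ := h.ot.exists_beta hd hd' l hb b1.symm n hy y1
  obtain ⟨h0, k0⟩ : a ∈ D ∧ Sm D d a := by
    rcases h0 with rfl | rfl; exacts [⟨hd, Sm.refl⟩, ⟨hd', h.ot.sm_of_ln hd hd' l⟩]
  obtain ⟨a', ha', la⟩ := h.ln a h0
  obtain ⟨b', hb', lb⟩ := h.ln b hb
  have ab := k0.cm hb b1
  have ya := h.ot.od_sm k0 hd h0 hy y1
  refine ⟨w, hw, c, hc, w1, w3, k0.symm.cm hc c1, h.ot.od_of hx hc fun q => r.not_od hx hd (k0.symm.cm hx ?_) o,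
    h.ot.od_of hw hc fun q => w2 ?_⟩
  · exact h.ot.pa (fun _ _ _ => good _ _) hb hb' lb hc h0 c2.symm ab hy y2 ya
      (by rwa [(ab.mul_left c1).eq, ← mul_assoc]) hx b2.symm q
  · exact h.ot.pa (fun _ _ _ => good _ _) h0 ha' la hc hb c1.symm ab.symm hy ya y2
      (by rwa [mul_assoc, c2.eq, ← mul_assoc]) hw (k0.cm hw w1) q

end PS

/-! ### exclusion of the Suzuki groups -/

omit [Finite G] in
theorem core5 {ρ τ τ' : G} (ρ5 : ρ ^ 5 = 1) (s2 : s * s = 1) (hs : s * ρ * s = ρ⁻¹) (c1 : Commute s τ)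
    (c2 : Commute s τ') (τ2 : τ * τ = 1)
    (v1 : Commute s (MulAut.conj (ρ ^ 2) τ' * MulAut.conj (ρ ^ 1) τ))
    (v2 : Commute s (MulAut.conj (ρ ^ 4) τ' * MulAut.conj (ρ ^ 2) τ))
    (hz : z = MulAut.conj (ρ ^ 3) τ * MulAut.conj (ρ ^ 2) τ * MulAut.conj (ρ ^ 3) τ * MulAut.conj (ρ ^ 2) τ)
    (z1 : Commute ρ z) (z2 : z * z = 1) : Commute ρ τ := by
  have is : s⁻¹ = s := inv_eq_of_mul_eq_one_right s2
  have f1 : ∀ i j p, MulAut.conj (ρ ^ i) (MulAut.conj (ρ ^ j) p) = MulAut.conj (ρ ^ (i + j)) p := fun i j p => by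
    rw [pow_add, map_mul, MulAut.mul_apply]
  have f2 : ∀ i p, MulAut.conj (ρ ^ (i + 5)) p = MulAut.conj (ρ ^ i) p := fun i p => by rw [pow_add, ρ5, mul_one]
  have f3 : ∀ i j p, i + j = 5 → Commute s p → s * MulAut.conj (ρ ^ i) p * s⁻¹ = MulAut.conj (ρ ^ j) p :=
    fun i j p e c => by
      have : s * ρ ^ i * s⁻¹ = ρ ^ j := by
        rw [← conj_pow, is, hs, inv_pow, inv_eq_iff_mul_eq_one, ← pow_add, e, ρ5]
      rw [← this, MulAut.conj_apply, MulAut.conj_apply, ← conj_mul, ← conj_mul, c.eq, mul_inv_cancel_right]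
      group
  have e1 := congrArg (MulAut.conj (ρ ^ 2)) (mul_inv_eq_iff_eq_mul.2 v1.eq)
  have e2 := congrArg (MulAut.conj (ρ ^ 3)) (mul_inv_eq_iff_eq_mul.2 v1.eq)
  have e3 := mul_inv_eq_iff_eq_mul.2 v2.eq
  rw [← conj_mul, f3 2 3 _ rfl c2, f3 1 4 _ rfl c1, map_mul, map_mul, f1, f1, f1, f1] at e1 e2
  rw [← conj_mul, f3 4 1 _ rfl c2, f3 2 3 _ rfl c1] at e3
  have e4 : MulAut.conj (ρ ^ 3) z = z := mul_inv_eq_iff_eq_mul.2 (z1.pow_left 3).eq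
  rw [f2 0, f2 1] at e1
  rw [f2 1, f2 2, f2 0] at e2
  have e5 : MulAut.conj (ρ ^ 4) τ = MulAut.conj (ρ ^ 1) τ * z := by
    have i3 : MulAut.conj (ρ ^ 3) τ = (MulAut.conj (ρ ^ 3) τ)⁻¹ := by
      rw [← map_inv, inv_eq_of_mul_eq_one_right τ2]
    rw [← inv_mul_eq_iff_eq_mul.2 e2, eq_mul_inv_of_mul_eq e1, eq_mul_inv_of_mul_eq e3, hz]
    conv_rhs => rw [i3]
    simp only [mul_assoc, mul_inv_rev, inv_inv, inv_mul_cancel_left]
  have e6 := congrArg (MulAut.conj (ρ ^ 3)) e5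
  rw [map_mul, e4, f1, f1, f2 2, e5, mul_assoc, z2, mul_one, ← f1 1 1] at e6
  have := (MulAut.conj (ρ ^ 1)).injective e6
  rw [pow_one] at this
  exact mul_inv_eq_iff_eq_mul.1 this

/-- the subgroup generated by a block -/
def Bt (T : Set G) (t : G) : Subgroup G := closure {e | e ∈ T ∧ Commute e t}

section
variable {T : Set G} (h : RI T) (tr : ∀ a ∈ T, ∀ b ∈ T, ∀ e ∈ T, Commute a e → Commute b e → Commute a b)
include h tr

theorem bt_cm (ht : t ∈ T) (ha : a ∈ Bt T t) (hb : b ∈ Bt T t) : Commute a b := by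
  have : Bt T t ≤ centralizer (Bt T t : Set G) := (closure_le _).2 fun x hx => by
    rw [Bt, centralizer_closure]
    exact fun y hy => tr y hy.1 x hx.1 t ht hy.2 hx.2
  exact this hb a ha

theorem bt_sq (ht : t ∈ T) (ha : a ∈ Bt T t) : a * a = 1 := by
  induction ha using closure_induction with
  | mem x hx => exact h.sq x hx.1
  | one => exact one_mul 1
  | mul x y hx hy i j => exact sq_mul_cm (bt_cm h tr ht hx hy) i j
  | inv x _ i => rw [← mul_inv_rev, i, inv_one]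

theorem bt_cj (hg : g ∈ closure T) (ht : t ∈ T) (hu : u ∈ T) (k : Commute (g * t * g⁻¹) u) (ha : a ∈ Bt T t) :
    g * a * g⁻¹ ∈ Bt T u :=
  (closure_le ((Bt T u).comap (MulAut.conj g).toMonoidHom)).2 (fun x hx => subset_closure
    ⟨h.cj_mem hg hx.1, tr _ (h.cj_mem hg hx.1) u hu _ (h.cj_mem hg ht) (cm_cj hx.2 g) k.symm⟩) ha

end

theorem sz_core {T : Set G} {O : Subgroup G} {τ : G} (h : RI T)
    (tr : ∀ a ∈ T, ∀ b ∈ T, ∀ e ∈ T, Commute a e → Commute b e → Commute a b) (hs : s ∈ T) (hx : x ∈ T) (o : Od s x)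
    (hr : r ∈ closure T) (rs : Commute r s) (e : r * x * r⁻¹ = x * s * x) (ζx : Commute (s * (r * r)) x)
    (O1 : O ≤ closure T) (O2 : closure T ≤ normalizer (O : Set G))
    (O3 : ∀ q ∈ O, ∀ t ∈ T, Commute (q * t * q⁻¹) t) (τ1 : τ ∈ O) (τ2 : τ ∈ Bt T s) (τ3 : Commute (s * (r * r)) τ)
    (key : ∀ v ∈ O, Commute (s * (r * r)) v → Commute s ((r * v * r⁻¹)⁻¹ * v) →
      (r * v * r⁻¹)⁻¹ * v * ((r * v * r⁻¹)⁻¹ * v) = 1 → Commute s v) : Commute x τ := by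
  have s1 : s ∈ closure T := subset_closure hs
  have ρ1 : ∀ i : ℕ, (s * x) ^ i ∈ closure T := fun i => pow_mem (mul_mem s1 (subset_closure hx)) i
  have e1 : r * (s * x) * r⁻¹ = (s * x) ^ 2 := by rw [← conj_mul, e, rs.eq, pow_two]; group
  have e2 : s * (s * x) * s = (s * x)⁻¹ := by rw [h.sq' hs, h.inv_mul hs hx]
  have ζs : Commute (s * (r * r)) s := (Commute.refl s).mul_left (rs.mul_left rs)
  have ζr : Commute (s * (r * r)) r := rs.symm.mul_left ((Commute.refl r).mul_left (Commute.refl r))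
  have ζρ := ζs.mul_right ζx
  have rr : ∀ p, Commute (s * (r * r)) p → r * (r * p * r⁻¹) * r⁻¹ = s * p * s := fun p k => by
    have := mul_inv_eq_iff_eq_mul.2 k.eq
    conv_rhs => rw [← this]
    simp only [mul_inv_rev, mul_assoc, h.sq' hs, inv_mul_cancel, mul_one]
  have oρ := o.2
  have xρ : x = s * (s * x) := (h.sq' hs x).symm
  generalize s * x = ρ at *
  have ρ5 : ρ ^ 5 = 1 := by
    have := rr ρ ζρ
    rw [e1, ← conj_pow, e1, e2, ← pow_mul, eq_inv_iff_mul_eq_one] at this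
    exact (pow_succ ρ 4).trans this
  have cO : ∀ g ∈ closure T, ∀ q ∈ O, g * q * g⁻¹ ∈ O := fun g hg q hq => (mem_normalizer_iff.1 (O2 hg) q).1 hq
  have sB : s ∈ Bt T s := subset_closure ⟨hs, Commute.refl s⟩
  have τ4 := bt_cj h tr hr hs hs (by rw [rs.eq, mul_inv_cancel_right]) τ2
  have τ5 := cO r hr τ τ1
  have B : ∀ i : ℕ, ∀ p ∈ Bt T s, ρ ^ i * p * (ρ ^ i)⁻¹ ∈ Bt T (ρ ^ i * s * (ρ ^ i)⁻¹) := fun i p hp =>
    bt_cj h tr (ρ1 i) hs (h.cj_mem (ρ1 i) hs) (Commute.refl _) hp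
  have Z : ∀ i k : ℕ, (∀ z, Commute z (ρ ^ k * ρ ^ k) → Commute z ρ) → ∀ p ∈ O, ∀ p' ∈ O,
      p ∈ Bt T (ρ ^ (i + k) * s * (ρ ^ (i + k))⁻¹) → p' ∈ Bt T (ρ ^ i * s * (ρ ^ i)⁻¹) →
      Commute (p * p' * p * p') ρ ∧ p * p' * p * p' * (p * p' * p * p') = 1 ∧ ∀ y ∈ Bt T s, Commute (p * p' * p * p') y :=
    fun i k H p hp p' hp' k1 k2 => by
      have t1 := h.cj_mem (ρ1 (i + k)) hs
      have t2 := h.cj_mem (ρ1 i) hs
      have z1 : p * p' * p * p' ∈ Bt T (ρ ^ (i + k) * s * (ρ ^ (i + k))⁻¹) := by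
        have := mul_mem k1 (bt_cj h tr (O1 hp') t1 t1 (O3 _ hp' _ t1) k1)
        rwa [inv_eq_of_mul_eq_one_right (bt_sq h tr t2 k2), ← mul_assoc, ← mul_assoc] at this
      have z2 : p * p' * p * p' ∈ Bt T (ρ ^ i * s * (ρ ^ i)⁻¹) := by
        have := mul_mem (bt_cj h tr (O1 hp) t2 t2 (O3 _ hp _ t2) k2) k2
        rwa [inv_eq_of_mul_eq_one_right (bt_sq h tr t1 k1)] at this
      generalize p * p' * p * p' = z at *
      have z3 : Commute z ρ := H z (by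
        have := (bt_cm h tr t1 z1 (B _ s sB)).mul_right (bt_cm h tr t2 z2 (B _ s sB))
        have e3 : s * (ρ ^ k)⁻¹ * s = ρ ^ k := by
          nth_rw 2 [← h.inv hs]
          rw [← inv_pow, ← conj_pow, h.inv hs, ← e2, h.cj_cj2 hs]
        rwa [show ρ ^ (i + k) * s * (ρ ^ (i + k))⁻¹ * (ρ ^ i * s * (ρ ^ i)⁻¹) =
          ρ ^ (i + k) * (s * (ρ ^ k)⁻¹ * s) * (ρ ^ i)⁻¹ by group, e3,
          show ρ ^ (i + k) * ρ ^ k * (ρ ^ i)⁻¹ = ρ ^ k * ρ ^ k by group] at this)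
      refine ⟨z3, bt_sq h tr t2 z2, fun y hy => ?_⟩
      have := bt_cm h tr t2 z2 (B i y hy)
      rwa [← mul_inv_eq_iff_eq_mul.2 (z3.pow_right i).eq.symm, cm_cj_iff] at this
  have H1 : ∀ z, Commute z (ρ ^ 1 * ρ ^ 1) → Commute z ρ := fun z k => cm_of_sq oρ (by rwa [pow_one] at k)
  have H2 : ∀ z, Commute z (ρ ^ 2 * ρ ^ 2) → Commute z ρ := fun z k =>
    cm_of_sq oρ (by rw [← pow_two]; exact cm_of_sq (odd_pow oρ 2) k)
  have V : ∀ i : ℕ, (∀ z, Commute z (ρ ^ i * ρ ^ i) → Commute z ρ) →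
      Commute s (ρ ^ (i + i) * (r * τ * r⁻¹) * (ρ ^ (i + i))⁻¹ * (ρ ^ i * τ * (ρ ^ i)⁻¹)) := fun i H => by
    have m1 := cO _ (ρ1 i) τ τ1
    have m2 := B i τ τ2
    have m3 := cO _ (ρ1 (i + i)) _ τ5
    have m4 := B (i + i) _ τ4
    obtain ⟨-, z2, z3⟩ := Z i i H _ m3 _ m1 m4 m2
    have m5 : Commute (s * (r * r)) (ρ ^ i * τ * (ρ ^ i)⁻¹) :=
      ((ζρ.pow_right i).mul_right τ3).mul_right (ζρ.pow_right i).inv_right
    have m6 : ρ ^ (i + i) * (r * τ * r⁻¹) * (ρ ^ (i + i))⁻¹ = r * (ρ ^ i * τ * (ρ ^ i)⁻¹) * r⁻¹ := by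
      rw [← two_mul, pow_mul, ← e1, conj_pow]; group
    have m7 := bt_sq h tr (h.cj_mem (ρ1 i) hs) m2
    have m8 := bt_sq h tr (h.cj_mem (ρ1 _) hs) m4
    rw [m6] at m3 z2 z3 m8 ⊢
    generalize ρ ^ i * τ * (ρ ^ i)⁻¹ = m at *
    have m9 := rr m m5
    have m10 : Commute (s * (r * r)) (r * m * r⁻¹) := (ζr.mul_right m5).mul_right ζr.inv_right
    have mm := mul_mem m3 m1
    have κ : r * m * r⁻¹ * m * (m * s * m⁻¹ * s) * (r * m * r⁻¹ * m)⁻¹ ∈ Bt T s :=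
      bt_cj h tr (O1 mm) hs hs (O3 _ mm s hs) (mul_mem (subset_closure ⟨h.cj_mem (O1 m1) hs, O3 m m1 s hs⟩) sB)
    have e4 : (r * (r * m * r⁻¹ * m) * r⁻¹)⁻¹ * (r * m * r⁻¹ * m) = r * m * r⁻¹ * m * (m * s * m⁻¹ * s) *
        (r * m * r⁻¹ * m)⁻¹ * (r * m * r⁻¹ * m * (r * m * r⁻¹) * m) := by
      rw [← conj_mul, m9]
      generalize r * m * r⁻¹ = m' at *
      have i1 := inv_eq_of_mul_eq_one_right m7
      have i2 := inv_eq_of_mul_eq_one_right m8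
      simp only [mul_inv_rev, i1, i2, h.inv hs, mul_assoc, CA.RankOne.sq_mul m7, CA.RankOne.sq_mul m8]
    refine key _ mm (m10.mul_right m5) ?_ ?_ <;> rw [e4]
    · exact (bt_cm h tr hs sB κ).mul_right (z3 s sB).symm
    · exact sq_mul_cm (z3 _ κ).symm (bt_sq h tr hs κ) z2
  obtain ⟨z1, z2, -⟩ := Z 2 1 H1 _ (cO _ (ρ1 3) τ τ1) _ (cO _ (ρ1 2) τ τ1) (B 3 τ τ2) (B 2 τ τ2)
  have sτ := bt_cm h tr hs sB τ2
  exact xρ ▸ sτ.mul_left (core5 ρ5 (h.sq s hs) e2 sτ (bt_cm h tr hs sB τ4) (bt_sq h tr hs τ2) (V 1 H1) (V 2 H2) rfl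
    z1.symm z2)

theorem PS.no_sz (h : PS D) (hG : GH.{u}) (h2 : D2 D) (hs : s ∈ D) (hx : x ∈ D) (o : Od x s)
    (hr : r ∈ closure (Ec D s ∪ {x})) (tr : Tp r) (e : x * s * x = r⁻¹ * x * r)
    (hζ : ∀ g ∈ closure (Ec D s ∪ {x}), Commute g (s * (r * r))) : False := by
  have ri := h.ot.ri
  have m : ∀ g : G, g ∈ closure D := fun g => h.gen ▸ mem_top g
  have rs : Commute r s := by
    simpa only [mul_inv_cancel_right] using (hζ r hr).mul_right ((Commute.refl r).mul_right (Commute.refl r)).inv_right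
  obtain ⟨b, hb, w, hw, bs, bx, ws, xw, bw⟩ := h.config hs hx o h2
  obtain ⟨s', hs', l⟩ := h.ln s hs
  obtain ⟨R, hR⟩ : ∃ R, R = closure (Ec D s ∪ Ec D w ∪ {x}) := ⟨_, rfl⟩
  have hS : Ec D s ∪ Ec D w ⊆ D := by rintro y (hy | hy) <;> exact hy.1
  have cS : ∀ y ∈ Ec D s ∪ Ec D w, ∀ z ∈ Ec D s ∪ Ec D w, Commute y z := by
    rintro y (hy | hy) z (hz | hz)
    exacts [ec_cm hy hz, hz.2.cm hy.1 (hy.2.cm hw ws).symm, hz.2.cm hy.1 (hy.2.cm hs ws.symm).symm, ec_cm hy hz]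
  have sS : s ∈ Ec D s ∪ Ec D w := Or.inl ⟨hs, Sm.refl⟩
  have sS' : s' ∈ Ec D s ∪ Ec D w := Or.inl ⟨hs', h.ot.sm_of_ln hs hs' l⟩
  have wS : w ∈ Ec D s ∪ Ec D w := Or.inr ⟨hw, Sm.refl⟩
  obtain ⟨B, m1, m2, m3⟩ := h.ot.blkS hS cS sS sS' l hx o hR
  obtain ⟨sub, cl⟩ := h.ot.clS hS hx hR (by
    rintro y (hy | hy)
    exacts [h.ot.od_sm hy.2 hs hy.1 hx o, h.ot.od_sm hy.2 hw hy.1 hx xw])
  have mx : x ∈ D ∩ R := ⟨hx, hR ▸ subset_closure (Or.inr rfl)⟩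
  have X1 : closure (Ec D s ∪ {x}) ≤ R := hR ▸ closure_mono (Set.union_subset_union_left _ Set.subset_union_left)
  have X2 : closure (Ec D w ∪ {x}) ≤ R := hR ▸ closure_mono (Set.union_subset_union_left _ Set.subset_union_right)
  have F : ∀ e ∈ D ∩ R, Commute e s → Commute e b → Sm D s e := fun e he es eb => by_contra fun n => by
    have F1 : ∀ u ∈ Cd D s, Commute u w → Commute u e := fun u hu uw => by
      refine (h.ot.genS (S := Ec D s ∪ Ec D w ∪ {u}) ?_ ?_ (Or.inl sS) (Or.inl sS') l hx o ⟨he.1, closure_mono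
        (Set.union_subset_union_left _ Set.subset_union_left) (hR.le he.2)⟩ es (Or.inr rfl)).symm
      · rintro y (hy | rfl); exacts [hS hy, hu.1]
      have : ∀ y ∈ Ec D s ∪ Ec D w, Commute u y := by
        rintro y (hy | hy); exacts [hy.2.cm hu.1 hu.2, hy.2.cm hu.1 uw]
      rintro y (hy | rfl) z (hz | rfl)
      exacts [cS y hy z hz, (this y hy).symm, this z hz, Commute.refl _]
    obtain ⟨u, hu, us, ue⟩ : ∃ u ∈ D, Commute u s ∧ ¬ Commute u e := by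
      by_contra! q
      exact n (h.ot.sm_of_le h.cls hs he.1 q)
    have c := h.ot.cd s
    have u1 : u ∈ Cd D s := ⟨hu, us⟩
    have e1 : e ∈ Cd D s := ⟨he.1, es⟩
    have w1 : w ∈ Cd D s := ⟨hw, ws⟩
    obtain ⟨g, hg, rfl⟩ := c.ri.cj_of_rt w1 ((rt_of w1 u1 (c.od_of u1 w1 fun q => ue (F1 u u1 q)).symm).trans
      (rt_of u1 e1 (c.od_of u1 e1 ue)))
    exact ri.not_od hb hw ((c.sm_of_cj hg w1 F1).symm.cm ⟨hb, bs⟩ eb.symm) bw
  obtain ⟨⟨t, ht, q, hq, q1, q2, q3⟩, -⟩ := h.loc hw hx xw hG rfl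
  have TD : ∀ y ∈ Cp (D ∩ R) x, y ∈ D ∩ R := cp_sub mx
  have xT : x ∈ Cp (D ∩ R) x := cp_self
  generalize Cp (D ∩ R) x = T at *
  subst cl
  have tT := sub (Or.inr ht)
  have wT := sub wS
  obtain ⟨O, O0, O1, O2, O4⟩ := B.uniqA m1 m2 m3 hG m1 xT (fun q => ri.not_od hx hs (B.ab m1 m2 m3 x xT s m1 q) o)
    m1 rfl tT (B.cm t tT s m1 (cS t (Or.inr ht) s sS)) (X1 hr) (by rw [rs.eq, mul_inv_cancel_right]) tr (X2 hq)
    (((B.cm _ (B.ri.cj_mem (X2 hq) m1) _ (B.ri.cj_mem (X2 hq) wT) (cm_cj ws.symm q)).trans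
      (B.cm _ (B.ri.cj_mem (X2 hq) wT) _ wT q1)).trans (B.cm _ wT _ m1 ws)) q2 e q3
  have cO : ∀ g ∈ closure T, ∀ q ∈ O, g * q * g⁻¹ ∈ O := fun g hg q hq => (mem_normalizer_iff.1 (O2 hg) q).1 hq
  have cmO : ∀ y ∈ D, ∀ z ∈ D, y * z ∈ O → Commute y z := fun y hy z hz k =>
    h.ot.cm_of hy hz fun o => ri.od_ne_one hz o (eq_one_of_odd_two O0 k o.2)
  have O3 : ∀ q ∈ O, ∀ t ∈ T, Commute (q * t * q⁻¹) t := fun q hq t ht => cmO _ (ri.cj_mem (m q) (TD t ht).1) _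
    (TD t ht).1 (by
      simpa only [mul_assoc, B.ri.inv ht] using mul_mem hq (cO t (subset_closure ht) _ (inv_mem hq)))
  have st : s ≠ t := fun q => ri.not_od hb hw ((q ▸ ht).2.symm.cm hb bs) bw
  have sR : s ∈ closure T := subset_closure m1
  have ζR : s * (r * r) ∈ closure T := mul_mem sR (mul_mem (X1 hr) (X1 hr))
  have ζs := hζ s (subset_closure (Or.inl ⟨hs, Sm.refl⟩))
  obtain ⟨u, hu, su, us, uζ⟩ : ∃ u ∈ T, s * u ∈ O ∧ u ≠ s ∧ Commute (s * (r * r)) u := by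
    by_contra! q
    have e1 := ncard_modEq O0 (Y := {u | u ∈ T ∧ s * u ∈ O}) fun p hp y hy => ⟨B.ri.cj_mem (O1 hp) hy.1, by
      simpa only [mul_assoc, inv_mul_cancel_left] using mul_mem (mul_mem (cO s sR p hp) hy.2) (inv_mem hp)⟩
    obtain ⟨k, tr⟩ := tr
    have ζ2 : (s * (r * r)) ^ 2 ^ (k + 1) = 1 := by
      rw [(rs.mul_left rs).symm.mul_pow, ← pow_two, ← pow_mul, mul_comm 2, pow_mul r, pow_succ 2 k, pow_mul r, tr,
        mul_comm, pow_mul, pow_two s, ri.sq s hs]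
      simp
    have e2 := ncard_modEq (isPGroup_zpowers ζ2) (Y := {u | u ∈ T ∧ s * u ∈ O}) fun p hp y hy => by
      have p1 := zpowers_le.2 ζR hp
      obtain ⟨j, rfl⟩ := hp
      refine ⟨B.ri.cj_mem p1 hy.1, ?_⟩
      simpa only [mul_assoc, (ζs.zpow_right j).left_comm] using cO _ p1 _ hy.2
    rw [Set.eq_empty_of_forall_notMem (s := {y | y ∈ _ ∧ ∀ p ∈ O, Commute p y}) fun y hy => ?_] at e1
    · rw [(Set.eq_singleton_iff_unique_mem (s := {y | y ∈ {u | u ∈ T ∧ s * u ∈ O} ∧ ∀ p ∈ zpowers (s * (r * r)),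
        Commute p y})).2 ⟨⟨⟨m1, by rw [ri.sq s hs]; exact one_mem _⟩, by
        rintro _ ⟨j, rfl⟩; exact (ζs.zpow_right j).symm⟩,
        fun y hy => by_contra fun n => q y hy.1.1 hy.1.2 n (hy.2 _ (mem_zpowers _))⟩] at e2
      simpa [Nat.ModEq] using e1.symm.trans e2
    obtain ⟨g, hg, rfl⟩ := B.cls x xT y hy.1.1
    have := hy.2 _ (cO g hg _ O4)
    rw [cm_cj_iff] at this
    exact ri.not_od hx hs (h.ot.cent2 hs ht.1 (cS s sS t (Or.inr ht)) st hx this.symm) o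
  have uD := (TD u hu).1
  have c1 := cmO s hs u uD su
  have e3 : s * (r⁻¹ * r⁻¹) = (s * (r * r))⁻¹ := by
    rw [(rs.mul_left rs).symm.eq, mul_inv_rev, mul_inv_rev, ri.inv hs]
  refine ri.not_od hx hs (h.ot.cent2 hs uD c1 us.symm hx (sz_core (r := r⁻¹) B.ri
    (fun a ha b hb e he k k' => B.ab m1 m2 m3 a ha b hb ((B.cm a ha e he k).trans (B.cm b hb e he k').symm)) m1 xT
    o.symm (inv_mem (X1 hr)) rs.inv_left (by rw [inv_inv, e]) (e3 ▸ (hζ x (subset_closure (Or.inr rfl))).symm.inv_left)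
    O1 O2 O3 su (mul_mem (subset_closure ⟨m1, Commute.refl s⟩) (subset_closure ⟨hu, c1.symm⟩))
    (e3 ▸ (ζs.symm.mul_right uζ).inv_left) fun v hv v1 v2 v3 => ?_)) o
  have eT := B.ri.cj_mem (O1 (inv_mem hv)) m1
  have es := O3 _ (inv_mem hv) s m1
  have rb : Commute r b := mc.1 ((closure_le (centralizer {b})).2 (by
    rintro y (hy | rfl); exacts [mc.2 (hy.2.cm hb bs).symm, mc.2 bx.symm]) hr)
  have e4 : v⁻¹ * s * v⁻¹⁻¹ = s * (r⁻¹ * ((r⁻¹ * v * r⁻¹⁻¹)⁻¹ * v) * r) * ((r⁻¹ * v * r⁻¹⁻¹)⁻¹ * v) := by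
    calc _ = v⁻¹ * (s * (r⁻¹ * r⁻¹)) * (r * r * v) := by group
      _ = _ := by rw [← v1.inv_right.eq]; group
  generalize (r⁻¹ * v * r⁻¹⁻¹)⁻¹ * v = n at v2 v3 e4
  have iv := inv_eq_of_mul_eq_one_right v3
  have y1 := ri.cj_mem (m n) hb
  have y2 : Commute (n * b * n⁻¹) s := (v2.symm.mul_left bs).mul_left v2.symm.inv_left
  have y3 := cm_cj (h.genE hs hx o y1 y2 (f := r⁻¹ * (n * b * n⁻¹) * r⁻¹⁻¹) ⟨ri.cj_mem (m _) y1, by
    have r1 := inv_mem (closure_mono (Set.union_subset_union_left {x} (Set.subset_union_left (t := {n * b * n⁻¹}))) hr)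
    exact mul_mem (mul_mem r1 (subset_closure (Or.inl (Or.inr rfl)))) (inv_mem r1)⟩
    ((rs.inv_left.mul_left y2).mul_left rs.inv_left.inv_left)) n
  have eD := (TD _ eT).1
  have eb : Commute (v⁻¹ * s * v⁻¹⁻¹) b := h.ot.cm_of eD hb fun o => ri.not_od hb eD
    (ri.cm_of_two eD o.symm (Commute.refl b) (by
      have e5 : n * (n * b * n⁻¹) * n⁻¹ = b := by rw [iv]; simp only [← mul_assoc, v3, one_mul, mul_assoc b, mul_one]
      rw [e5] at y3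
      nth_rw 1 [← ri.inv eD]
      rw [e4]
      convert y3.symm using 1
      have e6 : s⁻¹ * b * s = b := by rw [mul_assoc, bs.eq, inv_mul_cancel_left]
      have e7 : r * b * r⁻¹ = b := by rw [rb.eq, mul_inv_cancel_right]
      calc _ = n⁻¹ * r⁻¹ * n⁻¹ * (r * (s⁻¹ * b * s) * r⁻¹) * n * r * n := by group
        _ = _ := by rw [e6, e7, iv]; group)) o.symm
  have k := F _ (TD _ eT) es eb
  by_contra n1
  have l1 := h.ot.o3 h.gen h.cls h.o2 hs eD k fun q => n1 (by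
    rw [inv_inv, mul_assoc, eq_inv_mul_iff_mul_eq] at q; exact q.symm)
  refine (h.ot.inter (closure T)).ri.not_od_of_mem O0 (((closure_le _).2 Set.inter_subset_right).trans O2)
    ⟨l1, mul_mem sR (TD _ eT).2⟩ mx ?_ (h.ot.od_sm (h.ot.sm_of_ln hs l1 (ri.ln_l hs eD)) hs l1 hx o).symm
  simpa only [mul_assoc, inv_inv, ri.inv hs] using mul_mem (cO s sR _ (inv_mem hv)) hv

theorem s5052 (hG : GH.{u}) (hD : IsOddTranspositionSet D) (hcl : IsRootInvolutionClass D) (hO : pCore 2 G = ⊥)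
    (hDD : (D ∩ commutingProducts D).Nonempty) (hc : IsConnectedSet (CommAdj D) D) (hd : d ∈ D) :
    (sameCommutingSubgroup D d : Set G) = sameCommutingClass D d ∪ {1} ∧
    ∀ x ∈ oddPartners D d, L2 (closure (sameCommutingClass D d ∪ {x})) (Nat.card (sameCommutingSubgroup D d)) := by
  have ot := ot_of hD
  have l := ot.ri.exists_ln_of hDD
  have h : PS D := ⟨ot, hD.1.generates, cls_of hcl, hO, ot.ri.all_ln (cls_of hcl) l⟩
  have h2 : D2 D := good D ⊤ D le_rfl (fun _ _ => mem_top _) ot h.cls l hc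
  have eE : sameCommutingClass D d = Ec D d := Set.ext fun _ => mem_E
  have key : ∀ S : Subgroup G, (∀ y, y ∈ S ↔ y = 1 ∨ y ∈ Ec D d) → sameCommutingSubgroup D d = S := fun S k =>
    le_antisymm ((closure_le _).2 fun y hy => (k y).2 (Or.inr (eE ▸ hy))) fun y hy => by
      rcases (k y).1 hy with rfl | hy
      exacts [one_mem _, subset_closure (eE ▸ hy)]
  refine ⟨?_, fun x hx => ?_⟩
  · rw [key ⟨⟨⟨{y | y = 1 ∨ y ∈ Ec D d}, ?_⟩, Or.inl rfl⟩, ?_⟩ fun _ => Iff.rfl, eE]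
    · exact Set.ext fun _ => or_comm
    · rintro a b (rfl | ha) (rfl | hb)
      · exact Or.inl (one_mul 1)
      · exact Or.inr (by rwa [one_mul])
      · exact Or.inr (by rwa [mul_one])
      by_cases e : a = b
      · exact Or.inl (e ▸ ot.ri.sq a ha.1)
      have l := ot.o3 h.gen h.cls hO ha.1 hb.1 (ha.2.symm.trans hb.2) e
      exact Or.inr ⟨l, ha.2.trans (ot.sm_of_ln ha.1 l (ot.ri.ln_l ha.1 hb.1))⟩
    · rintro a (rfl | ha)
      exacts [Or.inl inv_one, Or.inr (by rwa [ot.ri.inv ha.1])]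
  have o : Od x d := Od.symm ⟨hx.2.1.symm, hx.2.2⟩
  rcases (h.loc hd hx.1 o hG rfl).2 with ⟨S, k, i⟩ | ⟨s, hs, r, hr, tr, e, k⟩
  · rwa [key S k, eE]
  have : Ec D d = Ec D s := Set.ext fun y => and_congr_right fun _ => ⟨hs.2.symm.trans, hs.2.trans⟩
  rw [this] at hr k
  exact (h.no_sz hG h2 hs.1 hx.1 (ot.od_sm hs.2 hd hs.1 hx.1 o) hr tr e k).elim

end CA.RInv
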