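import Cfsg.Agent.Lib.Root.R6

/-!
Unipotent subgroups of the unit group of a finite-dimensional algebra; a Baer–Suzuki theorem for them.
-/

set_option autoImplicit false

namespace CA.Quad

open Subgroup Cfsg CA.Amb CA.AmbCore CA.AmbRes CA.Root
open scoped commutatorElement

variable {k R : Type*} [Field k] [Ring R] [Algebra k R] {H K D P G L : Subgroup Rˣ}

/-- The span of the elements `g - 1`, `g ∈ H`. -/
def sp (k : Type*) [Field k] [Algebra k R] (H : Subgroup Rˣ) : Submodule k R :=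
  Submodule.span k {r | ∃ g ∈ H, (g : R) - 1 = r}

/-- `H` is unipotent. -/
def Uni (k : Type*) [Field k] [Algebra k R] (H : Subgroup Rˣ) : Prop := ∃ n, sp k H ^ n = ⊥

theorem mem_sp {g : Rˣ} (hg : g ∈ H) : (g : R) - 1 ∈ sp k H := Submodule.subset_span ⟨g, hg, rfl⟩

theorem sp_le {J : Submodule k R} : sp k H ≤ J ↔ ∀ g ∈ H, (g : R) - 1 ∈ J :=
  ⟨fun h _ hg => h (mem_sp hg), fun h => Submodule.span_le.2 (by rintro _ ⟨g, hg, rfl⟩; exact h g hg)⟩

theorem sp_mono (h : H ≤ K) : sp k H ≤ sp k K := sp_le.2 fun _ hg => mem_sp (h hg)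

theorem sp_mul_le : sp k H * sp k H ≤ sp k H := by
  rw [sp, Submodule.span_mul_span, Submodule.span_le]
  rintro _ ⟨_, ⟨g, hg, rfl⟩, _, ⟨h, hh, rfl⟩, rfl⟩
  have : ((g : R) - 1) * ((h : R) - 1) = ((g * h : Rˣ) - 1) - ((g : R) - 1) - ((h : R) - 1) := by
    rw [Units.val_mul]; noncomm_ring
  show ((g : R) - 1) * ((h : R) - 1) ∈ sp k H
  rw [this]
  exact sub_mem (sub_mem (mem_sp (mul_mem hg hh)) (mem_sp hg)) (mem_sp hh)

theorem pow_le_pow_sub {I J : Submodule k R} (h : I ≤ J) (n : ℕ) : I ^ n ≤ J ^ n := by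
  induction n with
  | zero => simp
  | succ n ih => rw [pow_succ, pow_succ]; exact mul_le_mul' ih h

theorem uni_of {J : Submodule k R} (h : ∀ g ∈ H, (g : R) - 1 ∈ J) {n : ℕ} (hn : J ^ n = ⊥) : Uni k H :=
  ⟨n, le_bot_iff.1 (hn ▸ pow_le_pow_sub (sp_le.2 h) n)⟩

theorem Uni.mono (h : Uni k K) (hle : H ≤ K) : Uni k H :=
  let ⟨_, hn⟩ := h; uni_of (fun _ hg => mem_sp (hle hg)) hn

theorem uni_bot : Uni k (⊥ : Subgroup Rˣ) :=
  uni_of (J := ⊥) (n := 1) (fun g hg => by rw [mem_bot.1 hg]; simp) (pow_one _)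

open scoped Pointwise in
theorem uni_iff_list : Uni k H ↔
    ∃ n, ∀ l : List Rˣ, (∀ g ∈ l, g ∈ H) → l.length = n → (l.map fun g : Rˣ => (g : R) - 1).prod = 0 := by
  refine exists_congr fun n => ?_
  rw [sp, Submodule.span_pow, Submodule.span_eq_bot]
  constructor
  · intro h l hl e
    refine h _ ?_
    subst e
    clear h
    induction l with
    | nil => exact Set.one_mem_one
    | cons a l ih =>
      rw [List.map_cons, List.prod_cons, List.length_cons, _root_.pow_succ']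
      exact Set.mul_mem_mul ⟨a, hl a List.mem_cons_self, rfl⟩ (ih fun g hg => hl g (List.mem_cons_of_mem _ hg))
  · intro h x hx
    obtain ⟨f, rfl⟩ := Set.mem_pow.1 hx
    choose g hg e using fun i => (f i).2
    have := h (List.ofFn g) (by simpa [List.mem_ofFn] using hg) (by simp)
    rw [List.map_ofFn] at this
    rw [← this]
    congr 2
    funext i; exact (e i).symm

/-- the group `1 + J` -/
def sat (J : Submodule k R) (hJ : J * J ≤ J) : Subgroup Rˣ where
  carrier := {g | (g : R) - 1 ∈ J ∧ ((g⁻¹ : Rˣ) : R) - 1 ∈ J}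
  one_mem' := by simp
  inv_mem' := fun h => ⟨h.2, by simpa using h.1⟩
  mul_mem' := by
    have : ∀ a b : Rˣ, (a : R) - 1 ∈ J → (b : R) - 1 ∈ J → ((a * b : Rˣ) : R) - 1 ∈ J := fun a b ha hb => by
      have : ((a * b : Rˣ) : R) - 1 = ((a : R) - 1) * ((b : R) - 1) + ((a : R) - 1) + ((b : R) - 1) := by
        rw [Units.val_mul]; noncomm_ring
      rw [this]
      exact add_mem (add_mem (hJ (Submodule.mul_mem_mul ha hb)) ha) hb
    intro a b ha hb
    exact ⟨this _ _ ha.1 hb.1, by rw [mul_inv_rev]; exact this _ _ hb.2 ha.2⟩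

/-- saturation -/
def st (k : Type*) [Field k] [Algebra k R] (H : Subgroup Rˣ) : Subgroup Rˣ := sat (sp k H) sp_mul_le

theorem le_st (h : sp k K ≤ sp k H) : K ≤ st k H := fun _ hg => ⟨h (mem_sp hg), h (mem_sp (inv_mem hg))⟩

theorem sp_st : sp k (st k H) = sp k H := le_antisymm (sp_le.2 fun _ hg => hg.1) (sp_mono (le_st le_rfl))

theorem le_st_iff : K ≤ st k H ↔ sp k K ≤ sp k H := ⟨fun h => sp_st (k := k) (H := H) ▸ sp_mono h, le_st⟩

theorem Uni.st (h : Uni k H) : Uni k (st k H) := by rwa [Uni, sp_st]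

theorem comm_val (g h : Rˣ) : ((⁅g, h⁆ : Rˣ) : R) - 1 =
    (((g : R) - 1) * ((h : R) - 1) - ((h : R) - 1) * ((g : R) - 1)) * ((g⁻¹ * h⁻¹ : Rˣ) : R) := by
  have : ((h : R) * g) * ((g⁻¹ * h⁻¹ : Rˣ) : R) = 1 := by rw [← Units.val_mul, ← Units.val_mul]; simp
  rw [commutatorElement_def, mul_assoc (g * h), Units.val_mul, Units.val_mul g h]
  generalize ((g⁻¹ * h⁻¹ : Rˣ) : R) = u at this
  calc _ = (g : R) * h * u - h * g * u := by rw [this]
    _ = _ := by noncomm_ring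

theorem mul_unit_mem {J : Submodule k R} (hJ : J * sp k H ≤ J) {x : R} (hx : x ∈ J) {g : Rˣ} (hg : g ∈ H) :
    x * g ∈ J := by
  have : x * g = x * ((g : R) - 1) + x := by noncomm_ring
  rw [this]; exact add_mem (hJ (Submodule.mul_mem_mul hx (mem_sp hg))) hx

theorem pow_mul_sp (j : ℕ) : sp k H ^ (j + 1) * sp k H ≤ sp k H ^ (j + 1) := by
  rw [pow_succ, mul_assoc]; exact mul_le_mul' le_rfl sp_mul_le

theorem Uni.nil (h : Uni k H) : Group.IsNilpotent H := by
  obtain ⟨n, hn⟩ := h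
  refine (Subgroup.nilpotent_iff_finite_descending_central_series _).2 ⟨n, fun j => (sat (sp k H ^ (j + 1)) ?_).subgroupOf H,
    ⟨eq_top_iff.2 fun g _ => ⟨by simpa using mem_sp g.2, by simpa using mem_sp (inv_mem g.2)⟩, ?_⟩, ?_⟩
  · refine le_trans (mul_le_mul' le_rfl ?_) (pow_mul_sp j)
    induction j with
    | zero => simp
    | succ j ih => rw [pow_succ]; exact (mul_le_mul' ih le_rfl).trans sp_mul_le
  · intro x j hx g
    have a1 : ∀ a b : Rˣ, a ∈ H → b ∈ H → (a : R) - 1 ∈ sp k H ^ (j + 1) →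
        ((a : R) - 1) * ((b : R) - 1) - ((b : R) - 1) * ((a : R) - 1) ∈ sp k H ^ (j + 1 + 1) := fun a b _ hb ha =>
      sub_mem (pow_succ (sp k H) (j + 1) ▸ Submodule.mul_mem_mul ha (mem_sp hb))
        (pow_succ' (sp k H) (j + 1) ▸ Submodule.mul_mem_mul (mem_sp hb) ha)
    refine ⟨?_, ?_⟩
    · show ((⁅(x : Rˣ), (g : Rˣ)⁆ : Rˣ) : R) - 1 ∈ _
      rw [comm_val]
      exact mul_unit_mem (pow_mul_sp _) (a1 _ _ x.2 g.2 hx.1) (mul_mem (inv_mem x.2) (inv_mem g.2))
    · show ((⁅(x : Rˣ), (g : Rˣ)⁆⁻¹ : Rˣ) : R) - 1 ∈ _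
      rw [commutatorElement_inv, comm_val]
      exact mul_unit_mem (pow_mul_sp _) (by simpa only [neg_sub] using neg_mem (a1 _ _ x.2 g.2 hx.1))
        (mul_mem (inv_mem g.2) (inv_mem x.2))
  · refine eq_bot_iff.2 fun g hg => ?_
    have := hg.1
    rw [pow_succ, hn, Submodule.bot_mul, Submodule.mem_bot, sub_eq_zero] at this
    exact Subtype.ext (Units.ext this)

theorem conj_mem_sp {g : Rˣ} {x : R} (hx : x ∈ sp k H) : (g : R) * x * (g⁻¹ : Rˣ) ∈ sp k (cj g H) := by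
  induction hx using Submodule.span_induction with
  | mem _ h =>
    obtain ⟨a, ha, rfl⟩ := h
    have := mem_sp (k := k) ((conj_mem_cj (g := g)).2 ha)
    rwa [Units.val_mul, Units.val_mul, show (g : R) * a * (g⁻¹ : Rˣ) - 1 = g * ((a : R) - 1) * (g⁻¹ : Rˣ) by
      simp [mul_sub, sub_mul]] at this
  | zero => simp
  | add x y _ _ h1 h2 => rw [mul_add, add_mul]; exact add_mem h1 h2
  | smul c x _ h => rw [mul_smul_comm, smul_mul_assoc]; exact Submodule.smul_mem _ _ h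

theorem cj_st_le (g : Rˣ) : cj g (st k H) ≤ st k (cj g H) := by
  refine le_st (sp_le.2 fun x hx => ?_)
  obtain ⟨a, ha, rfl⟩ := mem_cj'.1 hx
  have := conj_mem_sp (g := g) ha.1
  rwa [Units.val_mul, Units.val_mul, show (g : R) * a * (g⁻¹ : Rˣ) - 1 = g * ((a : R) - 1) * (g⁻¹ : Rˣ) by
      simp [mul_sub, sub_mul]]

theorem norm_st (h : L ≤ 𝐍 H) : L ≤ 𝐍 (st k H) :=
  le_normalizer_iff_cj.2 fun g hg => by have := cj_st_le (k := k) (H := H) g; rwa [cj_eq_self (h hg)] at this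

theorem Uni.conj (h : Uni k H) (g : Rˣ) : Uni k (cj g H) := by
  obtain ⟨n, hn⟩ := uni_iff_list.1 h
  refine uni_iff_list.2 ⟨n, fun l hl e => ?_⟩
  have := hn (l.map fun a => g⁻¹ * a * g) (by simpa using fun a ha => mem_cj.1 (hl a ha)) (by simpa)
  have e2 : ∀ l : List Rˣ, ((l.map fun a => g⁻¹ * a * g).map fun a : Rˣ => (a : R) - 1).prod =
      ((g⁻¹ : Rˣ) : R) * (l.map fun a : Rˣ => (a : R) - 1).prod * g := fun l => by
    induction l with
    | nil => simp
    | cons a l ih =>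
      rw [List.map_cons, List.map_cons, List.prod_cons, ih, List.map_cons, List.prod_cons]
      simp [mul_sub, sub_mul, mul_assoc]
  rw [e2] at this
  simpa using this

theorem Uni.sup (hD : Uni k D) (hP : Uni k P) (hn : P ≤ 𝐍 D) : Uni k (D ⊔ P) := by
  obtain ⟨n, hDn⟩ := hD
  obtain ⟨m, hPm⟩ := hP
  set A : Submodule k R := Submodule.span k {r | ∃ g ∈ P, (g : R) = r} with hA
  have m1 : ∀ g ∈ P, (g : R) ∈ A := fun g hg => Submodule.subset_span ⟨g, hg, rfl⟩
  have one : (1 : R) ∈ A := by simpa using m1 1 (one_mem _)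
  have a1 : A * A ≤ A := by
    rw [hA, Submodule.span_mul_span, Submodule.span_le]
    rintro _ ⟨_, ⟨g, hg, rfl⟩, _, ⟨h, hh, rfl⟩, rfl⟩
    exact m1 _ (mul_mem hg hh)
  have a2 : A * sp k D ≤ sp k D * A := by
    rw [sp, Submodule.span_mul_span, Submodule.span_le]
    rintro _ ⟨_, ⟨g, hg, rfl⟩, _, ⟨d, hd, rfl⟩, rfl⟩
    have : (g : R) * ((d : R) - 1) = (((g * d * g⁻¹ : Rˣ) : R) - 1) * g := by simp [mul_sub, sub_mul]
    show (g : R) * ((d : R) - 1) ∈ sp k D * A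
    rw [this]
    exact Submodule.mul_mem_mul (mem_sp (conj_mem_of_mem_normalizer (hn hg) hd)) (m1 g hg)
  have a3 : sp k P ≤ A := sp_le.2 fun g hg => sub_mem (m1 g hg) one
  have a4 : ∀ j, sp k P ^ j ≤ A := fun j => by
    induction j with
    | zero => rw [pow_zero, Submodule.one_le]; exact one
    | succ j ih => rw [pow_succ]; exact (mul_le_mul' ih a3).trans a1
  set I := sp k D * A with hI
  have i1 : I * A ≤ I := by rw [hI, mul_assoc]; exact mul_le_mul' le_rfl a1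
  have i2 : A * I ≤ I := by rw [hI, ← mul_assoc]; exact (mul_le_mul' a2 le_rfl).trans i1
  have i3 : ∀ j, I ^ j ≤ sp k D ^ j * A := fun j => by
    induction j with
    | zero => rw [pow_zero, pow_zero, one_mul, Submodule.one_le]; exact one
    | succ j ih =>
      rw [pow_succ, pow_succ, mul_assoc]
      refine (mul_le_mul' ih le_rfl).trans ?_
      rw [mul_assoc]; exact mul_le_mul' le_rfl i2
  have i4 : I * I ≤ I := by
    calc I * I = sp k D * (A * I) := by rw [hI, mul_assoc]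
      _ ≤ sp k D * I := mul_le_mul' le_rfl i2
      _ ≤ I := by rw [hI, ← mul_assoc]; exact mul_le_mul' sp_mul_le le_rfl
  have i5 : ∀ j, (I ⊔ sp k P) ^ j ≤ I ⊔ sp k P ^ j := fun j => by
    induction j with
    | zero => simp
    | succ j ih =>
      rw [pow_succ, pow_succ]
      refine (mul_le_mul' ih le_rfl).trans ?_
      rw [Submodule.sup_mul, Submodule.mul_sup, Submodule.mul_sup]
      exact sup_le (sup_le (i4.trans le_sup_left) (((mul_le_mul' le_rfl a3).trans i1).trans le_sup_left))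
        (sup_le (((mul_le_mul' (a4 j) le_rfl).trans i2).trans le_sup_left) le_sup_right)
  refine uni_of (J := I ⊔ sp k P) (n := m * n) (fun g hg => ?_) (le_bot_iff.1 ?_)
  · obtain ⟨d, hd, p, hp, rfl⟩ := (mem_sup_of_norm' hn).1 hg
    rw [Units.val_mul, show (d : R) * p - 1 = ((d : R) - 1) * p + ((p : R) - 1) by noncomm_ring]
    exact Submodule.add_mem_sup (Submodule.mul_mem_mul (mem_sp hd) (m1 p hp)) (mem_sp hp)
  · rw [pow_mul]
    refine (pow_le_pow_sub (i5 m) n).trans ?_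
    rw [hPm, sup_bot_eq]
    exact (i3 n).trans (by rw [hDn, Submodule.bot_mul])

theorem exists_member_norm {Γ : Type*} [Group Γ] {W : Set (Subgroup Γ)} {P Q A : Subgroup Γ} [Group.IsNilpotent P]
    (hW : ∀ B ∈ W, ∀ g ∈ P, cj g B ∈ W) (hQ : Q ≤ P) (hA : A ∈ W) (h1 : A ≤ P) (h2 : ¬ A ≤ Q) :
    ∃ B ∈ W, B ≤ P ∧ ¬ B ≤ Q ∧ ∀ b ∈ B, ∀ C ∈ W, C ≤ Q → cj b C ≤ Q := by
  by_contra h0
  push Not at h0
  let Z : ℕ → Subgroup Γ := fun j => (Subgroup.upperCentralSeries P j).map P.subtype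
  have z1 : ∀ j, Z j ≤ P := fun j => map_subtype_le _
  have z2 : ∀ j, Q ⊔ Z (j + 1) ≤ 𝐍 (Q ⊔ Z j) := fun j => by
    refine sup_le (norm_sup le_normalizer (hQ.trans ?_)) (norm_of_commutator_le ?_)
    · refine le_normalizer_iff_cj.2 fun g hg => cj_le_iff'.2 ?_
      rintro _ ⟨x, hx, rfl⟩
      exact ⟨_, (inferInstance : (Subgroup.upperCentralSeries P j).Normal).conj_mem x hx ⟨g, hg⟩, rfl⟩
    · rw [commutator_comm, commutator_le]
      rintro _ ⟨x, hx, rfl⟩ y hy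
      exact mem_sup_right ⟨_, hx ⟨y, sup_le hQ (z1 j) hy⟩, rfl⟩
  have key : ∀ j, ∀ B ∈ W, B ≤ Q ⊔ Z j → B ≤ Q := fun j => by
    induction j with
    | zero => intro B _ h; simpa [Z] using h
    | succ j ih =>
      intro B hB h
      by_contra h3
      obtain ⟨b, hb, C, hC, c1, c2⟩ := h0 B hB (h.trans (sup_le hQ (z1 _))) h3
      exact c2 (ih _ (hW C hC b (h.trans (sup_le hQ (z1 _)) hb))
        (cj_le_of_le (c1.trans le_sup_left) (z2 j (h hb))))
  obtain ⟨n, hn⟩ := Group.IsNilpotent.nilpotent P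
  refine h2 (key n A hA (h1.trans (le_trans ?_ le_sup_right)))
  simp only [Z]
  rw [hn, ← MonoidHom.range_eq_map, range_subtype]

/-- A Baer–Suzuki theorem for unipotent groups. -/
theorem uni_iSup [FiniteDimensional k R] {W : Set (Subgroup Rˣ)} (hWG : ∀ A ∈ W, A ≤ G)
    (hWW : ∀ A ∈ W, ∀ B ∈ W, Uni k (A ⊔ B)) (hc : ∀ A ∈ W, ∀ g ∈ G, cj g A ∈ W) : Uni k (⨆ A ∈ W, A) := by
  let Gd : Subgroup Rˣ → Prop := fun P => Uni k P ∧ P ≤ ⨆ A ∈ W, ⨆ _ : A ≤ P, A
  have g1 : ∀ P, Gd P → P ≤ G := fun P h => h.2.trans (iSup₂_le fun A hA => iSup_le fun _ => hWG A hA)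
  have g2 : ∀ P Q, Gd P → Gd Q → Uni k (P ⊔ Q) → Gd (P ⊔ Q) := fun P Q h h' u =>
    ⟨u, sup_le (h.2.trans (iSup₂_mono fun A _ => iSup_le fun e => le_iSup_of_le (e.trans le_sup_left) le_rfl))
      (h'.2.trans (iSup₂_mono fun A _ => iSup_le fun e => le_iSup_of_le (e.trans le_sup_right) le_rfl))⟩
  have g3 : ∀ A ∈ W, Gd A := fun A hA =>
    ⟨(hWW A hA A hA).mono le_sup_left, le_iSup₂_of_le A hA (le_iSup_of_le le_rfl le_rfl)⟩
  have g4 : ∀ D P, Gd D → Gd P → D ≤ P → ¬ P ≤ st k D → ∃ B ∈ W, B ≤ P ∧ ¬ B ≤ st k D ∧ B ≤ 𝐍 (st k D) := by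
    intro D P hD hP hle h
    obtain ⟨A, hA, a1, a2⟩ : ∃ A ∈ W, A ≤ P ∧ ¬ A ≤ st k D := by
      by_contra h0
      push Not at h0
      exact h (hP.2.trans (iSup₂_le fun A hA => iSup_le (h0 A hA)))
    haveI := hP.1.nil
    obtain ⟨B, hB, b1, b2, b3⟩ := exists_member_norm (Q := P ⊓ st k D) (fun B hB g hg => hc B hB g (g1 P hP hg))
      inf_le_left hA a1 fun e => a2 (e.trans inf_le_right)
    refine ⟨B, hB, b1, fun e => b2 (le_inf b1 e), le_normalizer_iff_cj.2 fun b hb => (cj_st_le b).trans ?_⟩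
    refine le_st (sp_st.trans_le (le_st_iff.1 ((cj_mono b hD.2).trans ?_)))
    simp only [cj_iSup]
    exact iSup₂_le fun C hC => iSup_le fun e =>
      (b3 b hb C hC (le_inf (e.trans hle) (e.trans (le_st le_rfl)))).trans inf_le_right
  have key : ∀ (J : Submodule k R) (D : Subgroup Rˣ), sp k D = J → Gd D → ∀ P Q, Gd P → Gd Q → D ≤ P → D ≤ Q →
      Uni k (P ⊔ Q) := fun J => by
    induction J using WellFoundedGT.induction with
    | ind J ih =>
      rintro D rfl hD P Q hP hQ h1 h2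
      by_cases p1 : P ≤ st k D
      · exact hQ.1.st.mono (sup_le (p1.trans (le_st (sp_st.trans_le (sp_mono h2)))) (le_st le_rfl))
      by_cases p2 : Q ≤ st k D
      · exact hP.1.st.mono (sup_le (le_st le_rfl) (p2.trans (le_st (sp_st.trans_le (sp_mono h1)))))
      obtain ⟨A, hA, a1, a2, a3⟩ := g4 D P hD hP h1 p1
      obtain ⟨B, hB, b1, b2, b3⟩ := g4 D Q hD hQ h2 p2
      have u : Uni k (D ⊔ (A ⊔ B)) :=
        (hD.1.st.sup (hWW A hA B hB) (sup_le a3 b3)).mono (sup_le_sup_right (le_st le_rfl) _)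
      have d3 := g2 _ _ hD (g2 _ _ (g3 A hA) (g3 B hB) (hWW A hA B hB)) u
      have lt : ∀ C, ¬ C ≤ st k D → sp k D < sp k (D ⊔ C) := fun C h =>
        lt_of_le_of_ne (sp_mono le_sup_left) fun e => h (le_st (e ▸ sp_mono le_sup_right))
      have u1 := ih _ (lt A a2) _ rfl (g2 _ _ hD (g3 A hA) (u.mono (sup_le_sup_left le_sup_left _))) P _ hP d3
        (sup_le h1 a1) (sup_le_sup_left le_sup_left _)
      exact (ih _ (lt B b2) _ rfl (g2 _ _ hD (g3 B hB) (u.mono (sup_le_sup_left le_sup_right _))) _ Q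
        (g2 _ _ hP d3 u1) hQ ((sup_le_sup_left le_sup_right _).trans le_sup_right) (sup_le h2 b1)).mono
        (sup_le_sup_right le_sup_left _)
  have g0 : Gd ⊥ := ⟨uni_bot, bot_le⟩
  obtain ⟨_, ⟨P, hP, rfl⟩, hm⟩ := (wellFounded_gt (α := Submodule k R)).has_min {J | ∃ P, Gd P ∧ sp k P = J} ⟨_, ⊥, g0, rfl⟩
  refine hP.1.st.mono (iSup₂_le fun A hA => le_st ?_)
  have := hm _ ⟨_, g2 _ _ hP (g3 A hA) (key _ ⊥ rfl g0 _ _ hP (g3 A hA) bot_le bot_le), rfl⟩
  exact (sp_mono le_sup_right).trans (eq_of_le_of_not_lt (sp_mono le_sup_left) this).ge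

/-- `L` has no non-trivial unipotent normal subgroup. -/
def Red (k : Type*) [Field k] [Algebra k R] (L : Subgroup Rˣ) : Prop :=
  ∀ P ≤ L, L ≤ 𝐍 P → Uni k P → P = ⊥

theorem Red.of_family [FiniteDimensional k R] (h : Red k L) {W : Set (Subgroup Rˣ)} (hWG : ∀ A ∈ W, A ≤ L)
    (hWW : ∀ A ∈ W, ∀ B ∈ W, Uni k (A ⊔ B)) (hc : ∀ A ∈ W, ∀ g ∈ L, cj g A ∈ W) {A : Subgroup Rˣ} (hA : A ∈ W) :
    A = ⊥ := by
  refine le_bot_iff.1 ((le_iSup₂_of_le A hA le_rfl).trans
    (h _ (iSup₂_le hWG) (le_normalizer_iff_cj.2 fun g hg => ?_) (uni_iSup hWG hWW hc)).le)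
  simp only [cj_iSup]
  exact iSup₂_le fun B hB => le_iSup₂_of_le _ (hc B hB g hg) le_rfl

theorem Red.of_norm [FiniteDimensional k R] (h : Red k L) (h1 : K ≤ L) (h2 : L ≤ 𝐍 K) : Red k K := by
  intro P p1 p2 p3
  refine h.of_family (W := {P | P ≤ K ∧ K ≤ 𝐍 P ∧ Uni k P}) (fun A hA => hA.1.trans h1)
    (fun A hA B hB => hA.2.2.sup hB.2.2 (hB.1.trans hA.2.1)) (fun A hA g hg => ⟨cj_le_of_le hA.1 (h2 hg), ?_,
      hA.2.2.conj g⟩) ⟨p1, p2, p3⟩
  rw [← cj_normalizer, ← cj_eq_self (h2 hg)]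
  exact cj_mono g hA.2.1

section End

variable {M : Type*} [AddCommGroup M] [Module k M]

theorem isUnip_iff {H : Subgroup (Module.End k M)ˣ} : IsUnipotentOn H ↔ Uni k H := by
  rw [uni_iff_list, IsUnipotentOn]
  simp only [List.bind_eq_flatMap, List.pure_def, ← List.map_eq_flatMap, List.map_map]
  rfl

theorem red_of_irr {G : Subgroup (Module.End k M)ˣ} (hG : IsIrreducibleFor G) : Red k G := by
  intro P _ hn ⟨n, hP⟩
  let U : Submodule k M := ⨆ f ∈ sp k P, LinearMap.range f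
  have hU : ∀ f ∈ sp k P, ∀ m, f m ∈ U := fun f hf m => (le_iSup₂_of_le (f := fun f _ => LinearMap.range f) f hf
    le_rfl : LinearMap.range f ≤ U) ⟨m, rfl⟩
  rcases hG.2 U (fun g hg w hw => by
    refine (iSup₂_le (f := fun f _ => LinearMap.range f) fun f hf => ?_ : U ≤ U.comap (g : Module.End k M)) hw
    rintro _ ⟨m, rfl⟩
    have := conj_mem_sp (g := g) hf
    rw [cj_eq_self (hn hg)] at this
    simpa [← Module.End.mul_apply] using hU _ this ((g : Module.End k M) m)) with h | h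
  · refine eq_bot_iff.2 fun g hg => mem_bot.2 (Units.ext (sub_eq_zero.1 (LinearMap.ext fun m => ?_)))
    have := hU _ (mem_sp hg) m
    rwa [h] at this
  · obtain ⟨m, hm⟩ := hG.1
    have key : ∀ j, (⊤ : Submodule k M) ≤ ⨆ f ∈ sp k P ^ j, LinearMap.range f := fun j => by
      induction j with
      | zero => exact le_iSup₂_of_le 1 (Submodule.one_le.1 (pow_zero _).ge) (LinearMap.range_id).ge
      | succ j ih =>
        refine ih.trans (iSup₂_le fun f hf => ?_)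
        rw [LinearMap.range_eq_map, ← h, Submodule.map_iSup]
        refine iSup_le fun f' => ?_
        rw [Submodule.map_iSup]
        refine iSup_le fun hf' => le_iSup₂_of_le (f * f') (pow_succ (sp k P) j ▸ Submodule.mul_mem_mul hf hf') ?_
        rw [← LinearMap.range_comp]; rfl
    have := key n (Submodule.mem_top (x := m))
    simp [hP] at this
    exact absurd this hm

end End

end CA.Quad
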