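import Cfsg.Agent.Lib.Root.Q1
import Cfsg.Agent.S0801

/-!
`⟨u(k), l(kz)⟩ = SL₂(k(z))` for `z` algebraic over a field `k` of characteristic not two with more than three
elements, and the analogue for finite-dimensional algebras `k[z]` with `z` invertible.
-/

set_option autoImplicit false

namespace CA.Quad

open Subgroup Cfsg CA.Amb CA.AmbCore CA.AmbRes CA.Root CA.SL2Unip CA.SL2Embed Polynomial
open scoped commutatorElement MatrixGroups Matrix

section Frac

variable {R : Type*} [CommRing R]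

/-- one step of the Stieltjes continued fraction algorithm -/
noncomputable def step (v : R[X] × R[X]) : R[X] × R[X] :=
  (C (v.2.coeff 0) * v.2, divX (C (v.2.coeff 0) * v.1 - C (v.1.coeff 0) * v.2))

/-- the product of the leading terms met in the algorithm -/
noncomputable def dl : ℕ → R[X] × R[X] → R
  | 0, v => v.1.coeff 0
  | j + 1, v => v.2.coeff 0 * dl j (step v)

theorem dl_map {S : Type*} [CommRing S] (φ : R →+* S) (j : ℕ) : ∀ v : R[X] × R[X],
    dl j (v.1.map φ, v.2.map φ) = φ (dl j v) := by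
  induction j with
  | zero => intro v; simp [dl]
  | succ j ih =>
    intro v
    rw [dl, dl, map_mul, ← ih, coeff_map]
    congr 2
    refine Prod.ext (by simp [step]) ?_
    ext i; simp [step, coeff_divX]

/-- degree bound -/
def Lt (p : R[X]) (m : ℕ) : Prop := ∀ i, m ≤ i → p.coeff i = 0

/-- degree bounds at level `j` -/
def Dg (j : ℕ) (v : R[X] × R[X]) : Prop := Lt v.1 (j / 2 + 1) ∧ Lt v.2 ((j + 1) / 2)

theorem Dg.step {j : ℕ} {v : R[X] × R[X]} (h : Dg (j + 1) v) : Dg j (step v) :=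
  ⟨fun i hi => by simp [Quad.step, h.2 i (by omega)], fun i hi => by
    simp [Quad.step, coeff_divX, h.1 (i + 1) (by omega), h.2 (i + 1) (by omega)]⟩

variable {k : Type*} [Field k]

theorem dl_smul (j : ℕ) : ∀ (a : k) (v : k[X] × k[X]), a ≠ 0 → dl j v ≠ 0 → dl j (C a * v.1, C a * v.2) ≠ 0 := by
  induction j with
  | zero => intro a v ha h; simpa [dl, ha] using h
  | succ j ih =>
    intro a v ha h
    rw [dl] at h ⊢
    have := ih (a * a) (step v) (mul_ne_zero ha ha) (right_ne_zero_of_mul h)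
    refine mul_ne_zero (by simpa [ha] using left_ne_zero_of_mul h) ?_
    convert this using 2
    refine Prod.ext (by simp [step]; ring) ?_
    ext i; simp only [step, coeff_divX, coeff_C_mul, coeff_sub]; ring

theorem exists_reg (j : ℕ) : ∃ v : k[X] × k[X], Dg j v ∧ dl j v ≠ 0 ∧ v.1.coeff 0 ≠ 0 := by
  induction j with
  | zero => exact ⟨(1, 0), ⟨fun i hi => by simp [coeff_one]; omega, fun i _ => rfl⟩, by simp [dl], by simp⟩
  | succ j ih =>
    obtain ⟨v, h1, h2, h3⟩ := ih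
    refine ⟨(X * v.2 + v.1, v.1), ⟨fun i hi => ?_, fun i hi => h1.1 i (by omega)⟩, ?_, by simpa using h3⟩
    · obtain ⟨i, rfl⟩ : ∃ m, i = m + 1 := ⟨i - 1, by omega⟩
      simp [coeff_X_mul, h1.1 (i + 1) (by omega), h1.2 i (by omega)]
    · rw [dl]
      refine mul_ne_zero h3 ?_
      convert dl_smul j _ v h3 h2 using 2
      refine Prod.ext rfl ?_
      ext i; simp [step, coeff_divX, coeff_X_mul, mul_add]

theorem dl_poly (j : ℕ) (v w : k[X] × k[X]) :
    ∃ F : k[X], ∀ s : k, F.eval s = dl j (v.1 + C s * w.1, v.2 + C s * w.2) := by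
  refine ⟨dl j (v.1.map C + C X * w.1.map C, v.2.map C + C X * w.2.map C), fun s => ?_⟩
  rw [← coe_evalRingHom, ← dl_map]
  have : (evalRingHom s).comp C = RingHom.id k := by ext; simp
  simp [Polynomial.map_map, this]

end Frac

variable {k : Type*} [Field k]

section Rg

variable {A : Type*} [CommRing A]

/-- upper unitriangular matrix -/
def uu (b : A) : SL(2, A) := mk2 1 b 0 1 (by simp)

/-- lower unitriangular matrix -/
def ll (c : A) : SL(2, A) := mk2 1 0 c 1 (by simp)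

theorem ex4 (g : SL(2, A)) : ∃ (a b c d : A) (h : a * d - b * c = 1), g = mk2 a b c d h :=
  ⟨_, _, _, _, by rw [← Matrix.det_fin_two]; exact g.2, Subtype.ext (Matrix.eta_fin_two g.1)⟩

theorem mk_mul (a b c d a' b' c' d' : A) (h : a * d - b * c = 1) (h' : a' * d' - b' * c' = 1) :
    mk2 a b c d h * mk2 a' b' c' d' h' = mk2 (a * a' + b * c') (a * b' + b * d') (c * a' + d * c') (c * b' + d * d')
      (by linear_combination (a' * d' - b' * c') * h + h') := Subtype.ext (Matrix.mul_fin_two ..)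

theorem mk_inv (a b c d : A) (h : a * d - b * c = 1) :
    (mk2 a b c d h)⁻¹ = mk2 d (-b) (-c) a (by linear_combination h) := by
  rw [Matrix.SpecialLinearGroup.SL2_inv_expl]; rfl

theorem mk_eq {a b c d a' b' c' d' : A} {h : a * d - b * c = 1} {h' : a' * d' - b' * c' = 1} :
    mk2 a b c d h = mk2 a' b' c' d' h' ↔ a = a' ∧ b = b' ∧ c = c' ∧ d = d' := by
  refine ⟨fun e => ?_, by rintro ⟨rfl, rfl, rfl, rfl⟩; rfl⟩
  have := congrArg Subtype.val e
  exact ⟨congrFun (congrFun this 0) 0, congrFun (congrFun this 0) 1, congrFun (congrFun this 1) 0,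
    congrFun (congrFun this 1) 1⟩

theorem mk_map {A' : Type*} [CommRing A'] (f : A →+* A') (a b c d : A) (h : a * d - b * c = 1) :
    Matrix.SpecialLinearGroup.map f (mk2 a b c d h) = mk2 (f a) (f b) (f c) (f d)
      (by rw [← map_mul, ← map_mul, ← map_sub, h, map_one]) := by
  ext i j; fin_cases i <;> fin_cases j <;> rfl

theorem one_mk : (1 : SL(2, A)) = mk2 1 0 0 1 (by simp) := Subtype.ext Matrix.one_fin_two

theorem uu_add (a b : A) : uu (a + b) = uu a * uu b := by simp [uu, mk_mul, mk_eq, add_comm]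
theorem ll_add (a b : A) : ll (a + b) = ll a * ll b := by simp [ll, mk_mul, mk_eq]
theorem uu_neg (a : A) : uu (-a) = (uu a)⁻¹ := by simp [uu, mk_inv, mk_eq]
theorem ll_neg (a : A) : ll (-a) = (ll a)⁻¹ := by simp [ll, mk_inv, mk_eq]
theorem uu_map {A' : Type*} [CommRing A'] (f : A →+* A') (a : A) :
    Matrix.SpecialLinearGroup.map f (uu a) = uu (f a) := by simp [uu, mk_map, mk_eq]
theorem ll_map {A' : Type*} [CommRing A'] (f : A →+* A') (a : A) :
    Matrix.SpecialLinearGroup.map f (ll a) = ll (f a) := by simp [ll, mk_map, mk_eq]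

theorem conj_uu (p q r s t : A) (h : p * s - q * r = 1) : mk2 p q r s h * uu t * (mk2 p q r s h)⁻¹ =
    mk2 (1 - t * p * r) (t * p ^ 2) (-t * r ^ 2) (1 + t * p * r) (by ring) := by
  rw [uu, mk_inv, mk_mul, mk_mul, mk_eq]
  exact ⟨by linear_combination h, by ring, by ring, by linear_combination h⟩

theorem conj_ll (p q r s t : A) (h : p * s - q * r = 1) : mk2 p q r s h * ll t * (mk2 p q r s h)⁻¹ =
    mk2 (1 + t * q * s) (-t * q ^ 2) (t * s ^ 2) (1 - t * q * s) (by ring) := by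
  rw [ll, mk_inv, mk_mul, mk_mul, mk_eq]
  exact ⟨by linear_combination h, by ring, by ring, by linear_combination h⟩

theorem ulu (a b : A) : uu a * ll b * uu a = mk2 (1 + a * b) (a * (2 + a * b)) b (1 + a * b) (by ring) := by
  rw [uu, ll, mk_mul, mk_mul, mk_eq]
  exact ⟨by ring, by ring, by ring, by ring⟩

variable {H : Subgroup SL(2, A)}

theorem swap_mem {a b : A} (h : a * b = -1) (ha : uu a ∈ H) (hb : ll b ∈ H) :
    (∀ v, uu v ∈ H → ll (b ^ 2 * v) ∈ H) ∧ ∀ w, ll w ∈ H → uu (a ^ 2 * w) ∈ H := by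
  have hn := mul_mem (mul_mem ha hb) ha
  refine ⟨fun v hv => ?_, fun w hw => ?_⟩
  · have := inv_mem (mul_mem (mul_mem hn hv) (inv_mem hn))
    rw [ulu, conj_uu, mk_inv] at this
    convert this using 1
    rw [ll, mk_eq]
    exact ⟨by linear_combination (-v * b) * h, by linear_combination (v * (1 + a * b)) * h, by ring,
      by linear_combination (v * b) * h⟩
  · have := inv_mem (mul_mem (mul_mem hn hw) (inv_mem hn))
    rw [ulu, conj_ll, mk_inv] at this
    convert this using 1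
    rw [uu, mk_eq]
    exact ⟨by linear_combination (w * a * (2 + a * b)) * h, by linear_combination (-w * a ^ 2 * (3 + a * b)) * h,
      by linear_combination (w * (1 + a * b)) * h, by linear_combination (-w * a * (2 + a * b)) * h⟩

variable [Algebra k A] {z : A}

/-- the end game: both unitriangular groups lie in `H` -/
theorem all_mem (h2 : (2 : k) ≠ 0) (hgen : ∀ a : A, ∃ g : k[X], aeval z g = a)
    (hu : ∀ c : k, uu (algebraMap k A c) ∈ H) (hl : ∀ c : k, ll (algebraMap k A c * z) ∈ H) (h1 : ll (-1) ∈ H)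
    {c : k} (c0 : c ≠ 0) {b : A} (hb : algebraMap k A c * z * b = -1) (hb' : ll b ∈ H) (a : A) : uu a ∈ H ∧ ll a ∈ H := by
  have s1 := swap_mem (a := 1) (one_mul _) (by simpa using hu 1) h1
  have e : ∀ v, uu v ∈ H ↔ ll v ∈ H := fun v => ⟨fun h => by simpa using s1.1 v h, fun h => by simpa using s1.2 v h⟩
  have c1 : ∀ (x : k) (v : A), uu v ∈ H → uu (algebraMap k A x ^ 2 * v) ∈ H := fun x v hv => by
    by_cases x0 : x = 0
    · simpa [x0] using hu 0
    · exact (swap_mem (b := algebraMap k A (-x⁻¹)) (by rw [← map_mul]; simp [x0]) (hu x) ((e _).1 (hu _))).2 v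
        ((e v).1 hv)
  have c2 : ∀ (x : k) (v : A), uu v ∈ H → uu (algebraMap k A x * v) ∈ H := fun x v hv => by
    have := mul_mem (c1 ((x + 1) / 2) v hv) (inv_mem (c1 ((x - 1) / 2) v hv))
    rw [← uu_neg, ← uu_add, ← sub_eq_add_neg, ← sub_mul, ← map_pow, ← map_pow, ← map_sub] at this
    convert this using 4
    field_simp; ring
  have c3 : ∀ v : A, uu v ∈ H → uu (z ^ 2 * v) ∈ H := fun v hv => by
    have := c2 ((c ^ 2)⁻¹) _ ((swap_mem hb ((e _).2 (hl c)) hb').2 v ((e v).1 hv))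
    rwa [mul_pow, ← map_pow, mul_assoc, ← mul_assoc, ← map_mul, inv_mul_cancel₀ (pow_ne_zero 2 c0), map_one,
      one_mul] at this
  have c4 : ∀ n : ℕ, uu (z ^ n) ∈ H ∧ uu (z ^ (n + 1)) ∈ H := fun n => by
    induction n with
    | zero => exact ⟨by simpa using hu 1, by simpa using (e _).2 (hl 1)⟩
    | succ n ih => exact ⟨ih.2, by rw [add_assoc, add_comm, pow_add]; exact c3 _ ih.1⟩
  rw [← e, and_self]
  obtain ⟨g, rfl⟩ := hgen a
  induction g using Polynomial.induction_on' with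
  | add p q h1 h2 => rw [map_add, uu_add]; exact mul_mem h1 h2
  | monomial n x => rw [aeval_monomial]; exact c2 _ _ (c4 n).1

end Rg

section Fld

variable {K : Type*} [Field K] [Algebra k K] {z : K} {H : Subgroup SL(2, K)}

theorem orbit_of_dl (hz : z ≠ 0) (hu : ∀ c : k, u (algebraMap k K c) ∈ H) (hl : ∀ c : k, l (algebraMap k K c * z) ∈ H)
    (n : ℕ) : ∀ v : k[X] × k[X], Dg (2 * n) v → dl (2 * n) v ≠ 0 → ∃ a : k, a ≠ 0 ∧ ∃ h ∈ H,
      aeval z⁻¹ v.1 = algebraMap k K a * z⁻¹ ^ n * h.1 0 0 ∧ aeval z⁻¹ v.2 = algebraMap k K a * z⁻¹ ^ n * h.1 1 0 := by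
  have st : ∀ v : k[X] × k[X], aeval z⁻¹ (step v).1 = algebraMap k K (v.2.coeff 0) * aeval z⁻¹ v.2 ∧
      z⁻¹ * aeval z⁻¹ (step v).2 = algebraMap k K (v.2.coeff 0) * aeval z⁻¹ v.1 -
        algebraMap k K (v.1.coeff 0) * aeval z⁻¹ v.2 := fun v => by
    refine ⟨by simp [step], ?_⟩
    have := congrArg (aeval z⁻¹) (X_mul_divX_add (C (v.2.coeff 0) * v.1 - C (v.1.coeff 0) * v.2))
    simpa [step, mul_comm] using this
  induction n with
  | zero =>
    intro v h1 h2
    refine ⟨_, h2, 1, one_mem _, ?_, ?_⟩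
    · have : v.1 = C (v.1.coeff 0) := by
        ext i; rw [coeff_C]; split_ifs with h
        exacts [by rw [h], h1.1 i (by omega)]
      rw [this]; simp [dl]
    · have : v.2 = 0 := by ext i; exact h1.2 i (by omega)
      rw [this]; simp
  | succ n ih =>
    intro v h1 h2
    rw [mul_add, mul_one] at h1 h2
    rw [dl, dl] at h2
    have q0 := left_ne_zero_of_mul h2
    have q1 := left_ne_zero_of_mul (right_ne_zero_of_mul h2)
    obtain ⟨a, a0, h, hh, e1, e2⟩ := ih _ h1.step.step (right_ne_zero_of_mul (right_ne_zero_of_mul h2))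
    obtain ⟨s1, s2⟩ := st v
    obtain ⟨s3, s4⟩ := st (step v)
    generalize (step v).2.coeff 0 = b at *
    generalize (step v).1.coeff 0 = c at *
    generalize v.2.coeff 0 = b' at *
    generalize v.1.coeff 0 = c' at *
    generalize aeval z⁻¹ (step v).2 = Q1 at *
    generalize aeval z⁻¹ v.1 = P0 at *
    generalize aeval z⁻¹ v.2 = Q0 at *
    have f1 : algebraMap k K b ≠ 0 := by simpa using q1
    have f2 : algebraMap k K b' ≠ 0 := by simpa using q0
    refine ⟨a / (b * b'), div_ne_zero a0 (mul_ne_zero q1 q0), u (algebraMap k K (c' / b')) *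
      (l (algebraMap k K (c / b) * z) * h), mul_mem (hu _) (mul_mem (hl _) hh), ?_⟩
    have g2 : Q0 = algebraMap k K (a / (b * b')) * z⁻¹ ^ (n + 1) *
        (algebraMap k K (c / b) * z * h.1 0 0 + h.1 1 0) := by
      rw [e1] at s3
      rw [e2, s1] at s4
      simp only [map_div₀, map_mul, pow_succ]
      generalize z⁻¹ ^ n = ζ at *
      field_simp
      field_simp at s4
      linear_combination (-algebraMap k K b) * s4 - algebraMap k K c * z * s3
    refine ⟨?_, by simpa [sl_mul_apply] using g2⟩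
    simp only [sl_mul_apply, u_coe, l_coe, Matrix.of_apply, Matrix.cons_val', Matrix.cons_val_zero,
      Matrix.cons_val_one, Matrix.cons_val_fin_one, one_mul, zero_mul, add_zero]
    rw [mul_add, mul_left_comm _ (algebraMap k K (c' / b')), ← g2]
    rw [e1] at s3
    simp only [map_div₀, map_mul, pow_succ]
    generalize z⁻¹ ^ n = ζ at *
    field_simp
    field_simp at s2
    linear_combination (-algebraMap k K b) * s2 - s3

theorem u_mem_inf [Infinite k] [FiniteDimensional k K] (h2 : (2 : k) ≠ 0) (hz : z ≠ 0)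
    (hgen : ∀ a : K, ∃ g : k[X], aeval z g = a)
    (hu : ∀ c : k, u (algebraMap k K c) ∈ H) (hl : ∀ c : k, l (algebraMap k K c * z) ∈ H) (a : K) : u a ∈ H := by
  have hi : IsIntegral k z⁻¹ := Algebra.IsIntegral.isIntegral _
  set n := (minpoly k z⁻¹).natDegree
  have lift : ∀ y : K, ∃ p : k[X], Lt p n ∧ aeval z⁻¹ p = y := fun y => by
    obtain ⟨g, rfl⟩ := hgen y
    have h1 : z ∈ (aeval (R := k) z⁻¹).range := by
      simpa using Subalgebra.inv_mem_of_algebraic (aeval (R := k) z⁻¹).range (x := ⟨z⁻¹, X, by simp⟩) hi.isAlgebraic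
    obtain ⟨p, hp⟩ := (Algebra.adjoin_le (Set.singleton_subset_iff.2 h1) : _ ≤ (aeval (R := k) z⁻¹).range)
      (aeval_mem_adjoin_singleton k z (p := g))
    refine ⟨p %ₘ minpoly k z⁻¹, fun i hi' => coeff_eq_zero_of_degree_lt ((degree_modByMonic_lt p
      (minpoly.monic hi)).trans_le (degree_le_natDegree.trans (by exact_mod_cast hi'))), ?_⟩
    rw [aeval_modByMonic_eq_self_of_root (minpoly.aeval _ _)]; exact hp
  have key : ∀ (t : K) (c : k), u (t ^ 2 * algebraMap k K c) ∈ H := fun t c => by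
    by_cases t0 : t = 0
    · simpa [t0] using hu 0
    obtain ⟨v, v1, v2, -⟩ := exists_reg (k := k) (2 * n)
    obtain ⟨p2, l2, e2⟩ := lift (t⁻¹ * aeval z⁻¹ v.1)
    obtain ⟨q2, l2', e2'⟩ := lift (t⁻¹ * aeval z⁻¹ v.2)
    obtain ⟨p3, l3, e3⟩ := lift (t * aeval z⁻¹ v.1)
    obtain ⟨q3, l3', e3'⟩ := lift (t * aeval z⁻¹ v.2)
    obtain ⟨F1, f1⟩ := dl_poly (2 * n) v (p2 - v.1, q2 - v.2)
    obtain ⟨F2, f2⟩ := dl_poly (2 * n) (p3, q3) (v.1 - p3, v.2 - q3)
    have n1 : F1 ≠ 0 := fun e => v2 (by simpa [e] using (f1 0).symm)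
    have n2 : F2 ≠ 0 := fun e => v2 (by simpa [e] using (f2 1).symm)
    obtain ⟨s, hs⟩ : ∃ s, (F1 * F2).eval s ≠ 0 := by
      by_contra h0
      push Not at h0
      exact mul_ne_zero n1 n2 (Polynomial.funext (by simpa using h0))
    rw [eval_mul, f1, f2] at hs
    obtain ⟨a1, a10, h1, m1, b1, b1'⟩ := orbit_of_dl hz hu hl n _ ⟨fun i hi => by
      simp [v1.1 i hi, l2 i (by omega)], fun i hi => by simp [v1.2 i hi, l2' i (by omega)]⟩ (left_ne_zero_of_mul hs)
    obtain ⟨a2, a20, h3, m2, b2, b2'⟩ := orbit_of_dl hz hu hl n _ ⟨fun i hi => by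
      simp [v1.1 i hi, l3 i (by omega)], fun i hi => by simp [v1.2 i hi, l3' i (by omega)]⟩ (right_ne_zero_of_mul hs)
    simp only [map_add, map_mul, map_sub, aeval_C, e2, e2', e3, e3'] at b1 b1' b2 b2'
    have f1 : algebraMap k K a1 ≠ 0 := by simpa using a10
    have f2 : algebraMap k K a2 ≠ 0 := by simpa using a20
    have f3 : z⁻¹ ^ n ≠ 0 := pow_ne_zero _ (inv_ne_zero hz)
    generalize z⁻¹ ^ n = ζ at *
    generalize aeval z⁻¹ v.1 = P0 at *
    generalize aeval z⁻¹ v.2 = Q0 at *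
    have g1 : h3.1 0 0 = algebraMap k K (a1 / a2) * t * h1.1 0 0 := by
      rw [map_div₀]; field_simp; field_simp at b1
      refine mul_left_cancel₀ f3 ?_
      linear_combination b1 - b2
    have g2 : h3.1 1 0 = algebraMap k K (a1 / a2) * t * h1.1 1 0 := by
      rw [map_div₀]; field_simp; field_simp at b1'
      refine mul_left_cancel₀ f3 ?_
      linear_combination b1' - b2'
    have d := SL2Basic.det_eq h1
    have hB : h1⁻¹ * h3 ∈ B K := by
      rw [mem_B, sl_mul_apply, sl_inv_10, sl_inv_11, g1, g2]; ring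
    have := mul_mem (mul_mem (mul_mem (inv_mem m1) m2) (hu ((a2 / a1) ^ 2 * c))) (inv_mem (mul_mem (inv_mem m1) m2))
    rw [conj_u_of_mem_B hB, sl_mul_apply, sl_inv_00, sl_inv_01, g1, g2] at this
    convert this using 2
    simp only [map_mul, map_pow, map_div₀]
    field_simp
    linear_combination (-algebraMap k K c) * (h1.1 0 0 * h1.1 1 1 - h1.1 0 1 * h1.1 1 0 + 1) * d
  have f4 : algebraMap k K 4 ≠ 0 := by
    rw [Ne, map_eq_zero, show (4 : k) = 2 * 2 by norm_num]; exact mul_ne_zero h2 h2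
  have := mul_mem (key (a + 1) 4⁻¹) (key (a - 1) (-4⁻¹))
  rw [← u_add] at this
  convert this using 2
  rw [map_neg, map_inv₀]
  have f5 : algebraMap k K 4 = 4 := map_ofNat _ 4
  rw [f5] at f4 ⊢
  field_simp; ring

theorem field_case [FiniteDimensional k K] (h2 : (2 : k) ≠ 0) (h3 : 3 < ENat.card k) (hz : z ≠ 0)
    (hgen : ∀ a : K, ∃ g : k[X], aeval z g = a)
    (hu : ∀ c : k, uu (algebraMap k K c) ∈ H) (hl : ∀ c : k, ll (algebraMap k K c * z) ∈ H) : H = ⊤ := by
  have suff : (∀ a, u a ∈ H) → H = ⊤ := fun h =>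
    eq_top_of_U_le' (fun g hg => by obtain ⟨b, rfl⟩ := mem_U.1 hg; exact h b) (x := l (algebraMap k K 1 * z))
      (by simpa [mem_B] using hz) (hl 1)
  cases finite_or_infinite k with
  | inr _ => exact suff (u_mem_inf h2 hz hgen hu hl)
  | inl _ =>
  haveI : Finite K := Module.finite_of_finite k
  obtain ⟨c, c0, c1⟩ : ∃ c : k, c ≠ 0 ∧ (algebraMap k K c * z) ^ 2 ≠ -1 := by
    by_cases h : z ^ 2 = -1
    · obtain ⟨x, x0, x1⟩ := exists_sq_ne_one h3
      refine ⟨x, x0, fun e => x1 ((algebraMap k K).injective ?_)⟩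
      rw [mul_pow, h] at e
      rw [map_pow, map_one]; linear_combination -e
    · exact ⟨1, one_ne_zero, by simpa using h⟩
  have l0 : algebraMap k K c * z ≠ 0 := mul_ne_zero (by simpa using c0) hz
  set F := Subfield.closure ({algebraMap k K c * z} : Set K)
  haveI := Fintype.ofFinite F
  have m : algebraMap k K c * z ∈ F := Subfield.subset_closure rfl
  have hF : Subfield.closure ({⟨_, m⟩} : Set F) = ⊤ := eq_top_iff.2 fun x _ => by
    obtain ⟨y, hy, e⟩ := (show F = (Subfield.closure ({⟨_, m⟩} : Set F)).map F.subtype by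
      rw [RingHom.map_field_closure]; simp [F]).le x.2
    rwa [← Subtype.ext e]
  have t2 : (2 : F) ≠ 0 := fun e => h2 ((algebraMap k K).injective (by
    rw [map_ofNat, map_zero]; exact congrArg Subtype.val e))
  let f := (MulAut.conj (w0 : SL(2, K))).toMonoidHom.comp (Matrix.SpecialLinearGroup.map F.subtype)
  have f1 : ∀ a : F, f (uu a) = ll (-a : K) := fun a => by
    simp only [f, MonoidHom.comp_apply, uu_map]; exact w0_conj_u _
  have f2 : ∀ a : F, f (ll a) = uu (-a : K) := fun a => by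
    simp only [f, MonoidHom.comp_apply, ll_map]
    exact (conj_ll 0 1 (-1) 0 _ _).trans (by simp [uu, mk_eq])
  rcases Cfsg.Agent.S0801.result t2 ⟨_, m⟩ (fun e => l0 (congrArg Subtype.val e)) hF with h | h
  · have hle : ⊤ ≤ H.comap f := by
      rw [← h.1, closure_le]
      rintro g (e | e)
      · rw [show g = ll 1 from Subtype.ext e, SetLike.mem_coe, mem_comap, f2]
        simpa using hu (-1)
      · rw [show g = uu ⟨_, m⟩ from Subtype.ext e, SetLike.mem_coe, mem_comap, f1]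
        simpa using hl (-c)
    have k1 : ∀ a : F, ll (-a : K) ∈ H := fun a => f1 a ▸ hle (mem_top (uu a))
    exact suff fun a => (all_mem h2 hgen hu hl (by simpa using k1 1) c0 (by
      rw [mul_neg]; congr 1; exact mul_inv_cancel₀ l0) (k1 (⟨_, m⟩⁻¹)) a).1
  · exact absurd (congrArg Subtype.val h.2.1) c1

end Fld

section Alg

variable {A A' : Type*} [CommRing A] [CommRing A'] {H : Subgroup SL(2, A)}

local notation "mp" => Matrix.SpecialLinearGroup.map (n := Fin 2)

theorem scalar_case [Algebra k A] {z : A} (h2 : (2 : k) ≠ 0) (hz : IsUnit z) (hgen : ∀ a : A, ∃ g : k[X], aeval z g = a)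
    (hu : ∀ c : k, uu (algebraMap k A c) ∈ H) (hl : ∀ c : k, ll (algebraMap k A c * z) ∈ H) (π : A →+* A')
    (hπ : ∀ a : A, uu (π a) ∈ H.map (mp π) ∧ ll (π a) ∈ H.map (mp π))
    (hs : ∀ n ∈ H, mp π n = 1 → n.1 0 1 = 0 ∧ n.1 1 0 = 0 ∧ n.1 0 0 = n.1 1 1) (a : A) : uu a ∈ H ∧ ll a ∈ H := by
  have t2 : algebraMap k A 2⁻¹ * 2 = 1 := by rw [← map_ofNat (algebraMap k A) 2, ← map_mul, inv_mul_cancel₀ h2, map_one]
  have eq : ∀ g ∈ H, ∀ h ∈ H, mp π g = mp π h → g.1 0 0 + g.1 1 1 = 2 → h.1 0 0 + h.1 1 1 = 2 → g = h := by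
    intro g hg h hh e t1 t3
    have := hs _ (mul_mem hg (inv_mem hh)) (by rw [map_mul, e, map_inv, mul_inv_cancel])
    rw [← inv_mul_cancel_right g h] at t1 ⊢
    obtain ⟨a, b, c, d, dt, e1⟩ := ex4 (g * h⁻¹)
    obtain ⟨a', b', c', d', dt', rfl⟩ := ex4 h
    rw [e1] at this t1 ⊢
    obtain ⟨rfl, rfl, rfl⟩ : b = 0 ∧ c = 0 ∧ a = d := this
    rw [mk_mul] at t1 ⊢
    have t1 : a * a' + 0 * c' + (0 * b' + a * d') = 2 := t1
    have t3 : a' + d' = 2 := t3
    obtain rfl : a = 1 := by linear_combination (algebraMap k A 2⁻¹) * (t1 - a * t3) - (a - 1) * t2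
    simp [mk_eq]
  obtain ⟨z', hz'⟩ := hz.exists_right_inv
  have w : ∀ b : A, ∃ b', π b' = π b ∧ ll b' ∈ H := fun b => by
    obtain ⟨h, hh, e⟩ := (hπ (algebraMap k A 2⁻¹ * b)).2
    have := eq _ (mul_mem (mul_mem hh (hl 1)) (inv_mem hh)) _ (hl 1) (by
      rw [map_mul, map_mul, map_inv, e, ll_map, ← ll_add, add_comm, ll_add, mul_inv_cancel_right]) ?_ (by
        simp [ll]; norm_num)
    · obtain ⟨p, q, r, s, dt, rfl⟩ := ex4 h
      rw [conj_ll, ll, mk_eq, map_one, one_mul] at this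
      obtain ⟨h1, h3, h4, -⟩ := this
      have s2 : s ^ 2 = 1 := by linear_combination z' * h4 - (s ^ 2 - 1) * hz'
      obtain rfl : q = 0 := by linear_combination s * z' * h1 - q * s ^ 2 * hz' - q * s2
      obtain rfl : p = s := by linear_combination s * dt - p * s2
      rw [mk_map, ll, mk_eq] at e
      refine ⟨2 * p * r, ?_, ?_⟩
      · rw [map_mul, map_mul, e.1, e.2.2.1, mul_one, ← map_mul]; congr 1; linear_combination b * t2
      · convert mul_mem hh hh using 1
        rw [mk_mul, ll, mk_eq]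
        exact ⟨by linear_combination -s2, by ring, by ring, by linear_combination -s2⟩
    · obtain ⟨p, q, r, s, dt, rfl⟩ := ex4 h
      rw [conj_ll]; simp; ring
  have key : ∀ a b : A, uu a ∈ H → a * b = -1 → ll b ∈ H := fun a b ha hab => by
    obtain ⟨b', e, hb⟩ := w b
    obtain ⟨c, e', hc⟩ := w (-b ^ 2)
    have hn := mul_mem (mul_mem ha hb) ha
    have e1 : π a * π b = -1 := by rw [← map_mul, hab, map_neg, map_one]
    have := eq _ (mul_mem (mul_mem hn (hu 1)) (inv_mem hn)) _ hc (by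
      rw [ulu, conj_uu, mk_map, ll_map, e', ll, mk_eq]
      simp only [map_one, map_sub, map_mul, map_add, map_pow, map_neg, e, e1]
      exact ⟨by ring, by ring, by ring, by ring⟩) (by rw [ulu, conj_uu]; simp; ring) (by simp [ll]; norm_num)
    rw [ulu, conj_uu, ll, mk_eq, map_one] at this
    obtain ⟨h1, h3, -⟩ := this
    have : a * b' = -1 := by linear_combination h3 + a * h1
    rwa [show b = b' by linear_combination b * this - b' * hab]
  have z1 : uu z ∈ H := by
    have := (swap_mem (a := 1) (one_mul _) (by simpa using hu 1) (key 1 _ (by simpa using hu 1) (one_mul _))).2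
    simpa using this _ (hl 1)
  exact all_mem h2 hgen hu hl (key 1 _ (by simpa using hu 1) (one_mul _)) one_ne_zero (b := -z')
    (by rw [map_one, one_mul, mul_neg, hz']) (key z _ z1 (by rw [mul_neg, hz'])) a

/-- elements of a congruence subgroup of square-zero level -/
def ee {e : A} (he : e * e = 0) (a b c : A) : SL(2, A) :=
  mk2 (1 + a * e) (b * e) (c * e) (1 - a * e) (by linear_combination (-a * a - b * c) * he)

theorem sq_zero_case {e : A} (he : e * e = 0) (h2 : IsUnit (2 : A)) (hm : ∀ a, a * e ≠ 0 → ∃ b, b * a * e = e)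
    (hn : ∀ (g : SL(2, A)) a b c, ee he a b c ∈ H → g * ee he a b c * g⁻¹ ∈ H) {a b c : A} (h : ee he a b c ∈ H)
    (h0 : ¬ (a * e = 0 ∧ b * e = 0 ∧ c * e = 0)) (a' b' c' : A) : ee he a' b' c' ∈ H := by
  obtain ⟨t, ht⟩ := h2.exists_right_inv
  have sub : ∀ {a b c a' b' c' : A}, ee he a b c ∈ H → ee he a' b' c' ∈ H → ee he (a - a') (b - b') (c - c') ∈ H := by
    intro a b c a' b' c' h h'
    convert mul_mem h (inv_mem h') using 1
    rw [ee, ee, ee, mk_inv, mk_mul, mk_eq]
    exact ⟨by linear_combination (a * a' + b * c') * he, by linear_combination (a * b' - a' * b) * he,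
      by linear_combination (a' * c - a * c') * he, by linear_combination (a * a' + b' * c) * he⟩
  have cg : ∀ {a b c a' b' c' : A}, ee he a b c ∈ H → a * e = a' * e → b * e = b' * e → c * e = c' * e →
      ee he a' b' c' ∈ H := fun h h1 h2 h3 => by
    convert h using 1; rw [ee, ee, mk_eq, h1, h2, h3]; exact ⟨rfl, rfl, rfl, rfl⟩
  have s1 : ∀ {a b c : A} (s : A), ee he a b c ∈ H → ee he (s * c) (-2 * s * a - s ^ 2 * c) 0 ∈ H := by
    intro a b c s h
    have : uu s * ee he a b c * (uu s)⁻¹ = ee he (a + s * c) (b - 2 * s * a - s ^ 2 * c) c := by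
      rw [ee, ee, uu, mk_inv, mk_mul, mk_mul, mk_eq]; exact ⟨by ring, by ring, by ring, by ring⟩
    exact cg (sub (this ▸ hn _ _ _ _ h) h) (by ring) (by ring) (by ring)
  have s2 : ∀ {a b c : A} (s : A), ee he a b c ∈ H → ee he (-s * b) 0 (2 * s * a - s ^ 2 * b) ∈ H := by
    intro a b c s h
    have : ll s * ee he a b c * (ll s)⁻¹ = ee he (a - s * b) b (c + 2 * s * a - s ^ 2 * b) := by
      rw [ee, ee, ll, mk_inv, mk_mul, mk_mul, mk_eq]; exact ⟨by ring, by ring, by ring, by ring⟩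
    exact cg (sub (this ▸ hn _ _ _ _ h) h) (by ring) (by ring) (by ring)
  have U : ∀ {a b c : A}, ee he a b c ∈ H → c * e ≠ 0 → ∀ r, ee he 0 r 0 ∈ H := fun {a b c} h h1 r => by
    obtain ⟨β, hβ⟩ := hm c h1
    exact cg (s1 (-r * β * t) (s1 1 h)) (by ring) (by linear_combination (2 * r * t) * hβ + r * e * ht) rfl
  have L : ∀ {a b c : A}, ee he a b c ∈ H → b * e ≠ 0 → ∀ r, ee he 0 0 r ∈ H := fun {a b c} h h1 r => by
    obtain ⟨β, hβ⟩ := hm b h1
    exact cg (s2 (-r * β * t) (s2 1 h)) (by ring) rfl (by linear_combination (2 * r * t) * hβ + r * e * ht)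
  have e0 : 1 * e ≠ 0 := fun k => h0 (by rw [one_mul] at k; simp [k])
  obtain ⟨k1, k2⟩ : (∀ r, ee he 0 r 0 ∈ H) ∧ ∀ r, ee he 0 0 r ∈ H := by
    by_cases c0 : c * e = 0
    · by_cases b0 : b * e = 0
      · have := L (s1 1 h) fun k => h0 ⟨by linear_combination -t * k - t * c0 - a * e * ht, b0, c0⟩
        exact ⟨U (this 1) e0, this⟩
      · exact ⟨U (L h b0 1) e0, L h b0⟩
    · exact ⟨U h c0, L (U h c0 1) e0⟩
  exact cg (sub (sub (s1 1 (k2 a')) (k1 (-a' - b'))) (k2 (-c'))) (by ring) (by ring) (by ring)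

universe v

theorem alg_case (h2 : (2 : k) ≠ 0) (h3 : 3 < ENat.card k) (n : ℕ) : ∀ (A : Type v) [CommRing A] [Algebra k A]
    [FiniteDimensional k A] (z : A) (H : Subgroup SL(2, A)), Module.finrank k A = n → IsUnit z →
    (∀ a : A, ∃ g : k[X], aeval z g = a) → (∀ c : k, uu (algebraMap k A c) ∈ H) →
    (∀ c : k, ll (algebraMap k A c * z) ∈ H) → ∀ a, uu a ∈ H ∧ ll a ∈ H := by
  induction n using Nat.strong_induction_on with
  | _ n ih =>
  intro A _ _ _ z H hn hz hgen hu hl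
  cases subsingleton_or_nontrivial A with
  | inl _ => exact fun a => by simpa [Subsingleton.elim a 0] using And.intro (hu 0) (hl 0)
  | inr _ =>
  haveI := IsArtinianRing.of_finite k A
  obtain ⟨e, e0, hm⟩ : ∃ e : A, e ≠ 0 ∧ ∀ a, a * e ≠ 0 → ∃ b, b * a * e = e := by
    obtain ⟨_, ⟨e, e0, rfl⟩, hm⟩ := (wellFounded_lt (α := Ideal A)).has_min {I | ∃ e : A, e ≠ 0 ∧ Ideal.span {e} = I}
      ⟨_, 1, one_ne_zero, rfl⟩
    refine ⟨e, e0, fun a ha => ?_⟩
    have := eq_of_le_of_not_lt (Ideal.span_singleton_le_span_singleton.2 (dvd_mul_left e a)) (hm _ ⟨_, ha, rfl⟩)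
    obtain ⟨b, hb⟩ := Ideal.mem_span_singleton'.1 (this.ge (Ideal.mem_span_singleton_self e))
    exact ⟨b, by rw [mul_assoc, hb]⟩
  have gen : ∀ (I : Ideal A) (a : A ⧸ I), ∃ g : k[X], aeval (Ideal.Quotient.mk I z) g = a := fun I a => by
    obtain ⟨a, rfl⟩ := Ideal.Quotient.mk_surjective a
    obtain ⟨g, rfl⟩ := hgen a
    exact ⟨g, aeval_algHom_apply (Ideal.Quotient.mkₐ k I) z g⟩
  have fin : ∀ I : Ideal A, FiniteDimensional k (A ⧸ I) := fun I =>
    Module.Finite.of_surjective (Ideal.Quotient.mkₐ k I).toLinearMap Ideal.Quotient.mk_surjective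
  set π := Ideal.Quotient.mk (Ideal.span {e})
  have hπ : ∀ a : A, uu (π a) ∈ H.map (mp π) ∧ ll (π a) ∈ H.map (mp π) := fun a => by
    haveI := fin (Ideal.span {e})
    refine ih _ ?_ _ (π z) (H.map (mp π)) rfl (hz.map π) (gen _) (fun c => ⟨_, hu c, uu_map _ _⟩)
      (fun c => ⟨_, hl c, by rw [ll_map, map_mul]; rfl⟩) _
    rw [← hn, ← (Ideal.Quotient.mkₐ k (Ideal.span {e})).toLinearMap.finrank_range_add_finrank_ker,
      LinearMap.range_eq_top.2 Ideal.Quotient.mk_surjective, finrank_top, lt_add_iff_pos_right,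
      Module.finrank_pos_iff_exists_ne_zero]
    exact ⟨⟨e, Ideal.Quotient.eq_zero_iff_mem.2 (Ideal.mem_span_singleton_self e)⟩, fun k => e0 (congrArg Subtype.val k)⟩
  by_cases hs : ∀ n ∈ H, mp π n = 1 → n.1 0 1 = 0 ∧ n.1 1 0 = 0 ∧ n.1 0 0 = n.1 1 1
  · exact scalar_case h2 hz hgen hu hl π hπ hs
  suffices hk : ∀ n, mp π n = 1 → n ∈ H by
    have : ∀ g, mp π g ∈ H.map (mp π) → g ∈ H := by
      rintro g ⟨h, hh, e⟩
      rw [← inv_mul_cancel_right g h, mul_assoc, ← mul_assoc g]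
      exact mul_mem (hk _ (by rw [map_mul, map_inv, e, mul_inv_cancel])) (by simpa using hh)
    exact fun a => ⟨this _ (uu_map π a ▸ (hπ a).1), this _ (ll_map π a ▸ (hπ a).2)⟩
  -- the residue field attached to `e`
  set m := Ideal.torsionOf A A e
  have mm : ∀ a, a ∈ m ↔ a * e = 0 := fun a => Ideal.mem_torsionOf_iff e a
  haveI : m.IsMaximal := Ideal.isMaximal_iff.2 ⟨fun h => e0 (by simpa using (mm 1).1 h), fun J x hJ hx hxJ => by
    obtain ⟨b, hb⟩ := hm x fun h => hx ((mm x).2 h)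
    simpa using J.add_mem (hJ ((mm (1 - b * x)).2 (by linear_combination -hb))) (J.mul_mem_left b hxJ)⟩
  letI := Ideal.Quotient.field m
  haveI := fin m
  set ρ := Ideal.Quotient.mk m
  have hρ : H.map (mp ρ) = ⊤ := field_case h2 h3 (hz.map ρ).ne_zero (gen m) (fun c => ⟨_, hu c, uu_map _ _⟩)
    (fun c => ⟨_, hl c, by rw [ll_map, map_mul]; rfl⟩)
  have ker : ∀ n : SL(2, A), mp π n = 1 → ∃ a b c d, ∃ h, n = mk2 (1 + a * e) (b * e) (c * e) (1 + d * e) h := by
    intro n hn
    obtain ⟨a, b, c, d, h, rfl⟩ := ex4 n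
    rw [mk_map, one_mk, mk_eq, ← map_one π, Ideal.Quotient.eq, Ideal.Quotient.eq, Ideal.Quotient.eq_zero_iff_mem,
      Ideal.Quotient.eq_zero_iff_mem] at hn
    simp only [Ideal.mem_span_singleton'] at hn
    obtain ⟨⟨a, ha⟩, ⟨b, rfl⟩, ⟨c, rfl⟩, d, hd⟩ := hn
    obtain rfl := eq_add_of_sub_eq' ha.symm
    obtain rfl := eq_add_of_sub_eq' hd.symm
    exact ⟨a, b, c, d, h, rfl⟩
  have nrm : ∀ (g n : SL(2, A)), n ∈ H → mp π n = 1 → g * n * g⁻¹ ∈ H := fun g n hn k => by
    obtain ⟨h, hh, e1⟩ := hρ.ge (mem_top (mp ρ g))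
    suffices h⁻¹ * g * n = n * (h⁻¹ * g) by
      rw [show g * n * g⁻¹ = h * (h⁻¹ * g * n) * g⁻¹ by group, this,
        show h * (n * (h⁻¹ * g)) * g⁻¹ = h * n * h⁻¹ by group]
      exact mul_mem (mul_mem hh hn) (inv_mem hh)
    have e2 : mp ρ (h⁻¹ * g) = 1 := by rw [map_mul, map_inv, e1, inv_mul_cancel]
    obtain ⟨a, b, c, d, h'', rfl⟩ := ker n k
    obtain ⟨p, q, r, s, h', e3⟩ := ex4 (h⁻¹ * g)
    rw [e3] at e2 ⊢
    rw [mk_map, one_mk, mk_eq, ← map_one ρ, Ideal.Quotient.eq, Ideal.Quotient.eq, Ideal.Quotient.eq_zero_iff_mem,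
      Ideal.Quotient.eq_zero_iff_mem, mm, mm, mm, mm] at e2
    obtain ⟨p1, q1, r1, s1⟩ := e2
    rw [mk_mul, mk_mul, mk_eq]
    exact ⟨by linear_combination c * q1 - b * r1, by linear_combination b * p1 + (d - a) * q1 - b * s1,
      by linear_combination (a - d) * r1 + c * s1 - c * p1, by linear_combination b * r1 - c * q1⟩
  push Not at hs
  obtain ⟨n0, n1, n2, n3⟩ := hs
  by_cases he : e * e = 0
  · have ker' : ∀ n : SL(2, A), mp π n = 1 → ∃ a b c, n = ee he a b c := fun n hn => by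
      obtain ⟨a, b, c, d, h, rfl⟩ := ker n hn
      exact ⟨a, b, c, mk_eq.2 ⟨rfl, rfl, rfl, by linear_combination h + (b * c - a * d) * he⟩⟩
    have k2 : ∀ a b c, mp π (ee he a b c) = 1 := fun a b c => by
      have : π e = 0 := Ideal.Quotient.eq_zero_iff_mem.2 (Ideal.mem_span_singleton_self e)
      simp [ee, mk_map, one_mk, mk_eq, this]
    intro n hn
    obtain ⟨a', b', c', rfl⟩ := ker' n hn
    obtain ⟨a, b, c, rfl⟩ := ker' n0 n2
    refine sq_zero_case he (by simpa [map_ofNat] using (IsUnit.mk0 _ h2).map (algebraMap k A)) hm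
      (fun g a b c h => nrm g _ h (k2 a b c)) n1 (fun h => n3 h.2.1 h.2.2 ?_) _ _ _
    show 1 + a * e = 1 - a * e
    rw [h.1]; ring
  · obtain ⟨β, hβ⟩ := hm e he
    have z0 : ∀ a, ρ (a * e) = 0 → a * e = 0 := fun a h => by
      have := (mm _).1 (Ideal.Quotient.eq_zero_iff_mem.1 h)
      linear_combination β * this - a * hβ
    haveI : ((H ⊓ (mp π).ker).map (mp ρ)).Normal := ⟨by
      rintro _ ⟨n, hn, rfl⟩ g
      obtain ⟨h, hh, rfl⟩ := hρ.ge (mem_top g)
      exact ⟨h * n * h⁻¹, ⟨H.mul_mem (H.mul_mem hh hn.1) (H.inv_mem hh), (inferInstance : (mp π).ker.Normal).conj_mem _ hn.2 _⟩,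
        by simp⟩⟩
    have card : 3 < ENat.card (upperUnipotentSL2 (A ⧸ m)) := h3.trans_le (ENat.card_le_card_of_injective
      (f := fun c : k => (⟨u (algebraMap k (A ⧸ m) c), mem_up.2 ⟨_, rfl⟩⟩ : upperUnipotentSL2 (A ⧸ m)))
      fun a b h => (algebraMap k (A ⧸ m)).injective (u_inj (congrArg Subtype.val h)))
    have pf := sp_sl2.perfect ro_sl2 cm_up card
    rw [up_sup_lo] at pf
    rcases ro_sl2.normal_top up_sup_lo ((H ⊓ (mp π).ker).map (mp ρ)) with h | h
    · intro n hn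
      obtain ⟨n', hn', e1⟩ := (eq_top_of_nil pf cm_up.nil h).ge (mem_top (mp ρ n))
      obtain ⟨a, b, c, d, h, rfl⟩ := ker n hn
      obtain ⟨a', b', c', d', h', rfl⟩ := ker n' hn'.2
      rw [mk_map, mk_map, mk_eq] at e1
      refine (mk_eq.2 ?_ : mk2 _ _ _ _ h = mk2 _ _ _ _ h') ▸ hn'.1
      exact ⟨by linear_combination z0 (a - a') (by rw [sub_mul, map_sub, sub_eq_zero]; simpa using e1.1.symm),
        by linear_combination z0 (b - b') (by rw [sub_mul, map_sub, sub_eq_zero]; exact e1.2.1.symm),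
        by linear_combination z0 (c - c') (by rw [sub_mul, map_sub, sub_eq_zero]; exact e1.2.2.1.symm),
        by linear_combination z0 (d - d') (by rw [sub_mul, map_sub, sub_eq_zero]; simpa using e1.2.2.2.symm)⟩
    · have c1 := mem_center_iff.1 (h ⟨n0, ⟨n1, n2⟩, rfl⟩)
      obtain ⟨a, b, c, d, h, rfl⟩ := ker n0 n2
      have c2 := c1 (uu 1)
      have c3 := c1 (ll 1)
      rw [mk_map, uu, mk_mul, mk_mul, mk_eq] at c2
      rw [mk_map, ll, mk_mul, mk_mul, mk_eq] at c3
      refine absurd ?_ (n3 (z0 b (by linear_combination -c3.1)) (z0 c (by linear_combination c2.1)))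
      show 1 + a * e = 1 + d * e
      have := c2.2.1
      simp only [map_add] at this
      linear_combination z0 (a - d) (by rw [sub_mul, map_sub]; linear_combination -this)

end Alg

theorem three_lt_card (hk2 : ringChar k ≠ 2) (hk3 : Nat.card k ≠ 3) : 3 < ENat.card k := by
  cases finite_or_infinite k with
  | inr _ => rw [ENat.card_eq_top_of_infinite]; exact ENat.natCast_lt_top 3
  | inl _ =>
    haveI := Fintype.ofFinite k
    have h1 : 1 < Fintype.card k := Fintype.one_lt_card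
    have h2 : Fintype.card k ≠ 2 := fun e => Ring.two_ne_zero hk2 (by simpa [e] using FiniteField.cast_card_eq_zero k)
    rw [Nat.card_eq_fintype_card] at hk3
    rw [ENat.card_eq_coe_fintype_card]
    exact_mod_cast (by omega : 3 < Fintype.card k)

end CA.Quad
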