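import Cfsg.Agent.Lib.Root.Q2

/-!
Two elements of square zero in an algebra and the group generated by the attached one-parameter subgroups.
-/

set_option autoImplicit false

namespace CA.Quad

open Subgroup Cfsg CA.Amb CA.AmbCore CA.AmbRes CA.Root CA.SL2Embed Polynomial
open scoped commutatorElement MatrixGroups Matrix

universe u

section El

variable {A R : Type*} [CommRing A] [Ring R] {θ : A →ₙ+* R} {ζ : A} {x y : R} {G : Subgroup Rˣ}

/-- two elements of square zero with `xy + yx` acting as `ζ` -/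
structure Cl (θ : A →ₙ+* R) (ζ : A) (x y : R) : Prop where
  xx : x * x = 0
  yy : y * y = 0
  cx : ∀ a, θ a * x = x * θ a
  cy : ∀ a, θ a * y = y * θ a
  xyx : x * y * x = θ ζ * x
  yxy : y * x * y = θ ζ * y

/-- coordinates in the algebra generated by `x` and `y` -/
def el (θ : A →ₙ+* R) (x y : R) (a b c d : A) : R := θ a * x + θ b * y + θ c * (x * y) + θ d * (y * x)

theorem Cl.symm (h : Cl θ ζ x y) : Cl θ ζ y x := ⟨h.yy, h.xx, h.cy, h.cx, h.yxy, h.xyx⟩

theorem el_add (a b c d a' b' c' d' : A) :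
    el θ x y a b c d + el θ x y a' b' c' d' = el θ x y (a + a') (b + b') (c + c') (d + d') := by
  simp only [el, map_add, add_mul]; abel

theorem Cl.mul (h : Cl θ ζ x y) (a b c d a' b' c' d' : A) : el θ x y a b c d * el θ x y a' b' c' d' =
    el θ x y (ζ * (a * d' + c * a')) (ζ * (b * c' + d * b')) (a * b' + ζ * c * c') (b * a' + ζ * d * d') := by
  have m : ∀ {P : R}, (∀ a, θ a * P = P * θ a) → ∀ a b Q, θ a * P * (θ b * Q) = θ (a * b) * (P * Q) :=
    fun {P} hP a b Q => by rw [map_mul, mul_assoc, ← mul_assoc P, ← hP, mul_assoc, mul_assoc]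
  have c1 : ∀ a, θ a * (x * y) = x * y * θ a := fun a => by rw [← mul_assoc, h.cx, mul_assoc, h.cy, mul_assoc]
  have c2 : ∀ a, θ a * (y * x) = y * x * θ a := fun a => by rw [← mul_assoc, h.cy, mul_assoc, h.cx, mul_assoc]
  have t1 : x * (x * y) = 0 := by rw [← mul_assoc, h.xx, zero_mul]
  have t2 : x * (y * x) = θ ζ * x := by rw [← mul_assoc, h.xyx]
  have t3 : y * (x * y) = θ ζ * y := by rw [← mul_assoc, h.yxy]
  have t4 : y * (y * x) = 0 := by rw [← mul_assoc, h.yy, zero_mul]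
  have t5 : x * y * y = 0 := by rw [mul_assoc, h.yy, mul_zero]
  have t6 : y * x * x = 0 := by rw [mul_assoc, h.xx, mul_zero]
  have t7 : x * y * (x * y) = θ ζ * (x * y) := by rw [← mul_assoc, h.xyx, mul_assoc]
  have t8 : x * y * (y * x) = 0 := by rw [← mul_assoc, t5, zero_mul]
  have t9 : y * x * (x * y) = 0 := by rw [← mul_assoc, t6, zero_mul]
  have t10 : y * x * (y * x) = θ ζ * (y * x) := by rw [← mul_assoc, h.yxy, mul_assoc]
  have m2 : ∀ a Q, θ a * (θ ζ * Q) = θ (ζ * a) * Q := fun a Q => by rw [← mul_assoc, ← map_mul, mul_comm a]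
  simp only [el, mul_add, add_mul, m h.cx, m h.cy, m c1, m c2, h.xx, h.yy, h.xyx, h.yxy, t1, t2, t3, t4, t5, t6, t7,
    t8, t9, t10, m2, mul_zero, map_add, mul_assoc ζ]
  abel

theorem Cl.one_mul (h : Cl θ ζ x y) (a b c d a' b' c' d' : A) : (1 + el θ x y a b c d) * (1 + el θ x y a' b' c' d') =
    1 + el θ x y (a + a' + ζ * (a * d' + c * a')) (b + b' + ζ * (b * c' + d * b')) (c + c' + (a * b' + ζ * c * c'))
      (d + d' + (b * a' + ζ * d * d')) := by
  rw [← el_add, ← el_add, ← h.mul]; noncomm_ring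

theorem el_cg {a b c d a' b' c' d' : A} (h1 : a = a') (h2 : b = b') (h3 : c = c') (h4 : d = d') :
    el θ x y a b c d = el θ x y a' b' c' d' := by rw [h1, h2, h3, h4]

theorem el_zero : el θ x y 0 0 0 0 = 0 := by simp [el]

/-- `r` is the value of an element of `G` -/
def In (G : Subgroup Rˣ) (r : R) : Prop := ∃ g ∈ G, (g : R) = r

theorem In.mul {r s : R} (h : In G r) (h' : In G s) : In G (r * s) :=
  let ⟨g, hg, e⟩ := h; let ⟨g', hg', e'⟩ := h'; ⟨g * g', mul_mem hg hg', by rw [Units.val_mul, e, e']⟩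

theorem In.inv {r s : R} (h : In G r) (e : r * s = 1) : In G s :=
  let ⟨g, hg, e'⟩ := h; ⟨g⁻¹, inv_mem hg, Units.inv_eq_of_mul_eq_one_right (e' ▸ e)⟩

theorem In.one : In G 1 := ⟨1, one_mem _, rfl⟩

theorem in_iff {g : Rˣ} : In G g ↔ g ∈ G := ⟨fun ⟨_, hg, e⟩ => Units.ext e ▸ hg, fun h => ⟨g, h, rfl⟩⟩

/-- elements of `G` of norm one -/
def Co (G : Subgroup Rˣ) (θ : A →ₙ+* R) (ζ : A) (x y : R) (a b c d : A) : Prop :=
  In G (1 + el θ x y a b c d) ∧ c + d + ζ * c * d = a * b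

theorem Co.cg {a b c d a' b' c' d' : A} (h : Co G θ ζ x y a b c d) (h1 : a = a') (h2 : b = b') (h3 : c = c')
    (h4 : d = d') : Co G θ ζ x y a' b' c' d' := by subst h1 h2 h3 h4; exact h

theorem Co.mul {a b c d a' b' c' d' : A} (k : Co G θ ζ x y a b c d) (h : Cl θ ζ x y) (k' : Co G θ ζ x y a' b' c' d') :
    Co G θ ζ x y (a + a' + ζ * (a * d' + c * a')) (b + b' + ζ * (b * c' + d * b')) (c + c' + (a * b' + ζ * c * c'))
      (d + d' + (b * a' + ζ * d * d')) :=
  ⟨h.one_mul .. ▸ k.1.mul k'.1, by linear_combination (1 + ζ * (c' + d' + ζ * c' * d' - a' * b')) * k.2 + k'.2⟩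

theorem Co.inv {a b c d : A} (k : Co G θ ζ x y a b c d) (h : Cl θ ζ x y) : Co G θ ζ x y (-a) (-b) d c := by
  refine ⟨k.1.inv ?_, by linear_combination k.2⟩
  rw [h.one_mul]
  convert add_zero (1 : R)
  convert el_zero (θ := θ) (x := x) (y := y) using 2
  exacts [by ring, by ring, by linear_combination k.2, by linear_combination k.2]

theorem Cl.top (h : Cl θ ζ x y) {c τ : A} (hτ : 2 * τ = 1) (h1 : In G (1 + θ c * x)) (h2 : In G (1 + θ τ * x))
    (h3 : In G (1 + θ 1 * y)) (n : ℕ) :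
    (∃ a b c' d', Co G θ ζ x y (ζ ^ n * (c + ζ * a)) (ζ ^ n * ζ * b) (ζ ^ n * c') (ζ ^ n * d')) ∧
    ∃ a b c' d', Co G θ ζ x y (ζ ^ n * ζ * a) (ζ ^ n * ζ * b) (ζ ^ n * (c + ζ * c')) (ζ ^ n * (-c + ζ * d')) := by
  have k2 : Co G θ ζ x y τ 0 0 0 := ⟨by simpa [el] using h2, by ring⟩
  have k3 : Co G θ ζ x y 0 1 0 0 := ⟨by simpa [el] using h3, by ring⟩
  have s1 : ∀ Y : A, (∃ a b c' d', Co G θ ζ x y (Y * (c + ζ * a)) (Y * ζ * b) (Y * c') (Y * d')) →
      ∃ a b c' d', Co G θ ζ x y (Y * ζ * a) (Y * ζ * b) (Y * (c + ζ * c')) (Y * (-c + ζ * d')) := by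
    rintro Y ⟨a, b, c', d', k⟩
    exact ⟨-Y * (c + ζ * a) ^ 2, 2 * d' + ζ * Y * d' ^ 2 + (c + ζ * a) * (1 + ζ * Y * d'),
      a + (c + ζ * a) * Y * d' + Y * (c + ζ * a) ^ 2, -a - (c + ζ * a) * Y * d',
      (((k.mul h k3).mul h (k.inv h)).mul h (k3.inv h)).cg (by ring) (by linear_combination -ζ * k.2)
        (by linear_combination k.2) (by linear_combination k.2)⟩
  have s2 : ∀ Y : A, (∃ a b c' d', Co G θ ζ x y (Y * ζ * a) (Y * ζ * b) (Y * (c + ζ * c')) (Y * (-c + ζ * d'))) →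
      ∃ a b c' d', Co G θ ζ x y (Y * ζ * (c + ζ * a)) (Y * ζ * ζ * b) (Y * ζ * c') (Y * ζ * d') := by
    rintro Y ⟨a, b, c', d', k⟩
    exact ⟨c' + τ * Y * (c + ζ * c') ^ 2 + τ ^ 2 * (1 + ζ * Y * (c + ζ * c')) * b, -τ * ζ * Y * b ^ 2,
      -τ * (1 + ζ * Y * (c + ζ * c')) * b, τ * (1 + ζ * Y * (c + ζ * c')) * b + τ ^ 2 * ζ ^ 2 * Y * b ^ 2,
      (((k.mul h k2).mul h (k.inv h)).mul h (k2.inv h)).cg
        (by linear_combination -τ * ζ * k.2 + ζ * Y * (c + ζ * c') * hτ) (by ring)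
        (by linear_combination k.2) (by linear_combination k.2)⟩
  induction n with
  | zero =>
    have : ∃ a b c' d', Co G θ ζ x y (ζ ^ 0 * (c + ζ * a)) (ζ ^ 0 * ζ * b) (ζ ^ 0 * c') (ζ ^ 0 * d') :=
      ⟨0, 0, 0, 0, by simpa [el] using h1, by ring⟩
    exact ⟨this, s1 _ this⟩
  | succ n ih => rw [pow_succ]; exact ⟨s2 _ ih.2, s1 _ (s2 _ ih.2)⟩

/-- the representation of `SL₂(A)` attached to an `sl₂`-pair -/
def Cl.hom (h : Cl θ 1 x y) : SL(2, A) →* Rˣ := MonoidHom.toHomUnits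
  { toFun := fun g => 1 + el θ x y (g.1 0 1) (g.1 1 0) (g.1 0 0 - 1) (g.1 1 1 - 1)
    map_one' := by simp [el]
    map_mul' := fun g g' => by
      rw [h.one_mul]
      simp only [Matrix.SpecialLinearGroup.coe_mul, SL2Unip.mul_apply2]
      congr 2 <;> ring }

theorem Cl.hom_val (h : Cl θ 1 x y) (g : SL(2, A)) :
    (h.hom g : R) = 1 + el θ x y (g.1 0 1) (g.1 1 0) (g.1 0 0 - 1) (g.1 1 1 - 1) := rfl

theorem Cl.hom_uu (h : Cl θ 1 x y) (a : A) : (h.hom (uu a) : R) = 1 + θ a * x := by simp [h.hom_val, uu, el]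

theorem Cl.hom_ll (h : Cl θ 1 x y) (a : A) : (h.hom (ll a) : R) = 1 + θ a * y := by simp [h.hom_val, ll, el]

theorem Cl.hom_inj (h : Cl θ 1 x y) (h0 : ∀ a, θ a * x = 0 → a = 0) : Function.Injective h.hom := by
  rw [injective_iff_map_eq_one]
  intro g hg
  obtain ⟨a, b, c, d, dt, rfl⟩ := ex4 g
  have e : el θ x y b c (a - 1) (d - 1) = 0 := by simpa [h.hom_val] using congrArg Units.val hg
  have k : ∀ a₁ c₁ a₂ d₂ : A, el θ x y a₁ 0 c₁ 0 * el θ x y b c (a - 1) (d - 1) * el θ x y a₂ 0 0 d₂ = 0 :=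
    fun _ _ _ _ => by rw [e, mul_zero, zero_mul]
  simp only [h.mul] at k
  rw [one_mk, mk_eq]
  exact ⟨sub_eq_zero.1 (h0 _ (by simpa [el] using k 0 1 1 0)), h0 _ (by simpa [el] using k 0 1 0 1),
    h0 _ (by simpa [el] using k 1 0 1 0), sub_eq_zero.1 (h0 _ (by simpa [el] using k 1 0 0 1))⟩

/-- the unit `1 + x` -/
def ex (x : R) (h : x * x = 0) : Rˣ := ⟨1 + x, 1 - x, by noncomm_ring [h], by noncomm_ring [h]⟩

@[simp] theorem ex_val (h : x * x = 0) : (ex x h : R) = 1 + x := rfl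

@[simp] theorem ex_inv_val (h : x * x = 0) : ((ex x h)⁻¹ : Rˣ) = 1 - x := rfl

end El

variable {k : Type u} {R : Type*} [Field k] [Ring R] [Algebra k R] {x y : R} {G : Subgroup Rˣ}

/-- evaluation at `xy + yx` -/
noncomputable def ev (k : Type u) [Field k] [Algebra k R] (x y : R) : k[X] →ₙ+* R :=
  (aeval (x * y + y * x) : k[X] →ₐ[k] R).toRingHom

theorem ev_apply (g : k[X]) : ev k x y g = aeval (x * y + y * x) g := rfl

theorem comm_z (hx : x * x = 0) : Commute x (x * y + y * x) := by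
  rw [Commute, SemiconjBy, mul_add, add_mul, ← mul_assoc, hx, mul_assoc y, hx, mul_assoc, zero_mul, mul_zero, add_comm]

theorem comm_z' (hy : y * y = 0) : Commute y (x * y + y * x) := add_comm (y * x) (x * y) ▸ comm_z hy

theorem comm_aeval {z : R} (h : Commute x z) (g : k[X]) : aeval z g * x = x * aeval z g := by
  induction g using Polynomial.induction_on' with
  | add p q h1 h2 => rw [map_add, add_mul, mul_add, h1, h2]
  | monomial n c =>
    rw [aeval_monomial, mul_assoc, ← (h.pow_right n).eq, ← mul_assoc, Algebra.commutes, mul_assoc]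

theorem cl_ev (hx : x * x = 0) (hy : y * y = 0) : Cl (ev k x y) X x y :=
  ⟨hx, hy, comm_aeval (comm_z hx), comm_aeval (comm_z' hy), by rw [ev_apply, aeval_X]; noncomm_ring [hx],
    by rw [ev_apply, aeval_X]; noncomm_ring [hy]⟩

/-- `x² = 0` and `1 + kx ⊆ G` -/
def Q (k : Type u) [Field k] [Algebra k R] (G : Subgroup Rˣ) (x : R) : Prop := x * x = 0 ∧ ∀ c : k, In G (1 + c • x)

theorem Q.top (h2 : (2 : k) ≠ 0) (hx : Q k G x) (hy : Q k G y) {n : ℕ} (h1 : (x * y + y * x) ^ (n + 1) * x = 0)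
    (h1' : (x * y + y * x) ^ (n + 1) * y = 0) (c : k) : In G (1 + c • ((x * y + y * x) ^ n * (x * y - y * x))) ∧
    ((x * y + y * x) ^ n * (x * y - y * x) = 0 → In G (1 + c • ((x * y + y * x) ^ n * x))) := by
  have e1 : ∀ (c : k) (r : R), ev k x y (C c) * r = c • r := fun c r => by rw [ev_apply, aeval_C, Algebra.smul_def]
  have z1 : ∀ (a : k[X]) (r : R), (x * y + y * x) ^ (n + 1) * r = 0 → ev k x y (X ^ n * X * a) * r = 0 :=
    fun a r h => by rw [← pow_succ, mul_comm, map_mul, mul_assoc, ev_apply (X ^ (n + 1)), map_pow, aeval_X, h, mul_zero]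
  have h3 : (x * y + y * x) ^ (n + 1) * (x * y) = 0 := by rw [← mul_assoc, h1, zero_mul]
  have h3' : (x * y + y * x) ^ (n + 1) * (y * x) = 0 := by rw [← mul_assoc, h1', zero_mul]
  have e2 : ∀ (a : k[X]) (r : R), ev k x y (X ^ n * a) * r = ev k x y a * ((x * y + y * x) ^ n * r) := fun a r => by
    rw [mul_comm, map_mul, mul_assoc, ev_apply (X ^ n), map_pow, aeval_X]
  obtain ⟨⟨a, b, c', d', k1⟩, a', b', c'', d'', k2⟩ := (cl_ev hx.1 hy.1).top (G := G) (c := C c) (τ := C 2⁻¹)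
    (by rw [← map_ofNat C 2, ← map_mul, mul_inv_cancel₀ h2, map_one]) (e1 _ _ ▸ hx.2 c) (e1 _ _ ▸ hx.2 _)
    (by rw [← C_1, e1]; exact hy.2 1) n
  refine ⟨?_, fun h0 => ?_⟩
  · convert k2.1 using 2
    simp only [el, mul_add (X ^ n), ← mul_assoc (X ^ n), map_add, add_mul, z1 _ _ h1, z1 _ _ h1', z1 _ _ h3,
      z1 _ _ h3', e2, map_neg, neg_mul, e1, mul_sub, smul_sub]
    abel
  · convert k1.1 using 2
    have : X ^ n * d' = X ^ n * X * (X ^ n * ((C c + X * a) * b - c' * d')) + X ^ n * (-c') := by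
      linear_combination k1.2
    rw [mul_sub, sub_eq_zero] at h0
    simp only [el, this, mul_add (X ^ n), ← mul_assoc (X ^ n) X, map_add, add_mul, z1 _ _ h1, z1 _ _ h1',
      z1 _ _ h3', e2, map_neg, neg_mul, e1, h0]
    abel

/-- the generators of the group attached to `x` and `y` -/
def gens (k : Type u) [Field k] [Algebra k R] (x y : R) : Set Rˣ := {g | ∃ c : k, (g : R) = 1 + c • x ∨ (g : R) = 1 + c • y}

theorem uni_of_nilp (hx : x * x = 0) (hy : y * y = 0) (hz : IsNilpotent (x * y + y * x)) :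
    Uni k (closure (gens k x y)) := by
  have h := cl_ev (k := k) hx hy
  let J : ℕ → Submodule k R := fun n =>
    { carrier := {r | ∃ a b c d, r = el (ev k x y) x y (X ^ n * a) (X ^ n * b) (X ^ n * c) (X ^ n * d)}
      add_mem' := by
        rintro _ _ ⟨a, b, c, d, rfl⟩ ⟨a', b', c', d', rfl⟩
        exact ⟨a + a', b + b', c + c', d + d', by simp only [el_add, mul_add]⟩
      zero_mem' := ⟨0, 0, 0, 0, by simp [el]⟩
      smul_mem' := by
        rintro s _ ⟨a, b, c, d, rfl⟩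
        exact ⟨C s * a, C s * b, C s * c, C s * d, by
          simp only [el, mul_left_comm _ (C s), ev_apply, map_mul (aeval _) (C s), aeval_C, ← Algebra.smul_def,
            smul_mul_assoc, smul_add]⟩ }
  have j1 : J 0 * J 0 ≤ J 0 := Submodule.mul_le.2 (by
    rintro _ ⟨a, b, c, d, rfl⟩ _ ⟨a', b', c', d', rfl⟩
    exact ⟨_, _, _, _, by simp only [pow_zero, one_mul]; exact h.mul ..⟩)
  have j2 : ∀ n, J 0 ^ (2 * n + 1) ≤ J n := fun n => by
    induction n with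
    | zero => simp
    | succ n ih =>
      rw [show 2 * (n + 1) + 1 = 2 * n + 1 + 1 + 1 by ring, pow_succ, pow_succ]
      refine (mul_le_mul' (mul_le_mul' ih le_rfl) le_rfl).trans (Submodule.mul_le.2 fun r hr s hs => ?_)
      refine Submodule.mul_induction_on hr ?_ fun p q h1 h2 => by rw [add_mul]; exact add_mem h1 h2
      obtain ⟨a'', b'', c'', d'', rfl⟩ := hs
      rintro _ ⟨a, b, c, d, rfl⟩ _ ⟨a', b', c', d', rfl⟩
      refine ⟨X * (a * d' + c * a') * d'' + (a * b' + X * c * c') * a'',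
        X * (b * c' + d * b') * c'' + (b * a' + X * d * d') * b'',
        (a * d' + c * a') * b'' + (a * b' + X * c * c') * c'', (b * c' + d * b') * a'' + (b * a' + X * d * d') * d'', ?_⟩
      rw [h.mul, h.mul]
      exact el_cg (by ring) (by ring) (by ring) (by ring)
  obtain ⟨n, hn⟩ := hz
  have m : ∀ c : k, c • x ∈ J 0 ∧ c • y ∈ J 0 := fun c =>
    ⟨(J 0).smul_mem c ⟨1, 0, 0, 0, by simp [el, ev_apply]⟩, (J 0).smul_mem c ⟨0, 1, 0, 0, by simp [el, ev_apply]⟩⟩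
  refine uni_of (J := J 0) (n := 2 * n + 1) (fun g hg => ((closure_le (sat _ j1)).2 ?_ hg).1)
    (le_bot_iff.1 ((j2 n).trans ?_))
  · have : ∀ (g : Rˣ) (r : R), r * r = 0 → r ∈ J 0 → (g : R) = 1 + r → g ∈ sat _ j1 := fun g r h1 h2 e => by
      rw [show g = ex r h1 from Units.ext e]
      exact ⟨by simpa using h2, by simpa using h2⟩
    rintro g ⟨c, e | e⟩
    exacts [this g _ (by simp [hx]) (m c).1 e, this g _ (by simp [hy]) (m c).2 e]
  · rintro _ ⟨a, b, c, d, rfl⟩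
    simp [el, ev_apply, hn]

/-- the part of the algebra `k[xy + yx]` on which `xy + yx` is invertible -/
structure Mo (k : Type u) [Field k] [Algebra k R] (x y : R) {A : Type u} [CommRing A] [Algebra k A] (θ : A →ₙ+* R)
    (ζ ζ' : A) : Prop where
  xx : x * x = 0
  yy : y * y = 0
  fin : FiniteDimensional k A
  inv : ζ * ζ' = 1
  gen : ∀ a, ∃ g : k[X], aeval ζ g = a
  inj : ∀ a, θ a = 0 → a = 0
  sm : ∀ (c : k) a, θ (algebraMap k A c * a) = c • θ a
  cx : ∀ a, θ a * x = x * θ a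
  cy : ∀ a, θ a * y = y * θ a
  tz : θ ζ = θ 1 * (x * y + y * x)
  nil : IsNilpotent (x * y + y * x - θ ζ)

theorem exists_mo [FiniteDimensional k R] (hx : x * x = 0) (hy : y * y = 0) :
    ∃ (A : Type u) (_ : CommRing A) (_ : Algebra k A) (θ : A →ₙ+* R) (ζ ζ' : A), Mo k x y θ ζ ζ' := by
  set z := x * y + y * x
  have hi : IsIntegral k z := Algebra.IsIntegral.isIntegral z
  obtain ⟨q, h1, h2⟩ := exists_eq_pow_rootMultiplicity_mul_and_not_dvd _ (minpoly.ne_zero hi) 0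
  rw [map_zero, sub_zero] at h1 h2
  generalize rootMultiplicity 0 (minpoly k z) = m at h1
  have cp : IsCoprime X q := (irreducible_X.coprime_iff_not_dvd).2 h2
  obtain ⟨a, b, hab⟩ := cp.pow_left (m := m)
  obtain ⟨s, t, hst⟩ := cp
  have z0 : ∀ g, aeval z (g * (X ^ m * q)) = 0 := fun g => by rw [← h1, map_mul, minpoly.aeval, mul_zero]
  have q0 : q ≠ 0 := fun e => h2 (e ▸ dvd_zero _)
  let f : AdjoinRoot q → R := fun u => aeval z ((AdjoinRoot.mk_surjective u).choose * (a * X ^ m))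
  have hf : ∀ g, f (AdjoinRoot.mk q g) = aeval z (g * (a * X ^ m)) := fun g => by
    obtain ⟨r, hr⟩ := AdjoinRoot.mk_eq_mk.1 (AdjoinRoot.mk_surjective (AdjoinRoot.mk q g)).choose_spec
    rw [← sub_eq_zero, ← map_sub, ← sub_mul, hr, ← z0 (r * a)]; congr 1; ring
  let θ : AdjoinRoot q →ₙ+* R :=
    { toFun := f
      map_zero' := by rw [← map_zero (AdjoinRoot.mk q), hf]; simp
      map_add' := fun u v => by
        obtain ⟨u, rfl⟩ := AdjoinRoot.mk_surjective u
        obtain ⟨v, rfl⟩ := AdjoinRoot.mk_surjective v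
        rw [← map_add, hf, hf, hf, add_mul, map_add]
      map_mul' := fun u v => by
        obtain ⟨u, rfl⟩ := AdjoinRoot.mk_surjective u
        obtain ⟨v, rfl⟩ := AdjoinRoot.mk_surjective v
        rw [← map_mul, hf, hf, hf, ← map_mul, ← sub_eq_zero, ← map_sub, ← z0 (u * v * a * b)]
        congr 1; linear_combination (-u * v * a * X ^ m) * hab }
  have hθ : ∀ g, θ (AdjoinRoot.mk q g) = aeval z (g * (a * X ^ m)) := hf
  refine ⟨AdjoinRoot q, inferInstance, inferInstance, θ, AdjoinRoot.mk q X, AdjoinRoot.mk q s, hx, hy,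
    (AdjoinRoot.powerBasis q0).finite, ?_, fun u => ?_, fun u hu => ?_, fun c u => ?_, fun u => ?_, fun u => ?_, ?_,
    m + 1, ?_⟩
  · rw [← map_mul, ← map_one (AdjoinRoot.mk q), AdjoinRoot.mk_eq_mk]; exact ⟨-t, by linear_combination hst⟩
  · obtain ⟨u, rfl⟩ := AdjoinRoot.mk_surjective u
    exact ⟨u, AdjoinRoot.aeval_eq u⟩
  · obtain ⟨u, rfl⟩ := AdjoinRoot.mk_surjective u
    obtain ⟨r, hr⟩ := minpoly.dvd k z (hθ u ▸ hu)
    rw [h1] at hr
    have : u * a = q * r := mul_left_cancel₀ (pow_ne_zero m X_ne_zero) (by linear_combination hr)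
    exact AdjoinRoot.mk_eq_zero.2 ⟨X ^ m * r + u * b, by linear_combination X ^ m * this - u * hab⟩
  · obtain ⟨u, rfl⟩ := AdjoinRoot.mk_surjective u
    rw [show algebraMap k (AdjoinRoot q) c = AdjoinRoot.mk q (C c) from rfl, ← map_mul, hθ, hθ, mul_assoc, map_mul,
      aeval_C, Algebra.smul_def]
  · obtain ⟨u, rfl⟩ := AdjoinRoot.mk_surjective u
    rw [hθ]; exact comm_aeval (comm_z hx) _
  · obtain ⟨u, rfl⟩ := AdjoinRoot.mk_surjective u
    rw [hθ]; exact comm_aeval (comm_z' hy) _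
  · rw [← map_one (AdjoinRoot.mk q), hθ, hθ, one_mul, mul_comm X, map_mul _ _ X, aeval_X]
  · rw [hθ, show z - aeval z (X * (a * X ^ m)) = aeval z (X * b * q) by
      conv_lhs => enter [1]; rw [← aeval_X (R := k) z]
      rw [← map_sub]; congr 1; linear_combination (-X) * hab, ← map_pow, ← z0 (X * b ^ (m + 1) * q ^ m)]
    congr 1; ring

section Mo

variable {A : Type u} [CommRing A] [Algebra k A] {θ : A →ₙ+* R} {ζ ζ' : A}

theorem Mo.symm (h : Mo k x y θ ζ ζ') : Mo k y x θ ζ ζ' :=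
  ⟨h.yy, h.xx, h.fin, h.inv, h.gen, h.inj, h.sm, h.cy, h.cx, add_comm (x * y) _ ▸ h.tz, add_comm (x * y) _ ▸ h.nil⟩

theorem Mo.mul (h : Mo k x y θ ζ ζ') (a b : A) : θ a * x * (θ b * y) = θ (a * b) * (x * y) := by
  rw [map_mul, mul_assoc, ← mul_assoc x, ← h.cx, mul_assoc, mul_assoc]

theorem Mo.mul' (h : Mo k x y θ ζ ζ') (a b : A) : θ a * x * (θ b * x) = 0 := by
  rw [mul_assoc, ← mul_assoc x, ← h.cx, mul_assoc, h.xx, mul_zero, mul_zero]

theorem Mo.xyx (h : Mo k x y θ ζ ζ') (a : A) : θ a * (x * y * x) = θ (a * ζ) * x := by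
  rw [map_mul, h.tz, ← mul_assoc (θ a) (θ 1), ← map_mul, mul_one, mul_assoc (θ a), add_mul, mul_assoc y, h.xx,
    mul_zero, add_zero]

theorem Mo.mul3 (h : Mo k x y θ ζ ζ') (a b c : A) : θ a * x * (θ b * y) * (θ c * x) = θ (a * b * c * ζ) * x := by
  rw [h.mul, ← h.xyx, map_mul _ _ c, mul_assoc, mul_assoc (θ _), ← mul_assoc _ (θ c), mul_assoc x, ← h.cy,
    ← mul_assoc x, ← h.cx]
  simp only [mul_assoc]

theorem Mo.cl (h : Mo k x y θ ζ ζ') : Cl θ 1 (θ 1 * x) (θ ζ' * y) := by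
  have c : ∀ {r : R}, (∀ a, θ a * r = r * θ a) → ∀ b a, θ a * (θ b * r) = θ b * r * θ a := fun hr b a => by
    rw [mul_assoc, ← hr, ← mul_assoc, ← mul_assoc, ← map_mul, ← map_mul, mul_comm a]
  refine ⟨h.mul' _ _, h.symm.mul' _ _, c h.cx _, c h.cy _, ?_, ?_⟩
  · rw [h.mul3, ← mul_assoc, ← map_mul]; congr 2; linear_combination h.inv
  · rw [h.symm.mul3, ← mul_assoc, ← map_mul]; congr 2; linear_combination ζ' * h.inv

theorem Mo.sum (h : Mo k x y θ ζ ζ') (a : A) : θ (a * ζ') * (x * y) + θ (a * ζ') * (y * x) = θ a := by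
  rw [← mul_add, ← mul_one (a * ζ'), map_mul, mul_assoc, ← h.tz, ← map_mul, mul_assoc, mul_comm ζ', h.inv, mul_one]

theorem Mo.eq_zero (h : Mo k x y θ ζ ζ') {a : A} (e : θ a * x = 0) : a = 0 := by
  refine h.inj a ?_
  have : θ (a * ζ') * x = 0 := by rw [mul_comm, map_mul, mul_assoc, e, mul_zero]
  rw [← h.sum, ← mul_assoc, this, ← mul_assoc, h.cy, mul_assoc, this]; simp

theorem Mo.hom_uu (h : Mo k x y θ ζ ζ') (a : A) : (h.cl.hom (uu a) : R) = 1 + θ a * x := by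
  rw [Cl.hom_uu, ← mul_assoc, ← map_mul, mul_one]

theorem Mo.hom_ll (h : Mo k x y θ ζ ζ') (a : A) : (h.cl.hom (ll (a * ζ)) : R) = 1 + θ a * y := by
  rw [Cl.hom_ll, ← mul_assoc, ← map_mul, mul_assoc, h.inv, mul_one]

theorem Mo.mem (h : Mo k x y θ ζ ζ') (h2 : (2 : k) ≠ 0) (h3 : 3 < ENat.card k) (hx : Q k G x) (a : A)
    (hy : Q k G y) : In G (1 + θ a * x) := by
  haveI := h.fin
  have an : ∀ {r : R}, (∀ a, θ a * r = r * θ a) → ∀ a, θ a * (r - θ 1 * r) = 0 ∧ (r - θ 1 * r) * θ a = 0 :=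
    fun {r} hr a => ⟨by rw [mul_sub, ← mul_assoc, ← map_mul, mul_one, sub_self],
      by rw [sub_mul, mul_assoc, ← hr, ← mul_assoc, ← map_mul, one_mul, sub_self]⟩
  have mu : ∀ {r s : R}, (∀ a, θ a * r = r * θ a) → (∀ a, θ a * s = s * θ a) →
      (r - θ 1 * r) * (s - θ 1 * s) = r * s - θ 1 * (r * s) := fun {r s} hr hs => by
    rw [sub_mul, mul_assoc, ← mul_assoc, hr, mul_assoc, (an hs 1).1, mul_zero, sub_zero, mul_sub, ← mul_assoc, ← hr,
      mul_assoc]
  set H0 := closure (gens k (x - θ 1 * x) (y - θ 1 * y))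
  have u0 : Uni k H0 := uni_of_nilp (by rw [mu h.cx h.cx, h.xx]; simp) (by rw [mu h.cy h.cy, h.yy]; simp) (by
    rw [mu h.cx h.cy, mu h.cy h.cx, sub_add_sub_comm, ← mul_add, ← h.tz]; exact h.nil)
  have cm : ∀ g, ∀ n ∈ H0, h.cl.hom g * n = n * h.cl.hom g := fun g n hn => by
    refine ((closure_le (𝐂 (zpowers (h.cl.hom g)))).2 ?_ hn) _ (mem_zpowers _)
    have key : ∀ (r : R) (c : k) (n : Rˣ), (∀ a, θ a * r = r * θ a) → (n : R) = 1 + c • (r - θ 1 * r) →
        n ∈ 𝐂 (zpowers (h.cl.hom g)) := fun r c n hr e => by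
      refine cm_iff_le.1 (fun a ha b hb => ?_ : Cm (zpowers n) (zpowers (h.cl.hom g))) (mem_zpowers n)
      obtain ⟨i, rfl⟩ := ha
      obtain ⟨j, rfl⟩ := hb
      refine (Commute.zpow_zpow (Units.ext ?_) i j).eq
      have k1 : ∀ a P, (r - θ 1 * r) * (θ a * P) = 0 := fun a P => by rw [← mul_assoc, (an hr a).2, zero_mul]
      have k2 : ∀ {P : R}, (∀ a, θ a * P = P * θ a) → ∀ a, θ a * P * (r - θ 1 * r) = 0 := fun hP a => by
        rw [hP, mul_assoc, (an hr a).1, mul_zero]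
      have c1 : ∀ {P Q : R}, (∀ a, θ a * P = P * θ a) → (∀ a, θ a * Q = Q * θ a) → ∀ a, θ a * (P * Q) = P * Q * θ a :=
        fun hP hQ a => by rw [← mul_assoc, hP, mul_assoc, hQ, mul_assoc]
      simp only [Units.val_mul, e, Cl.hom_val, el, mul_add, add_mul, smul_mul_assoc, mul_smul_comm, k1, k2 h.cl.cx,
        k2 h.cl.cy, k2 (c1 h.cl.cx h.cl.cy), k2 (c1 h.cl.cy h.cl.cx), one_mul, mul_one, smul_zero, add_zero]
      abel
    rintro n ⟨c, e | e⟩
    exacts [key x c n h.cx e, key y c n h.cy e]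
  let T : (K : Subgroup Rˣ) → K ≤ H0 → Subgroup SL(2, A) := fun K hK =>
    { carrier := {g | ∃ n ∈ K, h.cl.hom g * n ∈ G}
      one_mem' := ⟨1, one_mem _, by simp⟩
      mul_mem' := by
        rintro g g' ⟨n, hn, e⟩ ⟨n', hn', e'⟩
        refine ⟨n * n', mul_mem hn hn', ?_⟩
        convert mul_mem e e' using 1
        rw [map_mul, mul_assoc, mul_assoc, ← mul_assoc n, ← cm _ _ (hK hn), mul_assoc]
      inv_mem' := by
        rintro g ⟨n, hn, e⟩
        exact ⟨n⁻¹, inv_mem hn, by rw [cm _ _ (hK hn)] at e; simpa using inv_mem e⟩ }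
  have t0 := alg_case h2 h3 _ A ζ (T H0 le_rfl) rfl (IsUnit.of_mul_eq_one _ h.inv) h.gen (fun c => by
    refine ⟨ex (c • (x - θ 1 * x)) (by simp [mu h.cx h.cx, h.xx]), subset_closure ⟨c, Or.inl rfl⟩,
      in_iff.1 ?_⟩
    convert hx.2 c using 1
    rw [Units.val_mul, h.hom_uu, ex_val, ← mul_one (algebraMap k A c), h.sm, add_mul, mul_add, mul_add]
    simp only [smul_mul_assoc, mul_smul_comm, h.cx 1, mul_assoc x, one_mul, mul_one]
    rw [← h.cx, (an h.cx 1).1]; simp [smul_sub, add_assoc]) (fun c => by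
    refine ⟨ex (c • (y - θ 1 * y)) (by simp [mu h.cy h.cy, h.yy]), subset_closure ⟨c, Or.inr rfl⟩,
      in_iff.1 ?_⟩
    convert hy.2 c using 1
    rw [Units.val_mul, h.hom_ll, ex_val, ← mul_one (algebraMap k A c), h.sm, add_mul, mul_add, mul_add]
    simp only [smul_mul_assoc, mul_smul_comm, h.cy 1, mul_assoc y, one_mul, mul_one]
    rw [← h.cy, (an h.cy 1).1]; simp [smul_sub, add_assoc])
  obtain ⟨t, t1, t2⟩ := exists_sq_ne_one h3
  have e1 : algebraMap k A t * algebraMap k A t⁻¹ = 1 := by rw [← map_mul, mul_inv_cancel₀ t1, map_one]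
  have d0 : mk2 (algebraMap k A t) 0 0 (algebraMap k A t⁻¹) (by simpa using e1) ∈ T H0 le_rfl := by
    convert mul_mem (mul_mem (mul_mem (t0 (algebraMap k A t)).1 (t0 (-algebraMap k A t⁻¹)).2) (t0 (algebraMap k A t)).1)
      (mul_mem (mul_mem (t0 (-1)).1 (t0 1).2) (t0 (-1)).1) using 1
    rw [ulu, ulu, mk_mul, mk_eq]
    exact ⟨by linear_combination (algebraMap k A t) * e1, by linear_combination -e1, by linear_combination e1, by ring⟩
  have key : ∀ j a, uu a ∈ T _ (H0.lowerCentralSeries_le_self j) := fun j => by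
    induction j with
    | zero => exact fun a => (t0 a).1
    | succ j ih =>
      intro a
      obtain ⟨n, hn, e⟩ := ih (algebraMap k A (1 - t ^ 2)⁻¹ * a)
      obtain ⟨n', hn', e'⟩ := d0
      refine ⟨⁅n, n'⁆, commutator_mem_commutator hn hn', ?_⟩
      have e3 : uu a = ⁅uu (algebraMap k A (1 - t ^ 2)⁻¹ * a),
          mk2 (algebraMap k A t) 0 0 (algebraMap k A t⁻¹) (by simpa using e1)⁆ := by
        rw [commutatorElement_def, ← uu_neg, mul_assoc, mul_assoc, ← mul_assoc (mk2 ..), conj_uu, uu, uu, mk_mul, mk_eq]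
        have : algebraMap k A (1 - t ^ 2)⁻¹ * (1 - algebraMap k A t ^ 2) = 1 := by
          rw [← map_pow, ← map_one (algebraMap k A), ← map_sub, ← map_mul, inv_mul_cancel₀ (sub_ne_zero.2 t2.symm)]
        exact ⟨by ring, by linear_combination -a * this, by ring, by ring⟩
      have hn0 := H0.lowerCentralSeries_le_self j hn
      convert mul_mem (mul_mem (mul_mem e e') (inv_mem e)) (inv_mem e') using 1
      rw [e3, map_commutatorElement]
      have c1 := fun g => Commute.symm (cm g _ hn0)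
      have c2 := fun g => Commute.symm (cm g _ hn')
      generalize uu (algebraMap k A (1 - t ^ 2)⁻¹ * a) = g1
      generalize mk2 (algebraMap k A t) 0 0 (algebraMap k A t⁻¹) _ = g2
      simp only [commutatorElement_def, mul_inv_rev, mul_assoc]
      rw [(c1 g2).left_comm, (c1 g1).inv_inv.left_comm, (c2 g1).inv_right.left_comm,
        (c1 g1).inv_right.left_comm, (c2 g2).inv_inv.eq, (c1 g2).inv_inv.left_comm, (c2 g2).inv_right.left_comm,
        (c1 g2).inv_right.left_comm]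
  obtain ⟨m, hm⟩ := (H0.isNilpotent_iff_lowerCentralSeries).1 u0.nil
  obtain ⟨n, hn, e⟩ := key m a
  rw [hm, mem_bot] at hn
  rw [hn, mul_one] at e
  exact h.hom_uu a ▸ in_iff.2 e

end Mo

end CA.Quad
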