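import Cfsg.Agent.Lib.Root.Q3
import Cfsg.Agent.Lib.Root.R7

/-!
Quadratic elements of minimal rank (Timmesfeld, quadratic pairs).
-/

set_option autoImplicit false

namespace CA.Quad

open Subgroup Cfsg CA.Amb CA.AmbCore CA.AmbRes CA.Root
open LinearMap (range ker)
open Module (finrank)
open scoped commutatorElement

universe u

/-- the hypothesis on the field -/
class Gd (k : Type u) [Field k] : Prop where
  two : (2 : k) ≠ 0
  three : 3 < ENat.card k

section Ring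

variable {k : Type u} {R : Type*} [Field k] [Ring R] [Algebra k R] {x y : R} {G : Subgroup Rˣ}

theorem Q.zero : Q k G 0 := ⟨mul_zero _, fun _ => by simpa using In.one⟩

theorem Q.smul (h : Q k G x) (c : k) : Q k G (c • x) := ⟨by simp [h.1], fun d => smul_smul d c x ▸ h.2 _⟩

theorem Q.add (h : Q k G x) (h' : Q k G y) (e : x * y = 0) (e' : y * x = 0) : Q k G (x + y) :=
  ⟨by simp [mul_add, add_mul, h.1, h'.1, e, e'], fun c => by
    convert (h.2 c).mul (h'.2 c) using 1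
    simp [mul_add, add_mul, e, add_assoc]⟩

theorem Q.conj (h : Q k G x) {g : Rˣ} (hg : g ∈ 𝐍 G) : Q k G (g * x * (g⁻¹ : Rˣ)) := by
  refine ⟨by simp only [mul_assoc, Units.inv_mul_cancel_left]; rw [← mul_assoc x, h.1]; simp, fun c => ?_⟩
  obtain ⟨a, ha, e⟩ := h.2 c
  exact ⟨_, conj_mem_of_mem_normalizer hg ha, by simp [e, mul_add, add_mul]⟩

theorem Q.ex_mem (h : Q k G x) : ex x h.1 ∈ G := in_iff.1 (by simpa using h.2 1)

theorem Q.mono {G' : Subgroup Rˣ} (h : Q k G x) (hle : G ≤ G') : Q k G' x :=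
  ⟨h.1, fun c => let ⟨g, hg, e⟩ := h.2 c; ⟨g, hle hg, e⟩⟩

theorem comm_ex (hx : x * x = 0) (hy : y * y = 0) (h1 : x * y * x = 0) (h2 : y * x * y = 0) :
    ((⁅ex x hx, ex y hy⁆ : Rˣ) : R) = 1 + (x * y - y * x) := by
  have a1 : x * (x * y) = 0 := by rw [← mul_assoc, hx, zero_mul]
  have a2 : ∀ r, y * (x * (y * r)) = 0 := fun r => by rw [← mul_assoc, ← mul_assoc, h2, zero_mul]
  have a3 : ∀ r, x * (y * (x * r)) = 0 := fun r => by rw [← mul_assoc, ← mul_assoc, h1, zero_mul]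
  rw [mul_assoc] at h1 h2
  simp only [commutatorElement_def, Units.val_mul, ex_val, ex_inv_val, mul_add, add_mul, mul_sub, sub_mul, mul_one,
    one_mul, mul_assoc, hx, hy, h1, h2, a1, a3, mul_zero]
  abel

theorem Q.comm (hx : Q k G x) (hy : Q k G y) (h1 : x * y * x = 0) (h2 : y * x * y = 0) : Q k G (x * y - y * x) := by
  refine ⟨?_, fun c => ?_⟩
  · rw [mul_sub, sub_mul, sub_mul, ← mul_assoc, ← mul_assoc, ← mul_assoc, ← mul_assoc, h1, h2, mul_assoc y x x,
      mul_assoc x y y, hx.1, hy.1]; simp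
  · have := comm_ex (hx.smul c).1 hy.1 (by simp [h1]) (by simp [h2])
    refine ⟨_, mul_mem (mul_mem (mul_mem (hx.smul c).ex_mem hy.ex_mem) (inv_mem (hx.smul c).ex_mem))
      (inv_mem hy.ex_mem), this.trans (by simp [smul_sub])⟩

theorem Q.sandwich [Gd k] (hx : Q k G x) (hy : Q k G y) (h1 : x * y * x = 0) : Q k G (y * x * y) := by
  have a1 : ∀ r, x * (y * (x * r)) = 0 := fun r => by rw [← mul_assoc, ← mul_assoc, h1, zero_mul]
  have a2 : ∀ r, x * (x * r) = 0 := fun r => by rw [← mul_assoc, hx.1, zero_mul]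
  have a3 : ∀ r, y * (y * r) = 0 := fun r => by rw [← mul_assoc, hy.1, zero_mul]
  refine ⟨by simp [mul_assoc, a3], fun c => ?_⟩
  rw [mul_assoc] at h1
  obtain ⟨c, rfl⟩ : ∃ d : k, c = -(d + d) := ⟨-c / 2, by field_simp [Gd.two (k := k)]; ring⟩
  convert (((hx.conj (le_normalizer hy.ex_mem)).2 c).mul ((hx.conj (le_normalizer (inv_mem hy.ex_mem))).2 c)).mul
    (hx.2 (-(c + c))) using 1
  simp only [inv_inv, ex_val, ex_inv_val, mul_add, add_mul, mul_sub, sub_mul, mul_one, one_mul, mul_assoc, hx.1,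
    h1, a1, a2, a3, mul_zero, smul_add, smul_sub, smul_mul_assoc, mul_smul_comm, smul_zero]
  module

theorem uni_pair {a b : R} {H K : Subgroup Rˣ}
    (h : ∀ g : Rˣ, g ∈ H ∨ g ∈ K → ∀ r, r = (g : R) - 1 → (∀ s, s * a = 0 → s * b = 0 → s * r = 0) ∧
      (∀ s, a * s = 0 → b * s = 0 → r * s = 0) ∧ a * r * a = 0 ∧ a * r * b = 0 ∧ b * r * a = 0 ∧ b * r * b = 0) :
    Uni k (H ⊔ K) := by
  let J : Submodule k R :=
    { carrier := {r | (∀ s, s * a = 0 → s * b = 0 → s * r = 0) ∧ (∀ s, a * s = 0 → b * s = 0 → r * s = 0) ∧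
        a * r * a = 0 ∧ a * r * b = 0 ∧ b * r * a = 0 ∧ b * r * b = 0}
      zero_mem' := by simp
      add_mem' := fun h h' => ⟨fun s e e' => by rw [mul_add, h.1 s e e', h'.1 s e e', add_zero],
        fun s e e' => by rw [add_mul, h.2.1 s e e', h'.2.1 s e e', add_zero],
        by simp only [mul_add, add_mul, h.2.2, h'.2.2, add_zero, and_self]⟩
      smul_mem' := fun c r h => ⟨fun s e e' => by rw [mul_smul_comm, h.1 s e e', smul_zero],
        fun s e e' => by rw [smul_mul_assoc, h.2.1 s e e', smul_zero],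
        by simp only [mul_smul_comm, smul_mul_assoc, h.2.2, smul_zero, and_self]⟩ }
  have j0 : ∀ r ∈ J, ∀ s ∈ J, a * (r * s) = 0 ∧ b * (r * s) = 0 := fun r hr s hs =>
    ⟨mul_assoc a r s ▸ hs.1 _ hr.2.2.1 hr.2.2.2.1, mul_assoc b r s ▸ hs.1 _ hr.2.2.2.2.1 hr.2.2.2.2.2⟩
  have j1 : J * J ≤ J := Submodule.mul_le.2 fun r hr s hs =>
    ⟨fun t e e' => by rw [← mul_assoc, hr.1 t e e', zero_mul], fun t e e' => by rw [mul_assoc, hs.2.1 t e e', mul_zero],
      by simp only [j0 r hr s hs, zero_mul, and_self]⟩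
  refine uni_of (J := J) (n := 3) (fun g hg => ((sup_le ?_ ?_ : H ⊔ K ≤ sat J j1) hg).1) (le_bot_iff.1 ?_)
  · exact fun g hg => ⟨h g (Or.inl hg) _ rfl, h _ (Or.inl (inv_mem hg)) _ rfl⟩
  · exact fun g hg => ⟨h g (Or.inr hg) _ rfl, h _ (Or.inr (inv_mem hg)) _ rfl⟩
  · rw [pow_three]
    refine Submodule.mul_le.2 fun r hr s hs => Submodule.mul_induction_on hs (fun s hs t ht => ?_)
      fun s t h1 h2 => by rw [mul_add]; exact add_mem h1 h2
    exact hr.2.1 _ (j0 s hs t ht).1 (j0 s hs t ht).2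

end Ring

variable {k : Type u} [Field k] {M : Type*} [AddCommGroup M] [Module k M] {L : Subgroup (Module.End k M)ˣ}
  {x y u v w r : Module.End k M}

/-- rank -/
noncomputable def rk (x : Module.End k M) : ℕ := finrank k (range x)

/-- quadratic elements of minimal rank -/
def Md (L : Subgroup (Module.End k M)ˣ) (x : Module.End k M) : Prop :=
  Q k L x ∧ x ≠ 0 ∧ ∀ y, Q k L y → y ≠ 0 → rk x ≤ rk y

theorem mul_eq_zero_iff : x * y = 0 ↔ range y ≤ ker x := LinearMap.range_le_ker_iff.symm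

theorem range_mul_le (x y : Module.End k M) : range (x * y) ≤ range x := LinearMap.range_comp_le_range _ _

theorem ker_le_mul (x y : Module.End k M) : ker y ≤ ker (x * y) := LinearMap.ker_le_ker_comp _ _

/-- the quadratic elements acting like `x` -/
def V (L : Subgroup (Module.End k M)ˣ) (x : Module.End k M) : Submodule k (Module.End k M) where
  carrier := {u | Q k L u ∧ ker x ⊔ range x ≤ ker u ∧ range u ≤ range x}
  zero_mem' := ⟨Q.zero, by simp, by simp⟩
  add_mem' := fun h h' => ⟨h.1.add h'.1 (mul_eq_zero_iff.2 (h'.2.2.trans (le_sup_right.trans h.2.1)))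
    (mul_eq_zero_iff.2 (h.2.2.trans (le_sup_right.trans h'.2.1))),
    fun m hm => by simp [LinearMap.mem_ker.1 (h.2.1 hm), LinearMap.mem_ker.1 (h'.2.1 hm)],
    (LinearMap.range_add_le _ _).trans (sup_le h.2.2 h'.2.2)⟩
  smul_mem' := fun c u h => ⟨h.1.smul c, fun m hm => by simp [LinearMap.mem_ker.1 (h.2.1 hm)],
    (LinearMap.range_smul_le_range _ _).trans h.2.2⟩

theorem V_l (h : u ∈ V L x) (e : r * x = 0) : r * u = 0 := mul_eq_zero_iff.2 (h.2.2.trans (mul_eq_zero_iff.1 e))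

theorem V_r (h : u ∈ V L x) (e : x * r = 0) : u * r = 0 :=
  mul_eq_zero_iff.2 ((mul_eq_zero_iff.1 e).trans (le_sup_left.trans h.2.1))

theorem V_mul (h : u ∈ V L x) (h' : v ∈ V L x) : u * v = 0 :=
  mul_eq_zero_iff.2 (h'.2.2.trans (le_sup_right.trans h.2.1))

theorem V_mul3 (h : u ∈ V L x) (h' : v ∈ V L y) (e : x * r * y = 0) : u * r * v = 0 :=
  V_l h' ((mul_assoc u r y).trans (V_r h ((mul_assoc x r y).symm.trans e)))

theorem mem_V (h : Q k L u) (hx : x * x = 0) (s t : Module.End k M) (e : u = x * s) (e' : u = t * x) : u ∈ V L x :=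
  ⟨h, (sup_le le_rfl (mul_eq_zero_iff.1 hx)).trans (e' ▸ ker_le_mul t x), e ▸ range_mul_le x s⟩

theorem Q.mem_V (h : Q k L x) : x ∈ V L x := Quad.mem_V h h.1 1 1 (mul_one x).symm (one_mul x).symm

theorem V_le (h : u ∈ V L x) : V L u ≤ V L x := fun _ hv =>
  ⟨hv.1, h.2.1.trans (le_sup_left.trans hv.2.1), hv.2.2.trans h.2.2⟩

theorem V_neg : V L (-x) = V L x := by simp only [V, LinearMap.ker_neg, LinearMap.range_neg]

theorem rk_neg : rk (-x) = rk x := by rw [rk, LinearMap.range_neg]; rfl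

theorem Md.neg (h : Md L x) : Md L (-x) :=
  ⟨by simpa using h.1.smul (-1), neg_ne_zero.2 h.2.1, fun y hy y0 => rk_neg.trans_le (h.2.2 y hy y0)⟩

theorem conj_mem_V {g : (Module.End k M)ˣ} (hg : g ∈ 𝐍 L) (h : u ∈ V L x) :
    g * u * (g⁻¹ : (Module.End k M)ˣ) ∈ V L (g * x * (g⁻¹ : (Module.End k M)ˣ)) := by
  refine ⟨h.1.conj hg, sup_le (fun m hm => ?_) (mul_eq_zero_iff.1 ?_), ?_⟩
  · have : x ((g⁻¹ : (Module.End k M)ˣ).1 m) = 0 := by
      simpa [← Module.End.mul_apply, ← mul_assoc] using congrArg (g⁻¹ : (Module.End k M)ˣ).1 hm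
    simp [LinearMap.mem_ker.1 (h.2.1 (Submodule.mem_sup_left this))]
  · simp only [mul_assoc, Units.inv_mul_cancel_left]
    rw [← mul_assoc u, mul_eq_zero_iff.2 (le_sup_right.trans h.2.1)]; simp
  · rintro _ ⟨m, rfl⟩
    obtain ⟨m', e⟩ := h.2.2 ⟨(g⁻¹ : (Module.End k M)ˣ).1 m, rfl⟩
    refine ⟨g.1 m', ?_⟩
    rw [← Module.End.mul_apply, Units.inv_mul_cancel_right, Module.End.mul_apply, e]; rfl

/-- the root subgroup attached to `x` -/
def E (L : Subgroup (Module.End k M)ˣ) (x : Module.End k M) : Subgroup (Module.End k M)ˣ where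
  carrier := {g | (g : Module.End k M) - 1 ∈ V L x}
  one_mem' := by simp
  mul_mem' := fun {a b} ha hb => by
    have : ((a * b : (Module.End k M)ˣ) : Module.End k M) - 1 =
        ((a : Module.End k M) - 1) * ((b : Module.End k M) - 1) + ((a : Module.End k M) - 1 + (b - 1)) := by
      rw [Units.val_mul]; noncomm_ring
    show _ ∈ V L x
    rw [this, V_mul ha hb, zero_add]
    exact add_mem ha hb
  inv_mem' := fun {a} ha => by
    rw [show a = ex _ ha.1.1 from Units.ext (by simp)]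
    show _ ∈ V L x
    rw [ex_inv_val, sub_sub_cancel_left]
    exact neg_mem ha

theorem mem_E {g : (Module.End k M)ˣ} : g ∈ E L x ↔ ∃ u, ∃ h : u ∈ V L x, g = ex u h.1.1 :=
  ⟨fun h => ⟨_, h, Units.ext (by simp)⟩, by rintro ⟨u, h, rfl⟩; show _ ∈ V L x; simpa using h⟩

theorem ex_mem_E (h : u ∈ V L x) : ex u h.1.1 ∈ E L x := mem_E.2 ⟨u, h, rfl⟩

theorem E_le : E L x ≤ L := fun _ hg => by obtain ⟨u, h, rfl⟩ := mem_E.1 hg; exact h.1.ex_mem

theorem E_eq (h : V L x = V L y) : E L x = E L y := by simp only [E, h]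

theorem ex_eq_one (h : u * u = 0) : ex u h = 1 ↔ u = 0 := by simp [Units.ext_iff]

theorem cm_E : Cm (E L x) (E L x) := fun a ha b hb => by
  obtain ⟨u, h, rfl⟩ := mem_E.1 ha
  obtain ⟨v, h', rfl⟩ := mem_E.1 hb
  exact Units.ext (by simp [mul_add, add_mul, V_mul h h', V_mul h' h, add_right_comm])

theorem cj_E {g : (Module.End k M)ˣ} (hg : g ∈ 𝐍 L) : cj g (E L x) = E L (g * x * (g⁻¹ : (Module.End k M)ˣ)) := by
  ext a
  rw [mem_cj]
  refine ⟨fun h => ?_, fun h => ?_⟩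
  · have := conj_mem_V hg h
    show _ ∈ V L _
    simpa [mul_sub, sub_mul, mul_assoc] using this
  · have := conj_mem_V (inv_mem hg) h
    show _ ∈ V L _
    simpa [mul_sub, sub_mul, mul_assoc] using this

variable [FiniteDimensional k M]

theorem rk_le (h : range x ≤ range y) : rk x ≤ rk y := Submodule.finrank_mono h

theorem rk_add_ker (x : Module.End k M) : rk x + finrank k (ker x) = finrank k M := x.finrank_range_add_finrank_ker

theorem rk_mul_le (x y : Module.End k M) : rk (x * y) ≤ rk y := by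
  have := Submodule.finrank_mono (ker_le_mul x y)
  have := rk_add_ker (x * y)
  have := rk_add_ker y
  omega

theorem rk_mul3 (u x v : Module.End k M) : rk (u * x * v) ≤ rk x := (rk_le (range_mul_le _ _)).trans (rk_mul_le _ _)

theorem rk_conj (g : (Module.End k M)ˣ) : rk (g.1 * x * (g⁻¹).1) = rk x :=
  le_antisymm (rk_mul3 _ _ _) (le_of_eq_of_le (congrArg rk (by simp [mul_assoc])) (rk_mul3 (g⁻¹).1 _ g.1))

theorem Md.conj (h : Md L x) {g : (Module.End k M)ˣ} (hg : g ∈ 𝐍 L) : Md L (g * x * (g⁻¹ : (Module.End k M)ˣ)) :=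
  ⟨h.1.conj hg, by simpa using h.2.1, fun y hy y0 => (rk_conj g).trans_le (h.2.2 y hy y0)⟩

theorem Md.of_le (h : Md L x) (hu : Q k L u) (u0 : u ≠ 0) (e : rk u ≤ rk x) : Md L u :=
  ⟨hu, u0, fun y hy y0 => e.trans (h.2.2 y hy y0)⟩

theorem Md.rk_eq (h : Md L x) (h' : Md L y) : rk x = rk y := le_antisymm (h.2.2 y h'.1 h'.2.1) (h'.2.2 x h.1 h.2.1)

theorem Md.of_mem (h : Md L x) (hu : u ∈ V L x) (u0 : u ≠ 0) : Md L u := h.of_le hu.1 u0 (rk_le hu.2.2)

theorem Md.range_eq (h : Md L x) (hu : u ∈ V L x) (u0 : u ≠ 0) : range u = range x :=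
  Submodule.eq_of_le_of_finrank_eq hu.2.2 ((h.of_mem hu u0).rk_eq h)

theorem Md.ker_eq (h : Md L x) (hu : u ∈ V L x) (u0 : u ≠ 0) : ker u = ker x := by
  refine (Submodule.eq_of_le_of_finrank_eq (le_sup_left.trans hu.2.1) ?_).symm
  have := rk_add_ker u
  have := rk_add_ker x
  have := (h.of_mem hu u0).rk_eq h
  omega

theorem Md.V_eq (h : Md L x) (hu : u ∈ V L x) (u0 : u ≠ 0) : V L u = V L x := by
  simp only [V, h.range_eq hu u0, h.ker_eq hu u0]

theorem Md.mem (h : Md L x) (hu : u ∈ V L x) (u0 : u ≠ 0) : x ∈ V L u := h.V_eq hu u0 ▸ h.1.mem_V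

theorem rk_mul_add (x y : Module.End k M) : rk (x * y) + finrank k ↥(range y ⊓ ker x) = rk y := by
  have := (x.domRestrict (range y)).finrank_range_add_finrank_ker
  rw [LinearMap.range_domRestrict, ← LinearMap.range_comp, LinearMap.ker_domRestrict,
    ← Submodule.finrank_map_subtype_eq, Submodule.map_comap_subtype] at this
  exact this

theorem rk_add_le (h : y * x * y = 0) : rk (x * y) + rk (y * x) ≤ rk x := by
  have := rk_mul_add y x
  have : rk (x * y) ≤ _ := Submodule.finrank_mono (le_inf (range_mul_le x y) (mul_eq_zero_iff.1 (mul_assoc y x y ▸ h)))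
  omega

theorem range_sub_le (x y : Module.End k M) : range (x - y) ≤ range x ⊔ range y := by
  rintro _ ⟨m, rfl⟩; exact sub_mem (Submodule.mem_sup_left ⟨m, rfl⟩) (Submodule.mem_sup_right ⟨m, rfl⟩)

theorem rk_comm_le (h : y * x * y = 0) : rk (x * y - y * x) ≤ rk x := by
  have h1 := Submodule.finrank_mono (range_sub_le (x * y) (y * x))
  have h2 := Submodule.finrank_sup_add_finrank_inf_eq (range (x * y)) (range (y * x))
  have h3 := rk_add_le h
  simp only [rk] at h3 ⊢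
  omega

theorem rk_lt (hn : IsNilpotent r) (hc : r * x = x * r) (x0 : x ≠ 0) : rk (r * x) < rk x := by
  refine lt_of_le_of_ne (rk_mul_le _ _) fun e => x0 ?_
  have h1 : ker x = ker (r * x) := Submodule.eq_of_le_of_finrank_eq (ker_le_mul _ _) (by
    have := rk_add_ker x
    have := rk_add_ker (r * x)
    omega)
  obtain ⟨n, hn⟩ := hn
  have : ∀ j, x * r ^ j = 0 → x = 0 := fun j => by
    induction j with
    | zero => simp
    | succ j ih => exact fun h => ih (by rwa [mul_eq_zero_iff, h1, ← mul_eq_zero_iff, hc, mul_assoc, ← pow_succ'])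
  exact this n (by rw [hn, mul_zero])

variable [Gd k]

theorem Md.nilp (hx : Md L x) (hy : Q k L y) (hz : IsNilpotent (x * y + y * x)) : x * y * x = 0 := by
  have c1 := comm_z (y := y) hx.1.1
  have c2 := comm_z' (x := x) hy.1
  have e1 : (x * y + y * x) * x = x * y * x := by rw [add_mul, mul_assoc y, hx.1.1, mul_zero, add_zero]
  have e2 : (x * y + y * x) * y = y * x * y := by rw [add_mul, mul_assoc x, hy.1, mul_zero, zero_add]
  have lt : ∀ n, rk ((x * y + y * x) ^ (n + 1) * x) < rk x := fun n =>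
    rk_lt (hz.pow_succ n) (c1.pow_right _).eq.symm hx.2.1
  have z0 : ∀ u, Q k L u → rk u < rk x → u = 0 := fun u hu h => by
    by_contra u0; exact absurd (hx.2.2 u hu u0) (not_le.2 h)
  have key : ∀ n, (x * y + y * x) ^ (n + 1) * x = 0 → (x * y + y * x) ^ (n + 1) * y = 0 → x * y * x = 0 := by
    generalize hz' : x * y + y * x = z at *
    intro n
    induction n with
    | zero => intro h _; rwa [zero_add, pow_one, e1] at h
    | succ n ih =>
      intro h1 h2
      have t1 := fun c => Q.top Gd.two hx.1 hy (hz' ▸ h1) (hz' ▸ h2) c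
      have t2 := fun c => Q.top Gd.two hy hx.1 (add_comm (x * y) _ ▸ hz' ▸ h2) (add_comm (x * y) _ ▸ hz' ▸ h1) c
      rw [add_comm (y * x)] at t2
      rw [hz'] at t1 t2
      have s1 : z ^ (n + 1) * x * (z ^ (n + 1) * x) = 0 := by
        rw [mul_assoc, ← mul_assoc x, (c1.pow_right _).eq, mul_assoc, hx.1.1]; simp
      have s2 : z ^ (n + 1) * y * (z ^ (n + 1) * y) = 0 := by
        rw [mul_assoc, ← mul_assoc y, (c2.pow_right _).eq, mul_assoc, hy.1]; simp
      have s3 : y * (z ^ (n + 1) * x) * y = 0 := by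
        rw [← mul_assoc, (c2.pow_right _).eq, mul_assoc, mul_assoc, ← mul_assoc y, ← e2, ← mul_assoc, ← pow_succ, h2]
      have s4 : z ^ (n + 1) * x * y * (z ^ (n + 1) * x) = 0 := by
        rw [mul_assoc _ y, ← mul_assoc y, (c2.pow_right _).eq, mul_assoc _ x, mul_assoc _ y, ← mul_assoc x,
          (c1.pow_right _).eq, mul_assoc, ← mul_assoc x, ← e1, ← mul_assoc (z ^ (n + 1)) z, ← pow_succ, h1, mul_zero]
      have s5 : z ^ (n + 1) * (x * y - y * x) = z ^ (n + 1) * x * y - y * (z ^ (n + 1) * x) := by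
        rw [mul_sub, ← mul_assoc y, (c2.pow_right _).eq, mul_assoc, mul_assoc]
      have w0 : z ^ (n + 1) * (x * y - y * x) = 0 := by
        refine z0 _ ⟨?_, fun c => (t1 c).1⟩ (s5 ▸ (rk_comm_le s3).trans_lt (lt n))
        rw [s5]
        generalize z ^ (n + 1) * x = a at *
        rw [mul_sub, sub_mul, sub_mul, ← mul_assoc, ← mul_assoc, ← mul_assoc, ← mul_assoc, s3, s4, mul_assoc y a a,
          mul_assoc a y y, s1, hy.1]; simp
      have x0 := z0 _ ⟨s1, fun c => (t1 c).2 w0⟩ (lt n)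
      cases n with
      | zero => rwa [zero_add, pow_one, e1] at x0
      | succ n =>
        refine ih x0 (z0 _ ⟨s2, fun c => (t2 c).2 (by rw [← neg_sub, mul_neg, w0, neg_zero])⟩ (lt_of_le_of_lt ?_ (lt n)))
        rw [pow_succ _ (n + 1), mul_assoc, e2, ← mul_assoc, ← mul_assoc, ← (c2.pow_right _).eq, mul_assoc y]
        exact (rk_le (range_mul_le _ _)).trans (rk_mul_le _ _)
  obtain ⟨n, hn⟩ := hz
  exact key n (by rw [pow_succ, hn]; simp) (by rw [pow_succ, hn]; simp)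

section Mo

variable {A : Type u} [CommRing A] [Algebra k A] {θ : A →ₙ+* Module.End k M} {ζ ζ' : A}

theorem Mo.mem_V (h : Mo k x y θ ζ ζ') (hx : Q k L x) (hy : Q k L y) (a : A) : θ a * x ∈ V L x :=
  Quad.mem_V ⟨h.mul' a a, fun c => by rw [← smul_mul_assoc, ← h.sm]; exact h.mem Gd.two Gd.three hx _ hy⟩ hx.1
    (θ a) (θ a) (h.cx a) rfl

theorem Mo.one_mul (h : Mo k x y θ ζ ζ') (hx : Md L x) (hy : Q k L y) (h0 : x * y * x ≠ 0) : θ 1 * x = x := by
  have e0 : θ 1 * x ≠ 0 := fun e => h0 (hx.nilp hy (by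
    have := h.nil
    rwa [h.tz, show θ 1 = 0 by rw [h.eq_zero e, map_zero], zero_mul, sub_zero] at this))
  by_contra h1
  refine e0 (V_l (hx.mem (sub_mem hx.1.mem_V (h.mem_V hx.1 hy 1)) (sub_ne_zero.2 (Ne.symm h1))) ?_)
  rw [mul_sub, ← mul_assoc, ← map_mul, _root_.mul_one, sub_self]

end Mo

theorem Md.dich (hx : Md L x) (hy : Q k L y) : x * y * x = 0 ∨ ∃ y' ∈ V L y, Md L y' ∧ x * y' * x = x ∧
    y' * x * y' = y' ∧ ∃ y₁ ∈ V L y', y₁ ≠ 0 ∧ x * (y - y₁) = 0 ∧ (y - y₁) * x = 0 := by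
  rw [or_iff_not_imp_left]
  intro h0
  obtain ⟨A, _, _, θ, ζ, ζ', h⟩ := exists_mo (k := k) hx.1.1 hy.1
  have e := h.one_mul hx hy h0
  have m := h.symm.mem_V hy hx.1
  have e1 : x * (θ ζ' * y) * x = x := by simpa only [← mul_assoc, ← map_mul, mul_one, e] using h.cl.xyx
  have e2 : θ ζ' * y * x * (θ ζ' * y) = θ ζ' * y := by
    have := h.cl.yxy
    rwa [e, ← mul_assoc (θ 1), ← map_mul, one_mul] at this
  have y0 : θ ζ' * y ≠ 0 := fun k => hx.2.1 (by rw [← e1, k]; simp)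
  refine ⟨_, m ζ', hx.of_le (m ζ').1 y0 (e2 ▸ (rk_le (range_mul_le _ _)).trans (rk_mul_le _ _)), e1, e2, θ 1 * y,
    mem_V (m 1).1 (m ζ').1.1 (θ ζ) (θ ζ) ?_ ?_, fun k => y0 ?_, ?_, ?_⟩
  · rw [mul_assoc, ← h.cy, ← mul_assoc, ← map_mul, mul_comm ζ', h.inv]
  · rw [← mul_assoc, ← map_mul, h.inv]
  · rw [← mul_one ζ', map_mul, mul_assoc, k, mul_zero]
  · rw [mul_sub, ← mul_assoc, ← h.cx, e, sub_self]
  · rw [sub_mul, h.cy, mul_assoc, e, sub_self]

theorem Md.dich' (hx : Md L x) (hy : Q k L y) (h : x * y * x ≠ 0) :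
    ∃ y' ∈ V L y, Md L y' ∧ x * y' * x = x ∧ y' * x * y' = y' :=
  let ⟨y', h1, h2, h3, h4, _⟩ := (hx.dich hy).resolve_left h; ⟨y', h1, h2, h3, h4⟩

theorem Md.symm (hx : Md L x) (hy : Md L y) (h : x * y * x = 0) : y * x * y = 0 := by
  by_contra h0
  obtain ⟨x', h1, h2, -, h4⟩ := hy.dich' hx.1 h0
  exact h2.2.1 (h4 ▸ V_mul3 h1 h1 h)

theorem Md.mid (hx : Md L x) (hy : Md L y) (h : x * y * x = 0) (hu : u ∈ V L x) : y * u * y = 0 := by
  by_cases u0 : u = 0
  · simp [u0]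
  · exact (hx.of_mem hu u0).symm hy (V_mul3 hu hu h)

theorem Md.mul3 (hx : Md L x) (hy : Md L y) (h : x * y * x = 0) (hu : u ∈ V L x) (hv : v ∈ V L y) (hw : w ∈ V L x) :
    u * v * w = 0 := V_mul3 hu hw (hy.mid hx (hx.symm hy h) hv)

theorem Md.uni (hx : Md L x) (hy : Md L y) (h : x * y * x = 0) : Uni k (E L x ⊔ E L y) := by
  refine uni_pair (a := x) (b := y) ?_
  rintro g (k | k) r rfl
  · exact ⟨fun s e _ => V_l k e, fun s e _ => V_r k e, by rw [V_l k hx.1.1, zero_mul], by rw [V_l k hx.1.1, zero_mul],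
      by rw [mul_assoc, V_r k hx.1.1, mul_zero], hx.mid hy h k⟩
  · exact ⟨fun s _ e => V_l k e, fun s _ e => V_r k e, hy.mid hx (hx.symm hy h) k,
      by rw [mul_assoc, V_r k hy.1.1, mul_zero], by rw [V_l k hy.1.1, zero_mul], by rw [V_l k hy.1.1, zero_mul]⟩

theorem Red.eq_zero (hL : Red k L) (hx : Md L x) (hv : Q k L v) (e : rk v ≤ rk x) (h : ∀ c, Md L c → c * v * c = 0) :
    v = 0 := by
  by_contra v0
  have := hL.of_family (W := {A | ∃ a, Md L a ∧ (∀ c, Md L c → c * a * c = 0) ∧ A = E L a}) (A := E L v)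
    (by rintro _ ⟨a, -, -, rfl⟩; exact E_le) (by rintro _ ⟨a, ha, -, rfl⟩ _ ⟨b, hb, h, rfl⟩; exact ha.uni hb (h a ha)) (by
      rintro _ ⟨a, ha, h1, rfl⟩ g hg
      refine ⟨_, ha.conj (le_normalizer hg), fun c hc => ?_, cj_E (le_normalizer hg)⟩
      simpa [mul_assoc] using congrArg (fun r => g.1 * r * (g⁻¹).1) (h1 _ (hc.conj (le_normalizer (inv_mem hg))))) ⟨v, hx.of_le hv v0 e, h, rfl⟩
  exact v0 ((ex_eq_one _).1 (mem_bot.1 (this ▸ ex_mem_E hv.mem_V)))

theorem Red.exists_op (hL : Red k L) (hx : Md L x) : ∃ y, Md L y ∧ x * y * x = x ∧ y * x * y = y := by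
  by_contra h0
  refine hx.2.1 (hL.eq_zero hx hx.1 le_rfl fun c hc => hx.symm hc ?_)
  by_contra h1
  obtain ⟨y, -, h⟩ := hx.dich' hc.1 h1
  exact h0 ⟨y, h⟩

end CA.Quad
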