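import Cfsg.Agent.Lib.Root.Q4

/-!
The subgroups `E(σ)` of a quadratic pair form a set of abstract root subgroups.
-/

set_option autoImplicit false

namespace CA.Quad

open Subgroup Cfsg CA.Amb CA.AmbCore CA.AmbRes CA.Root
open LinearMap (range ker)
open Module (finrank)
open scoped commutatorElement MatrixGroups

universe u

section Psl

variable {K R : Type*} [Field K] [Ring R] {θ : K →ₙ+* R} {x y : R}

theorem psl2_of_inj {G : Type*} [Group G] (φ : SL(2, K) →* G) (h : Function.Injective φ) :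
    IsPSL2PairOver K ((upperUnipotentSL2 K).map φ) ((lowerUnipotentSL2 K).map φ) :=
  ⟨φ, by rw [← Subgroup.map_sup, up_sup_lo, MonoidHom.range_eq_map], by rw [φ.ker_eq_bot_iff.2 h]; exact bot_le, rfl, rfl⟩

/-- the structure map of an algebra -/
def am (K R : Type*) [Field K] [Ring R] [Algebra K R] : K →ₙ+* R := (algebraMap K R : K →+* R)

theorem am_mul [Algebra K R] (a : K) (r : R) : am K R a * r = a • r := (Algebra.smul_def a r).symm

theorem cl_alg [Algebra K R] (hx : x * x = 0) (hy : y * y = 0) (h1 : x * y * x = x) (h2 : y * x * y = y) :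
    Cl (am K R) 1 x y :=
  ⟨hx, hy, fun a => Algebra.commutes a x, fun a => Algebra.commutes a y, by rw [am_mul, one_smul, h1],
    by rw [am_mul, one_smul, h2]⟩

end Psl

variable {k : Type u} [Field k] {M : Type*} [AddCommGroup M] [Module k M] {L : Subgroup (Module.End k M)ˣ}
  {x y u v w r : Module.End k M}

theorem op_cj (hx : Q k L x) (hy : Q k L y) (h1 : x * y * x = x) (h2 : y * x * y = y) :
    cj (ex y hy.1) (E L x) = cj (ex x hx.1) (E L y) := by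
  rw [cj_E (le_normalizer hy.ex_mem), cj_E (le_normalizer hx.ex_mem)]
  refine E_eq (V_neg.symm.trans ?_)
  congr 1
  simp only [ex_val, ex_inv_val, add_mul, mul_sub, one_mul, mul_one, h1, h2]
  abel

theorem fixed_E (hx : Q k L x) : fixedSubmodule (E L x) = ker x :=
  le_antisymm (iInf₂_le_of_le _ (ex_mem_E hx.mem_V) (by simp)) (le_iInf₂ fun _ hg => le_sup_left.trans hg.2.1)

theorem commS_E (hx : Q k L x) : commutatorSubmodule (E L x) = range x :=
  le_antisymm (iSup₂_le fun _ hg => hg.2.2) (le_iSup₂_of_le _ (ex_mem_E hx.mem_V) (by simp))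

theorem psl2_op (hx : Q k L x) (hy : Q k L y) (x0 : x ≠ 0) (h1 : x * y * x = x) (h2 : y * x * y = y) :
    ∃ A₀ B₀, A₀ ≤ E L x ∧ B₀ ≤ E L y ∧ IsPSL2PairOver k A₀ B₀ := by
  have h := cl_alg (K := k) hx.1 hy.1 h1 h2
  refine ⟨_, _, ?_, ?_, psl2_of_inj h.hom (h.hom_inj fun a e => ?_)⟩
  · rintro _ ⟨g, hg, rfl⟩
    obtain ⟨c, rfl⟩ := mem_up.1 hg
    exact mem_E.2 ⟨c • x, (V L x).smul_mem c hx.mem_V, Units.ext ((h.hom_uu c).trans (by rw [am_mul]; rfl))⟩
  · rintro _ ⟨g, hg, rfl⟩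
    obtain ⟨c, rfl⟩ := mem_lo.1 hg
    exact mem_E.2 ⟨c • y, (V L y).smul_mem c hy.mem_V, Units.ext ((h.hom_ll c).trans (by rw [am_mul]; rfl))⟩
  · exact (smul_eq_zero.1 ((Algebra.smul_def a x).trans e)).resolve_right x0

variable [FiniteDimensional k M]

theorem finrank_V_conj {g : (Module.End k M)ˣ} (hg : g ∈ 𝐍 L) :
    finrank k (V L x) ≤ finrank k (V L (g.1 * x * (g⁻¹).1)) :=
  LinearMap.finrank_le_finrank_of_injective (f := (((LinearMap.mulRight k (g⁻¹).1).comp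
    (LinearMap.mulLeft k g.1)).restrict fun _ hu => conj_mem_V hg hu)) fun a b e => Subtype.ext (by
      have : g.1 * a * (g⁻¹).1 = g.1 * b * (g⁻¹).1 := congrArg Subtype.val e
      simpa using this)

theorem grade [Gd k] (hw : Md L w) (hu : Md L u) (h1 : w * u * w = w) (hy : Md L y) (a1 : w * y = 0) (a2 : y * w = 0)
    (a3 : y = w * u * y + y * (u * w) - w * u * y * (u * w)) (h2 : u * w * u = u) :
    w * u * y * (u * w) ∈ V L w ∧ Q k L (y - w * u * y * (u * w)) ∧ rk (y - w * u * y * (u * w)) ≤ rk y := by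
  have h := cl_alg (K := k) hw.1.1 hu.1.1 h1 h2
  have hi : In L (1 - 2 * (w * u + u * w)) := by
    have : ∀ c : k, In L ((1 + c • w) * (1 + (-c) • u) * (1 + c • w)) := fun c => ((hw.1.2 c).mul (hu.1.2 _)).mul (hw.1.2 c)
    convert (this 1).mul (this 1) using 1
    have b1 : ∀ r, w * (u * (w * r)) = w * r := fun r => by rw [← mul_assoc, ← mul_assoc, h1]
    have b2 : ∀ r, u * (w * (u * r)) = u * r := fun r => by rw [← mul_assoc, ← mul_assoc, h2]
    have b3 : ∀ r, w * (w * r) = 0 := fun r => by rw [← mul_assoc, hw.1.1, zero_mul]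
    have b4 : ∀ r, u * (u * r) = 0 := fun r => by rw [← mul_assoc, hu.1.1, zero_mul]
    rw [mul_assoc] at h1 h2
    simp only [one_smul, neg_smul, mul_add, add_mul, mul_neg, neg_mul, one_mul, mul_one, mul_assoc, b1, b2, b3, b4, h1,
      h2, hw.1.1, hu.1.1, mul_zero]
    noncomm_ring
  have b1 : ∀ r, w * (u * (w * r)) = w * r := fun r => by rw [← mul_assoc, ← mul_assoc, h1]
  have b2 : ∀ r, u * (w * (u * r)) = u * r := fun r => by rw [← mul_assoc, ← mul_assoc, h2]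
  have b3 : ∀ r, w * (w * r) = 0 := fun r => by rw [← mul_assoc, hw.1.1, zero_mul]
  have b4 : ∀ r, u * (u * r) = 0 := fun r => by rw [← mul_assoc, hu.1.1, zero_mul]
  have b5 : ∀ r, w * (y * r) = 0 := fun r => by rw [← mul_assoc, a1, zero_mul]
  have b6 : ∀ r, y * (w * r) = 0 := fun r => by rw [← mul_assoc, a2, zero_mul]
  have b7 : ∀ r, y * (y * r) = 0 := fun r => by rw [← mul_assoc, hy.1.1, zero_mul]
  obtain ⟨i, hi, ei⟩ := hi
  have ei' : (i⁻¹).1 = 1 - 2 * (w * u + u * w) := Units.inv_eq_of_mul_eq_one_right (by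
    rw [ei, mul_assoc] at *
    simp only [two_mul, mul_add, add_mul, mul_sub, sub_mul, one_mul, mul_one, mul_assoc, b1, b2, b3, b4, h1, h2, mul_zero]
    abel)
  have q1 := hy.1.conj (le_normalizer hi)
  rw [ei, ei', show (1 - 2 * (w * u + u * w)) * y * (1 - 2 * (w * u + u * w)) =
      w * u * y * (u * w) + w * u * y * (u * w) - y by
    rw [eq_sub_iff_add_eq]
    calc _ = (y + y) - (w * u * y + y * (u * w) - w * u * y * (u * w)) - (w * u * y + y * (u * w) - w * u * y * (u * w)) +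
          (w * u * y * (u * w) + w * u * y * (u * w)) := by
          simp only [two_mul, mul_add, add_mul, mul_sub, sub_mul, one_mul, mul_one, mul_assoc, b6, a1, mul_zero, zero_mul]
          abel
      _ = _ := by rw [← a3]; abel] at q1
  have q2 : Q k L (w * u * y * (u * w)) := by
    have := (hy.1.add q1 (by simp [mul_sub, mul_add, mul_assoc, b6, hy.1.1])
      (by simp [sub_mul, add_mul, mul_assoc, a1, hy.1.1])).smul 2⁻¹
    rwa [add_sub_cancel, ← two_smul k, smul_smul, inv_mul_cancel₀ Gd.two, one_smul] at this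
  refine ⟨mem_V q2 hw.1.1 (u * y * (u * w)) (w * u * y * u) (by simp only [mul_assoc]) (by simp only [mul_assoc]),
    by simpa [sub_eq_add_neg] using hy.1.add (q2.smul (-1)) (by simp [mul_assoc, b6]) (by simp [mul_assoc, a1]), ?_⟩
  have e : y - w * u * y * (u * w) = y * (1 - u * w) + (1 - w * u) * y * (u * w) := by
    conv_lhs => enter [1]; rw [a3]
    conv_rhs => enter [1, 1]; rw [a3]
    rw [mul_assoc] at h1 h2
    simp only [mul_add, add_mul, mul_sub, sub_mul, one_mul, mul_one, mul_assoc, b1, h1]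
    abel
  have r1 : range (y * (1 - u * w)) ≤ range y ⊓ ker (1 - w * u) := le_inf (range_mul_le _ _) (mul_eq_zero_iff.1 (by
    conv_lhs => rw [a3]
    rw [mul_assoc] at h1 h2
    simp only [mul_add, add_mul, mul_sub, sub_mul, one_mul, mul_one, mul_assoc, b1, h1]
    abel))
  have r2 := rk_mul_add (1 - w * u) y
  have r3 := Submodule.finrank_mono r1
  have r4 : rk ((1 - w * u) * y * (u * w)) ≤ _ := rk_le (range_mul_le _ _)
  have r5 := Submodule.finrank_mono (LinearMap.range_add_le (y * (1 - u * w)) ((1 - w * u) * y * (u * w)))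
  have r6 := Submodule.finrank_sup_add_finrank_inf_eq (range (y * (1 - u * w))) (range ((1 - w * u) * y * (u * w)))
  rw [e]
  simp only [rk] at r2 r4 ⊢
  omega

variable [Gd k]

theorem Md.ro (hx : Md L x) (hy : Md L y) (h : x * y * x ≠ 0) : RO (E L x) (E L y) ∧ Sp (E L x) (E L y) := by
  have key : ∀ {x y}, Md L x → Md L y → x * y * x ≠ 0 → ∀ u (hu : u ∈ V L x), u ≠ 0 → ∃ v, ∃ hv : v ∈ V L y,
      cj (ex v hv.1.1) (E L x) = cj (ex u hu.1.1) (E L y) ∧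
      cj (ex v hv.1.1)⁻¹ (E L x) = cj (ex u hu.1.1)⁻¹ (E L y) := fun {x y} hx hy h u hu u0 => by
    obtain ⟨v, hv, h1, h2, h3⟩ := (hx.of_mem hu u0).dich' hy.1 fun e => h (V_mul3 (hx.mem hu u0) (hx.mem hu u0) e)
    refine ⟨v, hv, ?_⟩
    rw [← E_eq (hx.V_eq hu u0), ← E_eq (hy.V_eq hv h1.2.1)]
    refine ⟨op_cj hu.1 hv.1 h2 h3, ?_⟩
    have := op_cj (neg_mem hu).1 (neg_mem hv).1 (by simp [h2]) (by simp [h3])
    rw [E_eq V_neg, E_eq V_neg] at this
    convert this using 2 <;> exact Units.ext (by simp [sub_eq_add_neg])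
  have r : RO (E L x) (E L y) := by
    refine ro_mk (fun e => h ?_) cm_E.nil cm_E.nil (fun a ha a1 => ?_) fun b hb b1 => ?_
    · have : ex x _ ∈ E L y := e ▸ ex_mem_E hx.1.mem_V
      rw [V_mul (show x ∈ V L y by simpa using (show _ ∈ V L y from this)) hy.1.mem_V, zero_mul]
    · obtain ⟨u, hu, rfl⟩ := mem_E.1 ha
      obtain ⟨v, hv, e, -⟩ := key hx hy h u hu fun e => a1 ((ex_eq_one _).2 e)
      exact ⟨_, ex_mem_E hv, e⟩
    · obtain ⟨u, hu, rfl⟩ := mem_E.1 hb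
      obtain ⟨v, hv, e, -⟩ := key hy hx (fun e => h (hy.symm hx e)) u hu fun e => b1 ((ex_eq_one _).2 e)
      exact ⟨_, ex_mem_E hv, e.symm⟩
  refine ⟨r, fun a ha b hb e => ?_⟩
  obtain ⟨u, hu, rfl⟩ := mem_E.1 ha
  obtain ⟨v, hv, e1, e2⟩ := key hx hy h u hu fun k => r.ne_one hb e ((ex_eq_one _).2 k)
  rwa [r.symm.inj hb (ex_mem_E hv) (e.trans e1.symm)]

theorem Md.ne_of_ro (hx : Md L x) (hy : Md L y) (h : RO (E L x) (E L y)) : x * y * x ≠ 0 := fun e =>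
  h.not_nil le_sup_left le_sup_right (hx.uni hy e).nil

/-- the commutator case -/
def Cp (L : Subgroup (Module.End k M)ˣ) (x y : Module.End k M) : Prop :=
  Md L x ∧ Md L y ∧ x * y * x = 0 ∧ x * y - y * x ≠ 0

theorem Cp.yxy (h : Cp L x y) : y * x * y = 0 := h.1.symm h.2.1 h.2.2.1

theorem Cp.symm (h : Cp L x y) : Cp L y x := ⟨h.2.1, h.1, h.yxy, fun e => h.2.2.2 (by rw [← neg_sub, e, neg_zero])⟩

theorem Cp.md (h : Cp L x y) : Md L (x * y - y * x) :=
  h.1.of_le (h.1.1.comm h.2.1.1 h.2.2.1 h.yxy) h.2.2.2 (rk_comm_le h.yxy)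

theorem Cp.facts (h : Cp L x y) : range (x * y - y * x) = range x ⊓ ker y ⊔ range y ⊓ ker x ∧
    range x ⊓ range y = ⊥ ∧ ker (x * y - y * x) ≤ ker y ⊔ range x := by
  have l1 := le_inf (range_mul_le x y) (mul_eq_zero_iff.1 (mul_assoc y x y ▸ h.yxy))
  have l2 := le_inf (range_mul_le y x) (mul_eq_zero_iff.1 (mul_assoc x y x ▸ h.2.2.1))
  have d1 := rk_mul_add x y
  have d2 := rk_mul_add y x
  have d3 := Submodule.finrank_mono l1
  have d4 := Submodule.finrank_mono l2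
  have d5 := Submodule.finrank_mono (range_sub_le (x * y) (y * x))
  have d6 := Submodule.finrank_sup_add_finrank_inf_eq (range (x * y)) (range (y * x))
  have d7 := h.1.rk_eq h.2.1
  have d8 := h.1.rk_eq h.md
  have d9 := rk_add_ker y
  have d10 := rk_add_ker (x * y)
  have d11 := Submodule.finrank_sup_add_finrank_inf_eq (range x) (ker y)
  simp only [rk] at d1 d2 d7 d8 d9 d10
  have e1 : range (x * y) = range x ⊓ ker y := Submodule.eq_of_le_of_finrank_eq l1 (by omega)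
  have e2 : range (y * x) = range y ⊓ ker x := Submodule.eq_of_le_of_finrank_eq l2 (by omega)
  have e3 : range (x * y) ⊓ range (y * x) = ⊥ := Submodule.finrank_eq_zero.1 (by omega)
  have e4 : range x ⊔ ker y = ker (x * y) := Submodule.eq_of_le_of_finrank_eq
    (sup_le (mul_eq_zero_iff.1 h.2.2.1) (ker_le_mul x y)) (by omega)
  refine ⟨by rw [← e1, ← e2]; exact Submodule.eq_of_le_of_finrank_eq (range_sub_le _ _) (by omega),
    le_bot_iff.1 (e3 ▸ ?_), fun m hm => ?_⟩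
  · rw [e1, e2]
    exact le_inf (le_inf inf_le_left (inf_le_right.trans (mul_eq_zero_iff.1 h.2.1.1.1)))
      (le_inf inf_le_right (inf_le_left.trans (mul_eq_zero_iff.1 h.1.1.1)))
  · rw [sup_comm, e4]
    exact e3.le ⟨⟨m, rfl⟩, m, (sub_eq_zero.1 hm).symm⟩

theorem Cp.ker_le' (h : Cp L x y) : ker (x * y - y * x) ≤ ker x ⊔ range y := by
  rw [← LinearMap.ker_neg, neg_sub]; exact h.symm.facts.2.2

theorem Cp.mem (h : Cp L x y) (hu : u ∈ V L x) (hv : v ∈ V L y) : u * v - v * u ∈ V L (x * y - y * x) := by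
  have m := fun {u v w} => h.1.mul3 (u := u) (v := v) (w := w) h.2.1 h.2.2.1
  have m' := fun {u v w} => h.2.1.mul3 (u := u) (v := v) (w := w) h.1 h.yxy
  have x1 := h.1.1.mem_V
  have y1 := h.2.1.1.mem_V
  refine ⟨hu.1.comm hv.1 (m hu hv hu) (m' hv hu hv), sup_le (fun a ha => ?_) (mul_eq_zero_iff.1 ?_), ?_⟩
  · have a1 : a ∈ ker (u * v) := sup_le ((le_sup_left.trans hv.2.1).trans (ker_le_mul u v))
      (mul_eq_zero_iff.1 (m hu hv x1)) (h.facts.2.2 ha)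
    have a2 : a ∈ ker (v * u) := sup_le ((le_sup_left.trans hu.2.1).trans (ker_le_mul v u))
      (mul_eq_zero_iff.1 (m' hv hu y1)) (h.ker_le' ha)
    exact sub_eq_zero.2 ((LinearMap.mem_ker.1 a1).trans (LinearMap.mem_ker.1 a2).symm)
  · rw [mul_sub, sub_mul, sub_mul, ← mul_assoc, ← mul_assoc, ← mul_assoc, ← mul_assoc, m hu hv x1, m' hv hu y1,
      mul_assoc v u x, mul_assoc u v y, V_mul hu x1, V_mul hv y1]; simp
  · rw [h.facts.1]
    exact (range_sub_le _ _).trans (sup_le_sup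
      (le_inf ((range_mul_le _ _).trans hu.2.2) (mul_eq_zero_iff.1 (mul_assoc y u v ▸ m' y1 hu hv)))
      (le_inf ((range_mul_le _ _).trans hv.2.2) (mul_eq_zero_iff.1 (mul_assoc x v u ▸ m x1 hv hu))))

theorem Cp.of_mem (h : Cp L x y) (hu : u ∈ V L x) (hv : v ∈ V L y) (u0 : u ≠ 0) (v0 : v ≠ 0) : Cp L u v := by
  refine ⟨h.1.of_mem hu u0, h.2.1.of_mem hv v0, h.1.mul3 h.2.1 h.2.2.1 hu hv hu, fun e => h.2.2.2 ?_⟩
  rw [sub_eq_zero] at e
  have : u * v = 0 := LinearMap.range_eq_bot.1 (le_bot_iff.1 (h.facts.2.1 ▸ le_inf ((range_mul_le _ _).trans hu.2.2)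
    (e ▸ (range_mul_le _ _).trans hv.2.2)))
  rw [V_l (h.2.1.mem hv v0) (V_r (h.1.mem hu u0) this), V_l (h.1.mem hu u0) (V_r (h.2.1.mem hv v0) (e ▸ this)), sub_self]

/-- `v ↦ [x, v]` -/
noncomputable def Cp.ad (h : Cp L x y) : V L y →ₗ[k] V L (x * y - y * x) :=
  (LinearMap.mulLeft k x - LinearMap.mulRight k x).restrict fun _ hv => h.mem h.1.1.mem_V hv

theorem Cp.ad_inj (h : Cp L x y) : Function.Injective h.ad := by
  rw [injective_iff_map_eq_zero]
  intro v e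
  by_contra v0
  exact (h.of_mem h.1.1.mem_V v.2 h.1.2.1 fun k => v0 (Subtype.ext k)).2.2.2 (congrArg Subtype.val e)

theorem Cp.dim_le (h : Cp L x y) : finrank k (V L y) ≤ finrank k (V L (x * y - y * x)) :=
  LinearMap.finrank_le_finrank_of_injective h.ad_inj

theorem Cp.surj_of (h : Cp L x y) (e : finrank k (V L (x * y - y * x)) ≤ finrank k (V L y)) (hw : w ∈ V L (x * y - y * x)) :
    ∃ v ∈ V L y, x * v - v * x = w := by
  obtain ⟨v, hv⟩ := (LinearMap.injective_iff_surjective_of_finrank_eq_finrank (le_antisymm h.dim_le e)).1 h.ad_inj ⟨w, hw⟩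
  exact ⟨v, v.2, congrArg Subtype.val hv⟩

theorem Cp.core (h : Cp L x y) (hu : u ∈ V L x) : (x * y - y * x) * u = 0 ∧ u * (x * y - y * x) = 0 ∧
    ∀ m ∈ ker (x * y - y * x), u m ∈ range (x * y - y * x) := by
  have x1 := h.1.1.mem_V
  have y1 := h.2.1.1.mem_V
  refine ⟨by rw [sub_mul, h.1.mul3 h.2.1 h.2.2.1 x1 y1 hu, mul_assoc, V_mul x1 hu]; simp,
    by rw [mul_sub, ← mul_assoc, ← mul_assoc, h.1.mul3 h.2.1 h.2.2.1 hu y1 x1, V_mul hu x1]; simp, fun m hm => ?_⟩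
  obtain ⟨a, ha, _, ⟨b, rfl⟩, rfl⟩ := Submodule.mem_sup.1 (h.ker_le' hm)
  rw [map_add, LinearMap.mem_ker.1 (hu.2.1 (Submodule.mem_sup_left ha)), zero_add, h.facts.1]
  exact Submodule.mem_sup_left ⟨hu.2.2 ⟨_, rfl⟩, congrArg (fun f : Module.End k M => f b) (h.1.mid h.2.1 h.2.2.1 hu)⟩

theorem Cp.core' (h : Cp L x y) (hu : u ∈ V L y) : (x * y - y * x) * u = 0 ∧ u * (x * y - y * x) = 0 ∧
    ∀ m ∈ ker (x * y - y * x), u m ∈ range (x * y - y * x) := by
  have := h.symm.core hu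
  rwa [← neg_sub, neg_mul, mul_neg, neg_eq_zero, neg_eq_zero, LinearMap.ker_neg, LinearMap.range_neg] at this

theorem grade2 (hw : Md L w) (hu : Md L u) (h1 : w * u * w = w) (h2 : u * w * u = u) (hy : Md L y)
    (a : w * y = 0 ∧ y * w = 0 ∧ ∀ m ∈ ker w, y m ∈ range w) : ∃ y₂ ∈ V L w, y - y₂ ≠ 0 →
      Md L (y - y₂) ∧ finrank k (V L w) ≤ finrank k (V L (y - y₂)) := by
  have a3 : y = w * u * y + y * (u * w) - w * u * y * (u * w) := by
    have : (1 - w * u) * (y * (1 - u * w)) = 0 := LinearMap.ext fun m => by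
      obtain ⟨m', e⟩ := a.2.2 ((1 - u * w) m) (by
        rw [LinearMap.mem_ker, ← Module.End.mul_apply, mul_sub, ← mul_assoc, h1]; simp)
      rw [Module.End.mul_apply, Module.End.mul_apply, ← e, ← Module.End.mul_apply, sub_mul, h1]; simp
    rw [← sub_eq_zero, ← this]; noncomm_ring
  obtain ⟨g1, g2, g3⟩ := grade hw hu h1 hy a.1 a.2.1 a3 h2
  refine ⟨_, g1, fun y0 => ?_⟩
  have m1 := hy.of_le g2 y0 g3
  have b1 : ∀ r, w * (u * (w * r)) = w * r := fun r => by rw [← mul_assoc, ← mul_assoc, h1]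
  have b2 : ∀ r, u * (w * (u * r)) = u * r := fun r => by rw [← mul_assoc, ← mul_assoc, h2]
  have b3 : ∀ r, w * (w * r) = 0 := fun r => by rw [← mul_assoc, hw.1.1, zero_mul]
  have b5 : ∀ r, w * (y * r) = 0 := fun r => by rw [← mul_assoc, a.1, zero_mul]
  have e : w * (u * (y - w * u * y * (u * w)) - (y - w * u * y * (u * w)) * u) -
      (u * (y - w * u * y * (u * w)) - (y - w * u * y * (u * w)) * u) * w = y - w * u * y * (u * w) := by
    conv_rhs => enter [1]; rw [a3]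
    rw [mul_assoc] at h1 h2
    simp only [mul_sub, sub_mul, mul_assoc, b1, b2, b3, b5, h1, h2, a.2.1, hw.1.1, mul_zero]
    abel
  have c1 : Cp L u (y - w * u * y * (u * w)) := ⟨hu, m1, by
    rw [mul_assoc] at h2
    simp only [mul_sub, sub_mul, mul_assoc, b2, h2, sub_self], fun k => y0 (by rw [← e, k]; simp)⟩
  have c2 : Cp L w _ := ⟨hw, c1.md, by
    simp only [mul_sub, sub_mul, mul_assoc, b3, b5, a.2.1, hw.1.1, mul_zero, sub_self, zero_mul], e.symm ▸ y0⟩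
  have := c2.symm.dim_le
  rw [← V_neg (x := _ - _), neg_sub, e] at this
  exact ⟨m1, this⟩

theorem Cp.surj (h : Cp L x y) (hL : Red k L) (hw : w ∈ V L (x * y - y * x)) : ∃ v ∈ V L y, x * v - v * x = w := by
  refine h.surj_of ?_ hw
  obtain ⟨u, hu, h1, h2⟩ := hL.exists_op h.md
  have cx := h.core h.1.1.mem_V
  have cy := h.core' h.2.1.1.mem_V
  obtain ⟨x₂, x1, x2⟩ := grade2 h.md hu h1 h2 h.1 cx
  obtain ⟨y₂, y1, y2⟩ := grade2 h.md hu h1 h2 h.2.1 cy
  have e1 : (x - x₂) * (y - y₂) = x * y := by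
    rw [mul_sub, sub_mul, sub_mul, V_r x1 cy.1, V_l y1 cx.2.1, V_mul x1 y1]; simp
  have e2 : (y - y₂) * (x - x₂) = y * x := by
    rw [mul_sub, sub_mul, sub_mul, V_r y1 cx.1, V_l x1 cy.2.1, V_mul y1 x1]; simp
  obtain ⟨x3, x4⟩ := x2 fun k => h.2.2.2 (by rw [← e1, ← e2, k]; simp)
  obtain ⟨y3, y4⟩ := y2 fun k => h.2.2.2 (by rw [← e1, ← e2, k]; simp)
  have c : Cp L (y - y₂) (x - x₂) := ⟨y3, x3, by
    rw [e2, mul_sub, h.yxy, mul_assoc, V_l y1 cx.2.1]; simp, by rw [e1, e2]; exact h.symm.2.2.2⟩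
  obtain ⟨v, hv, e⟩ := c.surj_of (w := -y₂) (by rw [e1, e2, ← V_neg, neg_sub]; exact x4)
    (by rw [e1, e2, ← V_neg, neg_sub]; exact neg_mem y1)
  refine y4.trans ((finrank_V_conj (le_normalizer hv.1.ex_mem)).trans_eq ?_)
  rw [ex_val, ex_inv_val, mul_sub, mul_one, add_mul, add_mul, one_mul, V_mul3 hv hv c.yxy, add_zero, add_sub_assoc,
    ← neg_sub (_ * v), e, neg_neg, sub_add_cancel]

theorem Cp.ps_aux (h : Cp L x y) (hL : Red k L) {a : (Module.End k M)ˣ} (ha : a ∈ E L x) (a1 : a ≠ 1)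
    {c : (Module.End k M)ˣ} (hc : c ∈ E L (x * y - y * x)) : ∃ b ∈ E L y, ⁅a, b⁆ = c := by
  obtain ⟨u, hu, rfl⟩ := mem_E.1 ha
  obtain ⟨w, hw, rfl⟩ := mem_E.1 hc
  have c := h.of_mem hu h.2.1.1.mem_V (fun e => a1 ((ex_eq_one _).2 e)) h.2.1.2.1
  obtain ⟨v, hv, e⟩ := c.surj hL (h.md.V_eq (h.mem hu h.2.1.1.mem_V) c.2.2.2 ▸ hw)
  exact ⟨_, ex_mem_E hv, Units.ext ((comm_ex _ _ (h.1.mul3 h.2.1 h.2.2.1 hu hv hu)
    (h.2.1.mul3 h.1 h.yxy hv hu hv)).trans (by rw [e]; rfl))⟩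

/-- the set `Σ` -/
def Sig (L : Subgroup (Module.End k M)ˣ) : Set (Subgroup (Module.End k M)ˣ) := {A | ∃ x, Md L x ∧ A = E L x}

theorem cm_E_of (h : ∀ u ∈ V L x, ∀ v ∈ V L y, u * v = v * u) : Cm (E L x) (E L y) := fun a ha b hb => by
  obtain ⟨u, hu, rfl⟩ := mem_E.1 ha
  obtain ⟨v, hv, rfl⟩ := mem_E.1 hb
  exact Units.ext (by simp [mul_add, add_mul, h u hu v hv]; abel)

theorem Cp.ps (h : Cp L x y) (hL : Red k L) : Ps (Sig L) (E L x) (E L y) (E L (x * y - y * x)) := by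
  refine ⟨⟨x, h.1, rfl⟩, ⟨y, h.2.1, rfl⟩, ⟨_, h.md, rfl⟩, le_antisymm (commutator_le.2 fun a ha b hb => ?_) fun c hc => ?_,
    cm_E_of fun u hu v hv => by rw [V_r hu (h.core hv).1, V_l hu (h.core hv).2.1],
    cm_E_of fun u hu v hv => by rw [V_r hu (h.core' hv).1, V_l hu (h.core' hv).2.1],
    fun a ha a1 c hc => h.ps_aux hL ha a1 hc, fun b hb b1 c hc => ?_⟩
  · obtain ⟨u, hu, rfl⟩ := mem_E.1 ha
    obtain ⟨v, hv, rfl⟩ := mem_E.1 hb
    exact mem_E.2 ⟨_, h.mem hu hv, Units.ext (comm_ex _ _ (h.1.mul3 h.2.1 h.2.2.1 hu hv hu)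
      (h.2.1.mul3 h.1 h.yxy hv hu hv))⟩
  · obtain ⟨b, hb, rfl⟩ := h.ps_aux hL (ex_mem_E h.1.1.mem_V) (fun e => h.1.2.1 ((ex_eq_one _).1 e)) hc
    exact commutator_mem_commutator (ex_mem_E h.1.1.mem_V) hb
  · obtain ⟨a, ha, e⟩ := h.symm.ps_aux hL hb b1 (c := c⁻¹) (by rw [← E_eq V_neg, neg_sub]; exact inv_mem hc)
    exact ⟨a, ha, by rw [← commutatorElement_inv, e, inv_inv]⟩

theorem Md.tri (hx : Md L x) (hy : Md L y) (h : x * y * x = 0) : Cm (E L x) (E L y) ∨ Cp L x y := by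
  by_cases h0 : x * y - y * x = 0
  · refine Or.inl (cm_E_of fun u hu v hv => ?_)
    by_contra h1
    have u0 : u ≠ 0 := fun e => h1 (by simp [e])
    have v0 : v ≠ 0 := fun e => h1 (by simp [e])
    exact (Cp.of_mem ⟨hx.of_mem hu u0, hy.of_mem hv v0, hx.mul3 hy h hu hv hu, sub_ne_zero.2 h1⟩ (hx.mem hu u0)
      (hy.mem hv v0) hx.2.1 hy.2.1).2.2.2 h0
  · exact Or.inr ⟨hx, hy, h, h0⟩

theorem sig_le : (⨆ A ∈ Sig L, A) ≤ L := iSup₂_le (by rintro _ ⟨x, -, rfl⟩; exact E_le)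

theorem sig_conj {A : Subgroup (Module.End k M)ˣ} (hA : A ∈ Sig L) {g : (Module.End k M)ˣ} (hg : g ∈ 𝐍 L) :
    cj g A ∈ Sig L := by obtain ⟨x, hx, rfl⟩ := hA; exact ⟨_, hx.conj hg, cj_E hg⟩

theorem Red.ra (hL : Red k L) : RA (Sig L) := by
  refine ⟨by rintro _ ⟨x, -, rfl⟩; exact cm_E, ?_, fun A hA g hg => sig_conj hA (le_normalizer (sig_le hg)), ?_⟩
  · rintro _ ⟨x, hx, rfl⟩ e
    exact hx.2.1 ((ex_eq_one _).1 (mem_bot.1 (e ▸ ex_mem_E hx.1.mem_V)))
  · rintro _ ⟨x, hx, rfl⟩ _ ⟨y, hy, rfl⟩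
    by_cases h : x * y * x = 0
    · exact (hx.tri hy h).imp_right fun c => Or.inr ⟨_, c.ps hL⟩
    · exact Or.inr (Or.inl (hx.ro hy h).1)

theorem Red.ni (hL : Red k L) : ∀ A ∈ Sig L, NI (Sig L) A := by
  rintro _ ⟨x, hx, rfl⟩
  obtain ⟨y, hy, h1, -⟩ := hL.exists_op hx
  exact ⟨_, ⟨y, hy, rfl⟩, (hx.ro hy (h1.symm ▸ hx.2.1)).1⟩

theorem sig_psl2 {A B : Subgroup (Module.End k M)ˣ} (hA : A ∈ Sig L) (hB : B ∈ Sig L) (h : RO A B) :
    ∃ A₀ B₀, A₀ ≤ A ∧ B₀ ≤ B ∧ IsPSL2PairOver k A₀ B₀ := by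
  obtain ⟨x, hx, rfl⟩ := hA
  obtain ⟨y, hy, rfl⟩ := hB
  obtain ⟨v, hv, h1, h2, h3⟩ := hx.dich' hy.1 (hx.ne_of_ro hy h)
  rw [← E_eq (hy.V_eq hv h1.2.1)]
  exact psl2_op hx.1 h1.1 hx.2.1 h2 h3

end CA.Quad
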