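import Cfsg.Agent.Lib.Root.Q5

/-!
Quadratic pairs: dictionary with the definitions, components, central product decomposition.
-/

set_option autoImplicit false

namespace CA.Quad

open Subgroup Cfsg CA.Amb CA.AmbCore CA.AmbRes CA.Root
open LinearMap (range ker)
open Module (finrank)
open scoped commutatorElement

universe u

variable {k : Type u} [Field k] {M : Type*} [AddCommGroup M] [Module k M] {L G : Subgroup (Module.End k M)ˣ}
  {x y s : Module.End k M} {σ τ : (Module.End k M)ˣ} {A B : Subgroup (Module.End k M)ˣ}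

theorem gd_of (hk2 : ringChar k ≠ 2) (hk3 : Nat.card k ≠ 3) : Gd k := ⟨Ring.two_ne_zero hk2, three_lt_card hk2 hk3⟩

theorem mem_qe : σ ∈ quadraticElements L ↔ Q k L (σ.1 - 1) ∧ σ.1 - 1 ≠ 0 :=
  ⟨fun h => ⟨⟨h.2.1.1, fun c => ⟨ex (c • (σ.1 - 1)) (by rw [smul_mul_smul_comm, h.2.1.1, smul_zero]),
    h.2.2 ⟨c, rfl⟩, rfl⟩⟩, h.2.1.2⟩, fun h => ⟨in_iff.1 (by simpa using h.1.2 1), ⟨h.1.1, h.2⟩,
    fun τ ⟨c, e⟩ => in_iff.1 (e ▸ h.1.2 c)⟩⟩

theorem ex_mem_qe (h : Q k L x) (x0 : x ≠ 0) : ex x h.1 ∈ quadraticElements L := mem_qe.2 (by simpa using ⟨h, x0⟩)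

theorem mem_mqe : σ ∈ minimalQuadraticElements L ↔ Md L (σ.1 - 1) :=
  ⟨fun h => ⟨(mem_qe.1 h.1).1, (mem_qe.1 h.1).2, fun y hy y0 => by
    have : rk (σ.1 - 1) ≤ rk ((ex y hy.1).1 - 1) := h.2 _ (ex_mem_qe hy y0)
    rwa [ex_val, add_sub_cancel_left] at this⟩,
   fun h => ⟨mem_qe.2 ⟨h.1, h.2.1⟩, fun τ hτ => h.2.2 _ (mem_qe.1 hτ).1 (mem_qe.1 hτ).2⟩⟩

theorem card_E [Gd k] (hx : Md L x) : 3 < ENat.card (E L x) :=
  (Gd.three (k := k)).trans_le (ENat.card_le_card_of_injective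
    (f := fun c : k => (⟨_, ex_mem_E ((V L x).smul_mem c hx.1.mem_V)⟩ : E L x)) fun a b h =>
      smul_left_injective k hx.2.1 (by simpa [Units.ext_iff] using h))

theorem finite_of_comm {R : Type*} [Ring R] [Algebra k R] [FiniteDimensional k R] {ι : Type*} (f : ι → Subgroup Rˣ)
    (h1 : ∀ i j, i ≠ j → Cm (f i) (f j)) (h2 : ∀ i, ¬ Cm (f i) (f i)) : Finite ι := by
  simp only [Cm, not_forall] at h2
  choose a ha b hb hab using h2
  refine LinearIndependent.finite (R := k) (f := fun i => (a i : R)) (linearIndependent_iff'.2 fun t g hg i hi => ?_)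
  have := congrArg (fun r : R => r * b i - b i * r) hg
  simp only [Finset.sum_mul, Finset.mul_sum, ← Finset.sum_sub_distrib, smul_mul_assoc, mul_smul_comm, ← smul_sub,
    zero_mul, mul_zero, sub_zero] at this
  rw [Finset.sum_eq_single_of_mem i hi fun j _ hj => by
    rw [← Units.val_mul, ← Units.val_mul, h1 j i hj _ (ha j) _ (hb i), sub_self, smul_zero]] at this
  exact (smul_eq_zero.1 this).resolve_right fun e => hab i (Units.ext (sub_eq_zero.1 e))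

theorem annih (hG : IsIrreducibleFor G) {T : Subgroup (Module.End k M)ˣ} (h : G ≤ T ⊔ 𝐂 T) (hx : x * x = 0)
    (hy : y * y = 0) (h1 : ex x hx ∈ T) (h2 : ex y hy ∈ 𝐂 T) (e : y * x = 0) : x = 0 ∨ y = 0 := by
  let W : Submodule k M := ⨅ g ∈ G, ker (y * g.1)
  have mW : ∀ m, m ∈ W ↔ ∀ g ∈ G, y (g.1 m) = 0 := fun m => by simp [W]
  rcases hG.2 W (fun g hg w hw => (mW _).2 fun g' hg' => (mW _).1 hw _ (mul_mem hg' hg)) with k1 | k1
  · refine Or.inl (LinearMap.ext fun m => ?_)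
    refine k1.le ((mW _).2 fun g hg => ?_)
    obtain ⟨t, ht, c, hc, rfl⟩ := (mem_sup_of_norm (norm_centralizer le_normalizer)).1 (h hg)
    have e1 : c.1 * x = x * c.1 := by
      simpa [mul_add, add_mul] using (congrArg Units.val (mem_centralizer_sub.1 hc _ h1)).symm
    have e2 : y * t.1 = t.1 * y := by
      simpa [mul_add, add_mul] using (congrArg Units.val (mem_centralizer_sub.1 h2 _ ht)).symm
    show (y * ((t.1 * c.1) * x)) m = 0
    rw [mul_assoc, e1, ← mul_assoc, e2, mul_assoc, ← mul_assoc y, e]; simp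
  · exact Or.inr (LinearMap.ext fun m => by simpa using (mW m).1 (k1.ge trivial) 1 (one_mem _))

variable [FiniteDimensional k M]

theorem mem_sac (h : Md L (σ.1 - 1)) : τ ∈ sameActionClass L σ ↔ τ ∈ E L (σ.1 - 1) ∧ τ ≠ 1 := by
  refine ⟨fun ⟨h1, h2, h3⟩ => ⟨⟨(mem_mqe.1 h1).1, sup_le h2.ge (h3 ▸ mul_eq_zero_iff.1 (mem_mqe.1 h1).1.1), h3.le⟩,
    fun e => (mem_mqe.1 h1).2.1 (by simp [e])⟩, fun ⟨h1, h2⟩ => ?_⟩
  have : τ.1 - 1 ≠ 0 := fun e => h2 (Units.ext (sub_eq_zero.1 e))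
  exact ⟨mem_mqe.2 (h.of_mem h1 this), h.ker_eq h1 this, h.range_eq h1 this⟩

theorem sas_eq (h : Md L (σ.1 - 1)) : sameActionSubgroup L σ = E L (σ.1 - 1) :=
  le_antisymm ((closure_le _).2 fun _ hτ => ((mem_sac h).1 hτ).1) fun τ hτ => by
    by_cases e : τ = 1
    · exact e ▸ one_mem _
    · exact subset_closure ((mem_sac h).2 ⟨hτ, e⟩)

theorem qrs_eq : quadraticRootSubgroups L = Sig L := by
  ext A
  refine ⟨fun ⟨σ, h, e⟩ => ⟨_, mem_mqe.1 h, e.trans (sas_eq (mem_mqe.1 h))⟩, fun ⟨x, h, e⟩ => ?_⟩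
  have : Md L ((ex x h.1.1).1 - 1) := by simpa using h
  exact ⟨_, mem_mqe.2 this, by rw [sas_eq this, e]; simp⟩

theorem exists_md (hx : Q k L x) (x0 : x ≠ 0) : ∃ y, Md L y := by
  obtain ⟨_, ⟨y, hy, rfl⟩, h⟩ := (wellFounded_lt (α := ℕ)).has_min {n | ∃ y, (Q k L y ∧ y ≠ 0) ∧ rk y = n}
    ⟨_, x, ⟨hx, x0⟩, rfl⟩
  exact ⟨y, hy.1, hy.2, fun z hz z0 => not_lt.1 (h _ ⟨z, ⟨hz, z0⟩, rfl⟩)⟩

variable [Gd k]

theorem Red.comm (hL : Red k L) (hs : Q k L s) (h : ∀ c, Md L c → c * s * c = 0) (hx : Md L x) : x * s = s * x := by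
  have cg : ∀ t, (∀ c, Md L c → c * t * c = 0) → ∀ g ∈ L, ∀ c, Md L c → c * (g.1 * t * (g⁻¹).1) * c = 0 :=
    fun t ht g hg c hc => by
      simpa [mul_assoc] using congrArg (fun r => g.1 * r * (g⁻¹).1) (ht _ (hc.conj (le_normalizer (inv_mem hg))))
  have h1 : ∀ c, Md L c → c * (x * s - s * x) * c = 0 := fun c hc => by
    have := cg s h _ hx.1.ex_mem c hc
    rw [ex_val, ex_inv_val, show (1 + x) * s * (1 - x) = s + (x * s - s * x) - x * s * x by noncomm_ring, h x hx,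
      sub_zero, mul_add, add_mul, h c hc, zero_add] at this
    exact this
  have h2 : s * x * s = 0 := hL.eq_zero hx (hx.1.sandwich hs (h x hx)) (rk_mul3 _ _ _) fun c hc => by
    have := cg _ h1 _ hs.ex_mem c hc
    rw [ex_val, ex_inv_val, show (1 + s) * (x * s - s * x) * (1 - s) = (x * s - s * x) + (2 : k) • (s * x * s) -
      (s * s * x + x * (s * s)) + (s * s * x * s - s * x * (s * s)) by rw [two_smul]; noncomm_ring, hs.1] at this
    simp only [zero_mul, mul_zero, add_zero, sub_zero, mul_add, add_mul, h1 c hc, zero_add, mul_smul_comm,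
      smul_mul_assoc] at this
    exact (smul_eq_zero.1 this).resolve_left Gd.two
  exact sub_eq_zero.1 (hL.eq_zero hx (hx.1.comm hs (h x hx) h2) (rk_comm_le h2) h1)

theorem Red.split (hL : Red k L) (hs : Q k L s) : ex s hs.1 ∈ 𝐂 (⨆ A ∈ Sig L, A) ∨
    ∃ y, Md L y ∧ ∃ s₁ ∈ V L y, s₁ ∈ V L s ∧ rk (s - s₁) < rk s := by
  by_cases h : ∀ c, Md L c → c * s * c = 0
  · refine Or.inl (mem_centralizer_sub.2 ?_)
    suffices (⨆ A ∈ Sig L, A) ≤ 𝐂 (zpowers (ex s hs.1)) from fun g hg =>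
      (mem_centralizer_sub.1 (this hg) _ (mem_zpowers _)).symm
    refine iSup₂_le ?_
    rintro _ ⟨x, hx, rfl⟩ g hg
    obtain ⟨u, hu, rfl⟩ := mem_E.1 hg
    refine mem_centralizer_sub.2 ?_
    rintro _ ⟨n, rfl⟩
    refine (Commute.zpow_left (Units.ext ?_) n).eq
    by_cases u0 : u = 0
    · simp [u0]
    · simp [mul_add, add_mul, hL.comm hs h (hx.of_mem hu u0)]; abel
  · push Not at h
    obtain ⟨x, hx, h⟩ := h
    obtain ⟨y, h1, h2, h3, -, s₁, h4, -, h5, -⟩ := (hx.dich hs).resolve_left h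
    have h6 := sub_mem hs.mem_V (V_le h1 h4)
    refine Or.inr ⟨y, h2, s₁, h4, V_le h1 h4, lt_of_le_of_ne (rk_le h6.2.2) fun e => hx.2.1 ?_⟩
    rw [mul_eq_zero_iff, Submodule.eq_of_le_of_finrank_eq h6.2.2 e, ← mul_eq_zero_iff] at h5
    rw [← h3, V_l h1 h5, zero_mul]

theorem ex_split {s₁ : Module.End k M} (hs : Q k L s) (h : s₁ ∈ V L s) :
    ex s hs.1 = ex s₁ h.1.1 * ex (s - s₁) (sub_mem hs.mem_V h).1.1 :=
  Units.ext (by simp [mul_add, add_mul, V_mul h (sub_mem hs.mem_V h)])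

theorem Red.mem_sup (hL : Red k L) (hs : Q k L s) :
    ex s hs.1 ∈ (⨆ A ∈ Sig L, A) ⊔ (L ⊓ 𝐂 (⨆ A ∈ Sig L, A)) := by
  induction hn : rk s using Nat.strong_induction_on generalizing s with
  | _ n ih =>
  rcases hL.split hs with h | ⟨y, hy, s₁, h1, h2, h3⟩
  · exact mem_sup_right ⟨hs.ex_mem, h⟩
  · rw [ex_split hs h2]
    exact mul_mem (mem_sup_left (le_gen (S := Sig L) ⟨y, hy, rfl⟩ (ex_mem_E h1))) (ih _ (hn ▸ h3) (sub_mem hs.mem_V h2).1 rfl)

theorem Red.le_sup (hL : Red k L) (h : closure (quadraticElements L) = L) :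
    L ≤ (⨆ A ∈ Sig L, A) ⊔ (L ⊓ 𝐂 (⨆ A ∈ Sig L, A)) := h.ge.trans ((closure_le _).2 fun σ hσ => by
  have := hL.mem_sup (mem_qe.1 hσ).1
  rwa [show ex _ (mem_qe.1 hσ).1.1 = σ from Units.ext (by simp)] at this)

/-- the component of `A` in `Σ` -/
abbrev cp (L A : Subgroup (Module.End k M)ˣ) : Set (Subgroup (Module.End k M)ˣ) := componentOf (FAdj (Sig L)) (Sig L) A

theorem Red.cm_cp (hL : Red k L) (hB : B ∈ Sig L) (h : B ∉ cp L A) : Cm B (⨆ C ∈ cp L A, C) :=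
  Cm.symm (cm_iff_le.2 (iSup₂_le fun C hC => cm_iff_le.1 (by
    by_contra h0
    exact h ⟨hB, hC.2.trans (hL.ra.rt_of_not_cm hL.ni hC.1 hB h0)⟩)))

theorem Red.not_cm (hL : Red k L) (hA : A ∈ Sig L) : ¬ Cm (⨆ C ∈ cp L A, C) (⨆ C ∈ cp L A, C) := fun h => by
  have m : A ∈ cp L A := ⟨hA, .refl⟩
  obtain ⟨B, hB, r⟩ := comp_ni hL.ni m
  exact r.not_cm (h.mono (le_gen m) (le_gen hB))

theorem sig_perfect (hA : A ∈ Sig L) (hB : B ∈ Sig L) (h : RO A B) : ⁅A ⊔ B, A ⊔ B⁆ = A ⊔ B := by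
  obtain ⟨x, hx, rfl⟩ := hA
  obtain ⟨y, hy, rfl⟩ := hB
  exact (hx.ro hy (hx.ne_of_ro hy h)).2.perfect h cm_E (card_E hx)

theorem sig_uni (hA : A ∈ Sig L) (hB : B ∈ Sig L) (h : ¬ RO A B) : Uni k (A ⊔ B) := by
  obtain ⟨x, hx, rfl⟩ := hA
  obtain ⟨y, hy, rfl⟩ := hB
  exact hx.uni hy (by by_contra e; exact h (hx.ro hy e).1)

theorem Red.qs (hL : Red k L) (hA : A ∈ Sig L) : IsQuasisimple ↥(⨆ C ∈ cp L A, C) := by
  set T := ⨆ C ∈ cp L A, C
  have ra := hL.ra.comp hL.ni A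
  have r0 : Red k T := by
    refine (hL.of_norm sig_le (le_normalizer_iff_cj.2 fun g hg => ?_)).of_norm comp_le
      (le_normalizer_iff_cj.2 fun g hg => ?_)
    · simp only [cj_iSup]; exact iSup₂_le fun B hB => le_gen (sig_conj hB (le_normalizer hg))
    · simp only [T, cj_iSup]; exact iSup₂_le fun B hB => le_gen (hL.ra.comp_conj hL.ni hB hg)
  refine quasisimple_amb (le_antisymm (commutator_le_left_of_norm le_normalizer) (iSup₂_le fun B hB => ?_))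
    (hL.not_cm hA) fun N h1 h2 => ?_
  · obtain ⟨C, hC, r⟩ := comp_ni hL.ni hB
    exact (le_sup_left.trans (sig_perfect hB.1 hC.1 r).ge).trans
      (commutator_mono (sup_le (le_gen hB) (le_gen hC)) (sup_le (le_gen hB) (le_gen hC)))
  by_cases h0 : ∃ B ∈ cp L A, B ≤ N
  · obtain ⟨B, hB, h0⟩ := h0
    refine Or.inl (iSup₂_le fun C hC => ?_)
    obtain ⟨g, hg, rfl⟩ := (comp_conn hB hC).exists_cj_mem
    exact cj_le_of_le h0 (h2 hg)
  push Not at h0
  refine Or.inr (Cm.symm (cm_iff_le.2 (iSup₂_le fun B hB => cm_iff_le.1 (cm_iff_bot.2 ?_))))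
  have n1 := (le_gen hB).trans h2
  have c0 : ⁅N ⊔ B, N ⊔ B⁆ ≤ N := comm_sup_le' le_normalizer n1
    (commutator_le_right_of_norm (sup_le le_normalizer n1)) (by
      rw [commutator_comm]
      exact comm_sup_le' le_normalizer n1 (commutator_le_right_of_norm n1) ((ra.cm B hB).bot.le.trans bot_le))
  have c1 : ∀ n ∈ N, Cm B (cj n B) := fun n hn => by
    have l1 : cj n B ≤ N ⊔ B := cj_le_of_le le_sup_right (le_normalizer (mem_sup_left hn))
    have l2 := (commutator_mono (sup_le le_sup_right l1) (sup_le le_sup_right l1)).trans c0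
    rcases ra.tri B hB _ (ra.conj B hB n (h1 hn)) with r | r | ⟨D, p⟩
    · exact r
    · exact absurd (le_sup_left.trans ((sig_perfect hB.1 (ra.conj B hB n (h1 hn)).1 r).ge.trans l2)) (h0 B hB)
    · exact absurd (p.eq ▸ (commutator_mono le_sup_left le_sup_right).trans l2) (h0 D p.m3)
  have c2 : ∀ n ∈ N, ∀ n' ∈ N, Cm (cj n B) (cj n' B) := fun n hn n' hn' =>
    (c1 _ (mul_mem (inv_mem hn) hn')).of_eq n rfl (by rw [cj_cj, mul_inv_cancel_left])
  have u := uni_iSup (k := k) (G := N ⊔ B) (W := {C | ∃ n ∈ N, C = cj n B})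
    (by rintro _ ⟨n, hn, rfl⟩; exact cj_le_of_le le_sup_right (le_normalizer (mem_sup_left hn)))
    (by rintro _ ⟨n, hn, rfl⟩ _ ⟨n', hn', rfl⟩
        exact sig_uni (ra.conj B hB n (h1 hn)).1 (ra.conj B hB n' (h1 hn')).1 fun r => r.not_cm (c2 n hn n' hn'))
    (by rintro _ ⟨n, hn, rfl⟩ g hg
        obtain ⟨n', hn', b, hb, rfl⟩ := (mem_sup_of_norm' n1).1 hg
        exact ⟨n' * n, mul_mem hn' hn, by rw [← cj_cj, (c1 n hn).cj_eq hb, cj_cj]⟩)
  refine le_bot_iff.1 (le_trans (le_inf (commutator_le_right_of_norm n1) (commutator_le.2 fun b hb n hn => ?_))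
    ((r0.of_norm h1 h2) _ inf_le_left (norm_inf le_normalizer (le_normalizer_iff_cj.2 fun g hg => ?_))
      (u.mono inf_le_right)).le)
  · rw [commutatorElement_def, mul_assoc, mul_assoc, ← mul_assoc n]
    exact mul_mem (le_gen (S := {C | ∃ n ∈ N, C = cj n B}) ⟨1, one_mem _, (cj_one _).symm⟩ hb)
      (le_gen (S := {C | ∃ n ∈ N, C = cj n B}) ⟨n, hn, rfl⟩ (conj_mem_cj.2 (inv_mem hb)))
  · simp only [cj_iSup]
    refine iSup₂_le ?_
    rintro _ ⟨n, hn, rfl⟩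
    exact le_gen (S := {C | ∃ n ∈ N, C = cj n B}) ⟨g * n, mul_mem hg hn, cj_cj _ _ _⟩

theorem mem_or_cent (hG : IsIrreducibleFor G) (hL : Red k L) (h : G ≤ (⨆ C ∈ cp L A, C) ⊔ 𝐂 (⨆ C ∈ cp L A, C))
    (hs : Q k L s) : ex s hs.1 ∈ (⨆ C ∈ cp L A, C) ∨ ex s hs.1 ∈ 𝐂 (⨆ C ∈ cp L A, C) := by
  induction hn : rk s using Nat.strong_induction_on generalizing s with
  | _ n ih =>
  rcases hL.split hs with h1 | ⟨y, hy, s₁, h1, h2, h3⟩
  · exact Or.inr (centralizer_le comp_le h1)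
  have h4 := sub_mem hs.mem_V h2
  have h5 := ih _ (hn ▸ h3) h4.1 rfl
  rw [ex_split hs h2]
  by_cases hB : E L y ∈ cp L A
  · have m := le_gen hB (ex_mem_E h1)
    rcases h5 with h5 | h5
    · exact Or.inl (mul_mem m h5)
    · rcases annih hG h _ _ m h5 (V_mul h4 h2) with e | e
      · exact Or.inr (mul_mem ((ex_eq_one _).2 e ▸ one_mem _) h5)
      · exact Or.inl (mul_mem m ((ex_eq_one _).2 e ▸ one_mem _))
  · have m := (hL.cm_cp ⟨y, hy, rfl⟩ hB).le (ex_mem_E h1)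
    rcases h5 with h5 | h5
    · rcases annih hG h _ _ h5 m (V_mul h2 h4) with e | e
      · exact Or.inr (mul_mem m ((ex_eq_one _).2 e ▸ one_mem _))
      · exact Or.inl (mul_mem ((ex_eq_one _).2 e ▸ one_mem _) h5)
    · exact Or.inr (mul_mem m h5)

theorem Red.le_cp (hL : Red k L) (h : closure (quadraticElements L) = L) :
    L ≤ (⨆ C ∈ cp L A, C) ⊔ 𝐂 (⨆ C ∈ cp L A, C) := by
  refine (hL.le_sup h).trans (sup_le (iSup₂_le fun B hB => ?_)
    (inf_le_right.trans ((centralizer_le comp_le).trans le_sup_right)))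
  by_cases h : B ∈ cp L A
  exacts [(le_gen h).trans le_sup_left, (hL.cm_cp hB h).le.trans le_sup_right]

end CA.Quad
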