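import Cfsg.Agent.Lib.Loc.AmbRes
import Cfsg.Prelude.Def_RootSubgroups

/-!
Rank one groups: basic properties (Timmesfeld, ch. I §1), with conjugates written `cj g A = g A g⁻¹`.
-/

set_option autoImplicit false

namespace CA.Root

open Subgroup Cfsg CA.Amb CA.AmbCore CA.AmbRes
open scoped commutatorElement

variable {G : Type*} [Group G] {A B C D : Subgroup G}

/-! ### commuting subgroups -/

/-- `A` and `B` commute elementwise -/
def Cm (A B : Subgroup G) : Prop := ∀ a ∈ A, ∀ b ∈ B, a * b = b * a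

theorem Cm.symm (h : Cm A B) : Cm B A := fun b hb a ha => (h a ha b hb).symm

theorem cm_iff_le : Cm A B ↔ A ≤ 𝐂 B :=
  ⟨fun h a ha => mem_centralizer_sub.2 fun b hb => (h a ha b hb).symm,
    fun h a ha b hb => (mem_centralizer_sub.1 (h ha) b hb).symm⟩

theorem Cm.le (h : Cm A B) : A ≤ 𝐂 B := cm_iff_le.1 h

theorem Cm.le_norm (h : Cm A B) : A ≤ 𝐍 B := norm_of_centralizer h.le

theorem cm_iff_bot : Cm A B ↔ ⁅A, B⁆ = ⊥ := by
  rw [cm_iff_le, commutator_eq_bot_iff_le_centralizer]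

theorem Cm.bot (h : Cm A B) : ⁅A, B⁆ = ⊥ := cm_iff_bot.1 h

theorem Cm.mono (h : Cm A B) (h1 : C ≤ A) (h2 : D ≤ B) : Cm C D := fun a ha b hb => h a (h1 ha) b (h2 hb)

theorem Cm.sup_left (h : Cm A C) (h' : Cm B C) : Cm (A ⊔ B) C := cm_iff_le.2 (sup_le h.le h'.le)

theorem Cm.sup_right (h : Cm A B) (h' : Cm A C) : Cm A (B ⊔ C) := (h.symm.sup_left h'.symm).symm

theorem Cm.conj (h : Cm A B) (g : G) : Cm (cj g A) (cj g B) := by
  rw [cm_iff_bot] at *; rw [← cj_commutator, h, cj_bot]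

theorem cm_cj_iff {g : G} : Cm (cj g A) (cj g B) ↔ Cm A B :=
  ⟨fun h => by simpa using h.conj g⁻¹, fun h => h.conj g⟩

theorem Cm.of_eq {A' B' : Subgroup G} (h : Cm A B) (g : G) (h1 : cj g A = A') (h2 : cj g B = B') :
    Cm A' B' := h1 ▸ h2 ▸ h.conj g

theorem Cm.cj_eq (h : Cm A B) {a : G} (ha : a ∈ A) : cj a B = B := cj_eq_self (h.le_norm ha)

theorem Cm.cj_eq' (h : Cm A B) {b : G} (hb : b ∈ B) : cj b A = A := h.symm.cj_eq hb

theorem Cm.conj_eq (h : Cm A B) {a b : G} (ha : a ∈ A) (hb : b ∈ B) : a * b * a⁻¹ = b := by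
  rw [h a ha b hb, mul_inv_cancel_right]

theorem cm_self_iff : Cm A A ↔ IsMulCommutative A :=
  ⟨fun h => ⟨⟨fun a b => Subtype.ext (h a a.2 b b.2)⟩⟩,
    fun h a ha b hb => congrArg Subtype.val (h.1.1 (⟨a, ha⟩ : A) ⟨b, hb⟩)⟩

theorem Cm.map {G' : Type*} [Group G'] (h : Cm A B) (f : G →* G') : Cm (A.map f) (B.map f) := by
  rintro _ ⟨a, ha, rfl⟩ _ ⟨b, hb, rfl⟩
  rw [← map_mul, h a ha b hb, map_mul]

theorem cj_self {a : G} (h : a ∈ A) : cj a A = A := cj_eq_self_of_mem h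

theorem cj_mul_of_mem {a : G} (g : G) (h : a ∈ A) : cj (g * a) A = cj g A := by
  rw [← cj_cj, cj_self h]

theorem cj_eq_cj_iff {g k : G} : cj g A = cj k A ↔ k⁻¹ * g ∈ 𝐍 A := by
  rw [← cj_eq_self_iff, ← cj_cj, eq_comm (b := A), ← cj_eq_iff, eq_comm]

/-! ### rank one pairs -/

/-- rank one pair -/
def RO (A B : Subgroup G) : Prop := IsRankOnePair A B

theorem RO.symm (h : RO A B) : RO B A := RankOnePair_symm h

theorem RO.ne (h : RO A B) : A ≠ B := IsRankOnePair.ne h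

theorem RO.ex (h : RO A B) {a : G} (ha : a ∈ A) (h1 : a ≠ 1) : ∃ b ∈ B, b ≠ 1 ∧ cj b A = cj a B := by
  obtain ⟨b, hb, h2, e⟩ := h.cond_left a⁻¹ (inv_mem ha) (inv_ne_one.2 h1)
  exact ⟨b⁻¹, inv_mem hb, inv_ne_one.2 h2, by simpa using e⟩

theorem RO.ex' (h : RO A B) {b : G} (hb : b ∈ B) (h1 : b ≠ 1) : ∃ a ∈ A, a ≠ 1 ∧ cj b A = cj a B := by
  obtain ⟨a, ha, h2, e⟩ := h.symm.ex hb h1
  exact ⟨a, ha, h2, e.symm⟩

theorem ro_mk (hne : A ≠ B) (hA : Group.IsNilpotent A) (hB : Group.IsNilpotent B)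
    (h1 : ∀ a ∈ A, a ≠ 1 → ∃ b ∈ B, cj b A = cj a B) (h2 : ∀ b ∈ B, b ≠ 1 → ∃ a ∈ A, cj b A = cj a B) :
    RO A B := by
  refine ⟨hne, hA, hB, fun a ha k => ?_, fun b hb k => ?_⟩
  · obtain ⟨b, hb, e⟩ := h1 a⁻¹ (inv_mem ha) (inv_ne_one.2 k)
    refine ⟨b⁻¹, inv_mem hb, fun h0 => hne ?_, by simpa using e⟩
    rw [inv_eq_one.1 h0, cj_one, eq_comm, cj_eq_iff, cj_self (inv_mem (inv_mem ha))] at e
    exact e.symm
  · obtain ⟨a, ha, e⟩ := h2 b⁻¹ (inv_mem hb) (inv_ne_one.2 k)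
    refine ⟨a⁻¹, inv_mem ha, fun h0 => hne ?_, by simpa using e.symm⟩
    rw [inv_eq_one.1 h0, cj_one, cj_eq_iff, cj_self (inv_mem (inv_mem hb))] at e
    exact e

/-- `N_A(B) = 1` -/
theorem RO.nb (h : RO A B) {a : G} (ha : a ∈ A) (hn : cj a B = B) : a = 1 := by
  by_contra h1
  obtain ⟨b, hb, -, e⟩ := h.ex ha h1
  rw [hn, cj_eq_iff, cj_self (inv_mem hb)] at e
  exact h.ne e

theorem RO.nb' (h : RO A B) {a : G} (ha : a ∈ A) (hn : a ∈ 𝐍 B) : a = 1 := h.nb ha (cj_eq_self hn)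

theorem RO.inj (h : RO A B) {a a' : G} (ha : a ∈ A) (ha' : a' ∈ A) (e : cj a B = cj a' B) : a = a' := by
  have := h.nb' (mul_mem (inv_mem ha') ha) (cj_eq_cj_iff.1 e)
  exact (inv_mul_eq_one.1 this).symm

theorem RO.eq_one (h : RO A B) {a : G} (ha : a ∈ A) (hb : a ∈ B) : a = 1 := h.nb ha (cj_self hb)

theorem RO.ne_bot (h : RO A B) : A ≠ ⊥ := fun h0 => h.ne (by
  rw [h0, eq_comm, eq_bot_iff]
  intro b hb
  exact h.symm.nb hb (by rw [h0, cj_bot]))

theorem RO.exists_ne (h : RO A B) : ∃ a ∈ A, a ≠ 1 := by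
  by_contra h0
  push Not at h0
  exact h.ne_bot (eq_bot_iff.2 fun a ha => h0 a ha)

theorem RO.not_cm (h : RO A B) : ¬ Cm A B := fun hc => by
  obtain ⟨a, ha, h1⟩ := h.exists_ne
  exact h1 (h.nb ha (hc.cj_eq ha))

theorem RO.cj_ne (h : RO A B) {a : G} (ha : a ∈ A) : cj a B ≠ A := fun e =>
  h.ne (by rw [cj_eq_iff, cj_self (inv_mem ha)] at e; exact e.symm)

theorem RO.map {G' : Type*} [Group G'] (h : RO A B) (f : G →* G') (hne : A.map f ≠ B.map f) :
    RO (A.map f) (B.map f) := by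
  have := h.nilpotent_left
  have := h.nilpotent_right
  refine ro_mk hne (Group.nilpotent_of_surjective _ (f.subgroupMap_surjective A))
    (Group.nilpotent_of_surjective _ (f.subgroupMap_surjective B)) ?_ ?_
  · rintro _ ⟨a, ha, rfl⟩ h1
    obtain ⟨b, hb, -, e⟩ := h.ex ha (fun h0 => h1 (by rw [h0, map_one]))
    exact ⟨f b, ⟨b, hb, rfl⟩, by rw [← map_cj, ← map_cj, e]⟩
  · rintro _ ⟨a, ha, rfl⟩ h1
    obtain ⟨b, hb, -, e⟩ := h.ex' ha (fun h0 => h1 (by rw [h0, map_one]))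
    exact ⟨f b, ⟨b, hb, rfl⟩, by rw [← map_cj, ← map_cj, e]⟩

theorem ro_map_iff {G' : Type*} [Group G'] {f : G →* G'} (hf : Function.Injective f) :
    RO (A.map f) (B.map f) ↔ RO A B := by
  refine ⟨fun h => ?_, fun h => h.map f fun e => h.ne (map_injective hf e)⟩
  have := h.nilpotent_left
  have := h.nilpotent_right
  refine ro_mk (fun e => h.ne (e ▸ rfl)) (Group.nilpotent_of_mulEquiv (A.equivMapOfInjective f hf).symm)
    (Group.nilpotent_of_mulEquiv (B.equivMapOfInjective f hf).symm) (fun a ha h1 => ?_) (fun a ha h1 => ?_)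
  · obtain ⟨_, ⟨b, hb, rfl⟩, -, e⟩ := h.ex ⟨a, ha, rfl⟩ (fun h0 => h1 (hf (h0.trans f.map_one.symm)))
    exact ⟨b, hb, map_injective hf (by rw [map_cj, map_cj, e])⟩
  · obtain ⟨_, ⟨b, hb, rfl⟩, -, e⟩ := h.ex' ⟨a, ha, rfl⟩ (fun h0 => h1 (hf (h0.trans f.map_one.symm)))
    exact ⟨b, hb, map_injective hf (by rw [map_cj, map_cj, e])⟩

theorem ro_subgroupOf {L : Subgroup G} (hA : A ≤ L) (hB : B ≤ L) :
    RO (A.subgroupOf L) (B.subgroupOf L) ↔ RO A B := by
  rw [← ro_map_iff L.subtype_injective, map_subgroupOf_eq_of_le hA, map_subgroupOf_eq_of_le hB]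

theorem RO.conj (h : RO A B) (g : G) : RO (cj g A) (cj g B) := (ro_map_iff (conj_injective g)).2 h

theorem ro_cj_iff {g : G} : RO (cj g A) (cj g B) ↔ RO A B := ro_map_iff (conj_injective g)

theorem RO.of_eq {A' B' : Subgroup G} (h : RO A B) (g : G) (h1 : cj g A = A') (h2 : cj g B = B') :
    RO A' B' := h1 ▸ h2 ▸ h.conj g

/-- the unipotent subgroups -/
def Un (A B C : Subgroup G) : Prop := ∃ x ∈ A ⊔ B, C = cj x A

theorem Un.left (A B : Subgroup G) : Un A B A := ⟨1, one_mem _, (cj_one _).symm⟩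

theorem Un.conj (h : Un A B C) {x : G} (hx : x ∈ A ⊔ B) : Un A B (cj x C) := by
  obtain ⟨y, hy, rfl⟩ := h
  exact ⟨x * y, mul_mem hx hy, cj_cj _ _ _⟩

theorem Un.le (h : Un A B C) : C ≤ A ⊔ B := by
  obtain ⟨y, hy, rfl⟩ := h
  exact cj_le_of_mem le_sup_left hy

theorem RO.un_right (h : RO A B) : Un A B B := by
  obtain ⟨a, ha, h1⟩ := h.exists_ne
  obtain ⟨b, hb, -, e⟩ := h.ex ha h1
  exact ⟨a⁻¹ * b, mul_mem (mem_sup_left (inv_mem ha)) (mem_sup_right hb), by rw [← cj_cj, e, cj_inv_cj]⟩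

/-- a family of subgroups with the two descriptions is invariant -/
theorem inv_family {E F : Subgroup G} (hE : ∀ b ∈ B, cj b E = E) (hF : ∀ a ∈ A, cj a F = F)
    (h1 : ∀ a ∈ A, a ≠ 1 → ∃ b ∈ B, cj b F = cj a E) (h2 : ∀ b ∈ B, b ≠ 1 → ∃ a ∈ A, cj b F = cj a E)
    {x : G} (hx : x ∈ A ⊔ B) : ∀ C, (C = F ∨ ∃ a ∈ A, C = cj a E) → cj x C = F ∨ ∃ a ∈ A, cj x C = cj a E := by
  have key : ∀ x, x ∈ A ∨ x ∈ B →
      ∀ C, (C = F ∨ ∃ a ∈ A, C = cj a E) → cj x C = F ∨ ∃ a ∈ A, cj x C = cj a E := by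
    have k : ∀ b ∈ B, cj b F = F ∨ ∃ a ∈ A, cj b F = cj a E := fun b hb => by
      by_cases h0 : b = 1
      · left; rw [h0, cj_one]
      · exact Or.inr (h2 b hb h0)
    rintro x (hx | hx) C (rfl | ⟨a, ha, rfl⟩)
    · exact Or.inl (hF x hx)
    · exact Or.inr ⟨x * a, mul_mem hx ha, cj_cj _ _ _⟩
    · exact k x hx
    · by_cases h0 : a = 1
      · exact Or.inr ⟨1, one_mem _, by rw [h0, cj_one, hE x hx]⟩
      · obtain ⟨b, hb, e⟩ := h1 a ha h0
        rw [← e, cj_cj]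
        exact k _ (mul_mem hx hb)
  rw [sup_eq_closure] at hx
  induction hx using closure_induction'' with
  | mem x hx => exact key x hx
  | inv_mem x hx => exact key _ (hx.imp inv_mem inv_mem)
  | one => intro C hC; simpa using hC
  | mul x y _ _ k1 k2 => intro C hC; rw [← cj_cj]; exact k1 _ (k2 C hC)

theorem RO.un_iff (h : RO A B) : Un A B C ↔ C = A ∨ ∃ a ∈ A, C = cj a B := by
  constructor
  · rintro ⟨x, hx, rfl⟩
    exact inv_family (fun _ => cj_self) (fun _ => cj_self)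
      (fun a ha h1 => (h.ex ha h1).imp fun _ k => ⟨k.1, k.2.2⟩)
      (fun a ha h1 => (h.ex' ha h1).imp fun _ k => ⟨k.1, k.2.2⟩) hx A (Or.inl rfl)
  · rintro (rfl | ⟨a, ha, rfl⟩)
    · exact Un.left _ _
    · exact h.un_right.conj (mem_sup_left ha)

theorem RO.un_ne (h : RO A B) (hC : Un A B C) (hne : C ≠ A) : ∃ a ∈ A, C = cj a B :=
  (h.un_iff.1 hC).resolve_left hne

theorem RO.un_symm (h : RO A B) (hC : Un A B C) : Un B A C := by
  obtain ⟨x, hx, rfl⟩ := hC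
  exact h.symm.un_right.conj (sup_comm A B ▸ hx)

theorem RO.pair (h : RO A B) (hC : Un A B C) (hD : Un A B D) (hne : C ≠ D) :
    ∃ x ∈ A ⊔ B, cj x A = C ∧ cj x B = D := by
  obtain ⟨x, hx, rfl⟩ := hC
  obtain ⟨a, ha, e⟩ := h.un_ne (hD.conj (inv_mem hx)) (fun e => hne (by rw [← e, cj_cj_inv]))
  exact ⟨x * a, mul_mem hx (mem_sup_left ha), cj_mul_of_mem x ha, by rw [← cj_cj, ← e, cj_cj_inv]⟩

theorem RO.of_un (h : RO A B) (hC : Un A B C) (hD : Un A B D) (hne : C ≠ D) : RO C D := by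
  obtain ⟨x, -, h1, h2⟩ := h.pair hC hD hne
  exact h.of_eq x h1 h2

theorem RO.sup_un (h : RO A B) (hC : Un A B C) (hD : Un A B D) (hne : C ≠ D) : C ⊔ D = A ⊔ B := by
  obtain ⟨x, hx, rfl, rfl⟩ := h.pair hC hD hne
  rw [← cj_sup, cj_self hx]

theorem RO.un_un (h : RO A B) (hC : Un A B C) (hD : Un A B D) (hne : C ≠ D) {E : Subgroup G} :
    Un C D E ↔ Un A B E := by
  obtain ⟨x, hx, rfl⟩ := id hC
  unfold Un
  rw [h.sup_un hC hD hne]
  exact ⟨fun ⟨y, hy, e⟩ => ⟨y * x, mul_mem hy hx, by rw [e, cj_cj]⟩,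
    fun ⟨y, hy, e⟩ => ⟨y * x⁻¹, mul_mem hy (inv_mem hx), by rw [e, cj_cj, inv_mul_cancel_right]⟩⟩

theorem RO.eq_of_cm (h : RO A B) (hC : Un A B C) (hD : Un A B D) (hc : Cm C D) : C = D := by
  by_contra hne
  exact (h.of_un hC hD hne).not_cm hc

theorem RO.eq_of_mem (h : RO A B) (hC : Un A B C) (hD : Un A B D) {x : G} (h1 : x ≠ 1) (hx : x ∈ C)
    (hx' : cj x D = D) : C = D := by
  by_contra hne
  exact h1 ((h.of_un hC hD hne).nb hx hx')

theorem RO.swap (h : RO A B) : ∃ x ∈ A ⊔ B, cj x A = B ∧ cj x B = A :=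
  h.pair h.un_right (Un.left A B) h.ne.symm

/-- `cj a B` commuting with `B` forces `a = 1` -/
theorem RO.eq_one_of_cm (h : RO A B) {a : G} (ha : a ∈ A) (hc : Cm (cj a B) B) : a = 1 :=
  h.nb ha (h.eq_of_cm (h.un_right.conj (mem_sup_left ha)) h.un_right hc)

theorem RO.cj_right (h : RO A B) {a : G} (ha : a ∈ A) : RO A (cj a B) := h.of_eq a (cj_self ha) rfl

theorem RO.cj_left (h : RO A B) {a : G} (ha : a ∈ A) (h1 : a ≠ 1) : RO (cj a B) B :=
  h.of_un (h.un_right.conj (mem_sup_left ha)) h.un_right fun e => h1 (h.nb ha e)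

theorem RO.sup_cj (h : RO A B) {a : G} (ha : a ∈ A) (h1 : a ≠ 1) : cj a B ⊔ B = A ⊔ B :=
  h.sup_un (h.un_right.conj (mem_sup_left ha)) h.un_right fun e => h1 (h.nb ha e)

/-- an element normalizing `A`, `B` and `cj a B` commutes with `a` -/
theorem RO.comm_of_norm (h : RO A B) {a z : G} (ha : a ∈ A) (h1 : cj z A = A) (h2 : cj z B = B)
    (h3 : cj z (cj a B) = cj a B) : z * a = a * z := by
  have : z * a * z⁻¹ = a := h.inj (conj_mem_of_mem_normalizer (cj_eq_self_iff.1 h1) ha) ha (by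
    rw [← cj_cj, ← cj_cj, cj_eq_iff.1 h2 |>.symm, h3])
  rw [← mul_inv_eq_iff_eq_mul, this]

/-- normal subgroups of a rank one group -/
theorem RO.normal (h : RO A B) {N : Subgroup G} (hN : A ⊔ B ≤ 𝐍 N) :
    Cm (N ⊓ (A ⊔ B)) (A ⊔ B) ∨ (B ≤ N ⊔ A ∧ A ≤ N ⊔ B) := by
  by_cases h0 : ∀ n ∈ N, n ∈ A ⊔ B → cj n A = A
  · left
    have k : ∀ n ∈ N, n ∈ A ⊔ B → ∀ C, Un A B C → cj n C = C := by
      rintro n h1 h2 _ ⟨x, hx, rfl⟩
      have := h0 _ (inv_conj_mem_of_mem_normalizer (hN hx) h1) (mul_mem (mul_mem (inv_mem hx) h2) hx)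
      rw [mul_assoc, ← cj_cj, cj_eq_iff, inv_inv, ← cj_cj] at this
      exact this
    refine Cm.sup_right (fun n hn a ha => ?_) (fun n hn b hb => ?_)
    · exact h.comm_of_norm ha (k n hn.1 hn.2 _ (Un.left A B)) (k n hn.1 hn.2 _ h.un_right)
        (k n hn.1 hn.2 _ (h.un_right.conj (mem_sup_left ha)))
    · exact h.symm.comm_of_norm hb (k n hn.1 hn.2 _ h.un_right) (k n hn.1 hn.2 _ (Un.left A B))
        (k n hn.1 hn.2 _ ((Un.left A B).conj (mem_sup_right hb)))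
  · right
    push Not at h0
    obtain ⟨n, h1, h2, h3⟩ := h0
    obtain ⟨a, ha, e⟩ := h.un_ne ((Un.left A B).conj h2) h3
    have k : B ≤ N ⊔ A := by
      rw [eq_comm, cj_eq_iff] at e
      rw [e]
      exact cj_le_of_mem (cj_le_of_mem le_sup_right (mem_sup_left h1)) (mem_sup_right (inv_mem ha))
    obtain ⟨x, hx, e1, e2⟩ := h.swap
    have := cj_mono x k
    rw [cj_sup, e1, e2, cj_eq_self (hN hx)] at this
    exact ⟨k, this⟩

theorem RO.not_le_norm (h : RO A B) : ¬ B ≤ 𝐍 A := fun hb => by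
  obtain ⟨b, h1, h2⟩ := h.symm.exists_ne
  exact h2 (h.symm.nb' h1 (hb h1))

/-- elements of the second centre are central -/
theorem RO.z2 (h : RO A B) {z : G} (hz : z ∈ A ⊔ B) (h2 : ∀ x ∈ A ⊔ B, ⁅z, x⁆ ∈ 𝐂 (A ⊔ B)) :
    z ∈ 𝐂 (A ⊔ B) := by
  have k : ∀ C, Un A B C → cj z C = C := fun C hC => by
    by_contra hne
    refine (h.of_un hC (hC.conj hz) (Ne.symm hne)).not_le_norm fun c hc => ?_
    obtain ⟨y, hy, rfl⟩ := mem_cj'.1 hc
    have : z * y * z⁻¹ = ⁅z, y⁆ * y := by group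
    rw [this]
    exact mul_mem (centralizer_le_normalizer _ (centralizer_anti hC.le (h2 y (hC.le hy)))) (le_normalizer hy)
  rw [centralizer_sup]
  exact ⟨mem_centralizer_sub.2 fun a ha => (h.comm_of_norm ha (k _ (Un.left A B)) (k _ h.un_right)
      (k _ (h.un_right.conj (mem_sup_left ha)))).symm,
    mem_centralizer_sub.2 fun b hb => (h.symm.comm_of_norm hb (k _ h.un_right) (k _ (Un.left A B))
      (k _ ((Un.left A B).conj (mem_sup_right hb)))).symm⟩

theorem RO.z2_top (h : RO A B) (e : A ⊔ B = ⊤) : Subgroup.upperCentralSeries G 2 = center G := by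
  refine le_antisymm (fun z hz => ?_) (by rw [← Subgroup.upperCentralSeries_one]; exact Subgroup.upperCentralSeries_mono G one_le_two)
  have := h.z2 (z := z) (e ▸ mem_top z) fun x _ => by
    rw [e, Amb.centralizer_top, ← Subgroup.upperCentralSeries_one]
    exact Subgroup.mem_upperCentralSeries_succ_iff.1 hz x
  rwa [e, Amb.centralizer_top] at this

theorem eq_center_of_z2 (h : Subgroup.upperCentralSeries G 2 = center G) (n : ℕ) :
    Subgroup.upperCentralSeries G (n + 1) = center G := by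
  induction n with
  | zero => exact Subgroup.upperCentralSeries_one G
  | succ n ih =>
    rw [← h]
    ext x
    rw [Subgroup.mem_upperCentralSeries_succ_iff, Subgroup.mem_upperCentralSeries_succ_iff, ih, Subgroup.upperCentralSeries_one]

theorem RO.not_nil_top (h : RO A B) (e : A ⊔ B = ⊤) : ¬ Group.IsNilpotent G := fun hn => by
  obtain ⟨n, hn⟩ := hn.nilpotent
  have : center G = ⊤ := by
    rw [← eq_center_of_z2 (h.z2_top e) n, eq_top_iff, ← hn]
    exact Subgroup.upperCentralSeries_mono G n.le_succ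
  exact h.not_cm fun a _ b _ => (mem_center_iff.1 (this ▸ mem_top b) a)

theorem RO.not_nil (h : RO A B) {L : Subgroup G} (hA : A ≤ L) (hB : B ≤ L) : ¬ Group.IsNilpotent L := fun hn => by
  refine ((ro_subgroupOf le_sup_left le_sup_right).2 h).not_nil_top ?_
    (Group.nilpotent_of_mulEquiv (subgroupOfEquivOfLe (sup_le hA hB)))
  rw [← subgroupOf_sup le_sup_left le_sup_right, subgroupOf_self]

theorem RO.normal_top (h : RO A B) (e : A ⊔ B = ⊤) (N : Subgroup G) [N.Normal] :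
    N ⊔ A = ⊤ ∨ N ≤ center G := by
  rcases h.normal (N := N) norm_of_normal with k | k
  · right
    rw [e, inf_top_eq] at k
    rw [← Amb.centralizer_top]; exact k.le
  · left
    rw [eq_top_iff, ← e]
    exact sup_le le_sup_right k.1

theorem quasisimple_of (hp : commutator G = ⊤) (hnt : center G ≠ ⊤)
    (h : ∀ N : Subgroup G, N.Normal → N = ⊤ ∨ N ≤ center G) : IsQuasisimple G := by
  refine ⟨⟨hp⟩, ?_⟩
  have : Nontrivial (G ⧸ center G) := QuotientGroup.nontrivial_iff.2 hnt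
  refine ⟨fun N hN => ?_⟩
  have hs := QuotientGroup.mk'_surjective (center G)
  rcases h (N.comap (QuotientGroup.mk' (center G))) (hN.comap _) with k | k
  · right
    rw [← map_comap_eq_self_of_surjective hs N, k, map_top_of_surjective _ hs]
  · left
    rw [← map_comap_eq_self_of_surjective hs N, Subgroup.map_eq_bot_iff, QuotientGroup.ker_mk']
    exact k

theorem eq_top_of_nil (hp : commutator G = ⊤) (hA : Group.IsNilpotent A) {N : Subgroup G} [N.Normal]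
    (e : N ⊔ A = ⊤) : N = ⊤ := by
  have hs := QuotientGroup.mk'_surjective N
  have h1 : A.map (QuotientGroup.mk' N) = ⊤ := by
    rw [← map_top_of_surjective _ hs, ← e, Subgroup.map_sup,
      (Subgroup.map_eq_bot_iff _).2 (QuotientGroup.ker_mk' N).ge, bot_sup_eq]
  have h2 : Group.IsNilpotent (⊤ : Subgroup (G ⧸ N)) :=
    h1 ▸ Group.nilpotent_of_surjective _ ((QuotientGroup.mk' N).subgroupMap_surjective A)
  have h3 : Group.IsNilpotent (G ⧸ N) := Group.nilpotent_of_mulEquiv topEquiv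
  by_contra hne
  have : Nontrivial (G ⧸ N) := QuotientGroup.nontrivial_iff.2 hne
  have h4 := Group.IsSolvable.commutator_lt_top_of_nontrivial (G ⧸ N)
  rw [_root_.commutator_def, ← map_top_of_surjective _ hs, ← map_commutator, ← _root_.commutator_def, hp] at h4
  exact lt_irrefl _ h4

theorem RO.center_ne (h : RO A B) : center G ≠ ⊤ := fun e =>
  h.not_cm fun a _ b _ => (mem_center_iff.1 (e ▸ mem_top b) a)

theorem RO.quasisimple (h : RO A B) (e : A ⊔ B = ⊤) (hp : commutator G = ⊤) : IsQuasisimple G :=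
  quasisimple_of hp h.center_ne fun N _ =>
    (h.normal_top e N).imp_left (eq_top_of_nil hp h.nilpotent_left)

end CA.Root
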