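import Cfsg.Agent.Lib.Root.R1

/-!
Special rank one groups (Timmesfeld, ch. I §2, §5): braid relation, quadratic modules, the order of elements.
-/

set_option autoImplicit false

namespace CA.Root

open Subgroup Cfsg CA.Amb CA.AmbCore CA.AmbRes
open scoped commutatorElement

variable {G : Type*} [Group G] {A B C D : Subgroup G}

/-- working form of "special" -/
def Sp (A B : Subgroup G) : Prop := ∀ a ∈ A, ∀ b ∈ B, cj b A = cj a B → cj b⁻¹ A = cj a⁻¹ B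

theorem Sp.symm (h : Sp A B) : Sp B A := fun b hb a ha e => (h a ha b hb e.symm).symm

theorem Sp.map {G' : Type*} [Group G'] (hs : Sp A B) (f : G →* G') (h : RO A B) (h' : RO (A.map f) (B.map f)) :
    Sp (A.map f) (B.map f) := by
  rintro _ ⟨a, ha, rfl⟩ _ ⟨b, hb, rfl⟩ e
  have h1 : a ≠ 1 := fun h0 => h'.symm.cj_ne ⟨b, hb, rfl⟩ (by rw [e, h0, map_one, cj_one])
  obtain ⟨b', hb', -, e'⟩ := h.ex ha h1
  have e2 : cj (f b') (A.map f) = cj (f a) (B.map f) := by rw [← map_cj, ← map_cj, e']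
  rw [h'.symm.inj ⟨b, hb, rfl⟩ ⟨b', hb', rfl⟩ (e.trans e2.symm), ← map_inv, ← map_inv, ← map_cj, ← map_cj,
    hs a ha b' hb' e']

theorem Sp.of_map {G' : Type*} [Group G'] {f : G →* G'} (hf : Function.Injective f)
    (hs : Sp (A.map f) (B.map f)) : Sp A B := fun a ha b hb e => map_injective hf (by
  rw [map_cj, map_cj, map_inv, map_inv]
  exact hs _ ⟨a, ha, rfl⟩ _ ⟨b, hb, rfl⟩ (by rw [← map_cj, ← map_cj, e]))

theorem Sp.conj (hs : Sp A B) (h : RO A B) (g : G) : Sp (cj g A) (cj g B) := hs.map _ h (h.conj g)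

theorem RO.ne_one (h : RO A B) {a b : G} (hb : b ∈ B) (e : cj b A = cj a B) : a ≠ 1 := fun h0 =>
  h.symm.cj_ne hb (by rw [e, h0, cj_one])

theorem RO.ne_one' (h : RO A B) {a b : G} (ha : a ∈ A) (e : cj b A = cj a B) : b ≠ 1 :=
  h.symm.ne_one ha e.symm

theorem swap_left {a b : G} (ha : a ∈ A) (e' : cj b⁻¹ A = cj a⁻¹ B) : cj (a * b⁻¹ * a) A = B := by
  rw [cj_mul_of_mem _ ha, ← cj_cj, e', cj_cj_inv]

theorem swap_right {a b : G} (ha : a ∈ A) (e : cj b A = cj a B) : cj (a * b⁻¹ * a) B = A := by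
  rw [← cj_cj, ← e, cj_cj, inv_mul_cancel_right, cj_self ha]

/-- the braid relation -/
theorem RO.braid (h : RO A B) {a b : G} (ha : a ∈ A) (hb : b ∈ B) (e : cj b A = cj a B)
    (e' : cj b⁻¹ A = cj a⁻¹ B) : a * b⁻¹ * a = b⁻¹ * a * b⁻¹ := by
  have h1 : cj (b⁻¹ * a * b⁻¹) A = B := by
    rw [← cj_cj, e', cj_cj, mul_inv_cancel_right, cj_self (inv_mem hb)]
  have h2 : cj (b⁻¹ * a * b⁻¹) B = A := by rw [cj_mul_of_mem _ (inv_mem hb), ← cj_cj, ← e, cj_inv_cj]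
  have h3 : (b⁻¹ * a * b⁻¹) * b⁻¹ * (b⁻¹ * a * b⁻¹)⁻¹ ∈ A := by rw [← h2]; exact conj_mem_cj.2 (inv_mem hb)
  have h4 : (b⁻¹ * a * b⁻¹)⁻¹ * b⁻¹ * (b⁻¹ * a * b⁻¹) ∈ A := by rw [← mem_cj, h1]; exact inv_mem hb
  -- `n = a₁ b⁻¹ a`
  have h5 : cj (((b⁻¹ * a * b⁻¹) * b⁻¹ * (b⁻¹ * a * b⁻¹)⁻¹) * a⁻¹) B = B := by
    have : ((b⁻¹ * a * b⁻¹) * b⁻¹ * (b⁻¹ * a * b⁻¹)⁻¹) * a⁻¹ =
      (b⁻¹ * a * b⁻¹) * ((b⁻¹ * a * b⁻¹)⁻¹ * b⁻¹ * (b⁻¹ * a * b⁻¹))⁻¹ *
        ((b⁻¹ * a * b⁻¹)⁻¹ * b⁻¹ * (b⁻¹ * a * b⁻¹)) * (a * b⁻¹ * a)⁻¹ := by group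
    rw [this, ← cj_cj, ← swap_left ha e', cj_inv_cj, cj_mul_of_mem _ h4, cj_mul_of_mem _ (inv_mem h4), h1,
      swap_left ha e']
  have h6 := h.nb (mul_mem h3 (inv_mem ha)) h5
  calc a * b⁻¹ * a = (((b⁻¹ * a * b⁻¹) * b⁻¹ * (b⁻¹ * a * b⁻¹)⁻¹) * a⁻¹) * (a * b⁻¹ * a) := by rw [h6, one_mul]
    _ = b⁻¹ * a * b⁻¹ := by group

theorem special_iff : IsSpecialRankOnePair A B ↔ RO A B ∧ Sp A B := by
  refine ⟨fun ⟨h, hs⟩ => ⟨h, fun a ha b hb e => ?_⟩, fun ⟨h, hs⟩ => ⟨h, fun a ha _ b hb _ e => ?_⟩⟩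
  · have h : RO A B := h
    have k := hs a⁻¹ (inv_mem ha) (inv_ne_one.2 (h.ne_one hb e)) b⁻¹ (inv_mem hb)
      (inv_ne_one.2 (h.ne_one' ha e)) (by simpa using e)
    simp only [inv_inv] at k
    have h1 : cj (a * b⁻¹ * a) B = A := swap_right ha e
    have h2 : Un A B (cj (a * b⁻¹ * a) A) := (Un.left A B).conj
      (mul_mem (mul_mem (mem_sup_left ha) (mem_sup_right (inv_mem hb))) (mem_sup_left ha))
    have h3 : b⁻¹ ∈ cj (a * b⁻¹ * a) A := by
      have : (a * b⁻¹ * a)⁻¹ * b⁻¹ * (a * b⁻¹ * a) = a := by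
        calc _ = a⁻¹ * (b * a⁻¹ * b⁻¹) * a * b⁻¹ * a := by group
          _ = a := by rw [k]; group
      rw [mem_cj, this]; exact ha
    have h4 := h.eq_of_mem h2 h.un_right (inv_ne_one.2 (h.ne_one' ha e)) h3 (cj_self (inv_mem hb))
    rw [cj_mul_of_mem _ ha, ← cj_cj, cj_eq_iff] at h4
    exact h4
  · have := h.braid ha hb (by simpa using hs _ (inv_mem ha) _ (inv_mem hb) e) e
    calc b⁻¹ * a * b = a⁻¹ * (a * b⁻¹ * a) * b := by group
      _ = _ := by rw [this]; group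

/-- the key identity `b(aᵏ)ᵏ = b(a)` -/
theorem Sp.pow (hs : Sp A B) (h : RO A B) (k : ℕ) : ∀ a ∈ A, ∀ b ∈ B, ∀ b' ∈ B, cj b A = cj a B →
    cj b' A = cj (a ^ k) B → b' ^ k = b := by
  induction k with
  | zero => intro a _ b _ b' hb' _ e'; exact absurd (pow_zero a) (h.ne_one hb' e')
  | succ k ih =>
    intro a ha b hb b' hb' e e'
    have e1 := hs a ha b hb e
    have br := h.braid ha hb e e1
    have n1 : (a * b⁻¹ * a) * b⁻¹ * (a * b⁻¹ * a)⁻¹ = a := by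
      rw [mul_inv_eq_iff_eq_mul]; nth_rewrite 2 [br]; group
    by_cases h0 : a ^ k = 1
    · rw [pow_succ, h0, one_mul] at e'
      rw [h.symm.inj hb' hb (e'.trans e.symm), pow_succ, mul_eq_right]
      rw [← n1, conj_pow, conj_eq_one_iff, inv_pow, inv_eq_one] at h0
      exact h0
    · obtain ⟨b1, hb1, -, e2⟩ := h.ex (pow_mem ha k) h0
      have e3 := ih a ha b hb b1 hb1 e e2
      have h3 : (a * b⁻¹ * a) * (b * b1) * (a * b⁻¹ * a)⁻¹ ∈ A := by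
        rw [← swap_right ha e]; exact conj_mem_cj.2 (mul_mem hb hb1)
      have e4 : cj (b⁻¹ * b') A = cj ((a * b⁻¹ * a) * (b * b1) * (a * b⁻¹ * a)⁻¹) B := by
        rw [← cj_cj, e', pow_succ', ← cj_cj, ← e2, ← cj_cj, ← cj_cj, ← swap_left ha e1, cj_inv_cj, cj_cj, cj_cj,
          cj_cj, br]
        congr 1; group
      have e5 : ((a * b⁻¹ * a) * (b * b1) * (a * b⁻¹ * a)⁻¹) ^ k = (a ^ (k + 1))⁻¹ := by
        rw [conj_pow]
        nth_rewrite 5 [← n1]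
        rw [conj_pow, ← e3, ← pow_succ, ← pow_mul, inv_pow, ← pow_mul, mul_comm k]
        group
      have := ih _ h3 _ (mul_mem (inv_mem hb) hb') _ (inv_mem hb') e4 (e5 ▸ hs _ (pow_mem ha _) _ hb' e')
      rw [inv_pow, inv_eq_iff_eq_inv, mul_inv_rev, inv_inv, eq_inv_mul_iff_mul_eq] at this
      rw [pow_succ', this]

theorem Sp.pow' (hs : Sp A B) (h : RO A B) (k : ℕ) {a a' b : G} (ha : a ∈ A) (ha' : a' ∈ A) (hb : b ∈ B)
    (e : cj b A = cj a B) (e' : cj (b ^ k) A = cj a' B) : a' ^ k = a :=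
  hs.symm.pow h.symm k b hb a ha a' ha' e.symm e'.symm

theorem Sp.exp (hs : Sp A B) (h : RO A B) (hA : Cm A A) {p : ℕ} {x : G} (hx : x ∈ A) (h1 : x ≠ 1)
    (hp : x ^ p = 1) {y : G} (hy : y ∈ A) : y ^ p = 1 := by
  by_contra h0
  have e0 : (y * x) ^ p = y ^ p := by rw [Commute.mul_pow (hA y hy x hx), hp, mul_one]
  obtain ⟨b', hb', -, e'⟩ := h.ex (pow_mem hy p) h0
  obtain ⟨b, hb, -, e⟩ := h.ex hy (fun k => h0 (by rw [k, one_pow]))
  obtain ⟨b2, hb2, -, e2⟩ := h.ex (mul_mem hy hx) (fun k => h0 (by rw [← e0, k, one_pow]))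
  have k1 := hs.pow h p y hy b hb b' hb' e e'
  have k2 := hs.pow h p _ (mul_mem hy hx) b2 hb2 b' hb' e2 (e0 ▸ e')
  rw [← k2, k1, e] at e2
  exact h1 (mul_eq_left.1 (h.inj hy (mul_mem hy hx) e2).symm)

theorem exists_prime_pow {x : G} (h1 : x ≠ 1) (hx : IsOfFinOrder x) :
    ∃ p k : ℕ, p.Prime ∧ x ^ k ≠ 1 ∧ (x ^ k) ^ p = 1 := by
  obtain ⟨p, hp, k, e⟩ := Nat.exists_prime_and_dvd (n := orderOf x) (by rwa [Ne, orderOf_eq_one_iff])
  have := hx.orderOf_pos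
  refine ⟨p, k, hp, fun h0 => ?_, by rw [← pow_mul, mul_comm, ← e, pow_orderOf_eq_one]⟩
  have h2 := Nat.le_of_dvd (Nat.pos_of_ne_zero fun h => by rw [h] at e; omega) (orderOf_dvd_of_pow_eq_one h0)
  have := hp.two_le
  have h3 : 0 < k := Nat.pos_of_ne_zero fun h => by rw [h] at e; omega
  nlinarith

theorem Sp.div (hs : Sp A B) (h : RO A B) (ht : ∀ a ∈ A, a ≠ 1 → ¬ IsOfFinOrder a) {a : G} (ha : a ∈ A)
    {n : ℕ} (hn : 0 < n) : ∃ c ∈ A, c ^ n = a := by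
  by_cases h1 : a = 1
  · exact ⟨1, one_mem _, by rw [h1, one_pow]⟩
  obtain ⟨b, hb, h2, e⟩ := h.ex ha h1
  obtain ⟨x, -, -, e2⟩ := h.swap
  have h3 : b ^ n ≠ 1 := fun h0 => ht (x * b * x⁻¹) (e2 ▸ conj_mem_cj.2 hb) (by rwa [Ne, conj_eq_one_iff])
    (isOfFinOrder_iff_pow_eq_one.2 ⟨n, hn, by rw [conj_pow, h0]; group⟩)
  obtain ⟨a', ha', -, e'⟩ := h.ex' (pow_mem hb n) h3
  exact ⟨a', ha', hs.pow' h n ha ha' hb e e'⟩

/-- the diagonal subgroup -/
abbrev Dg (A B : Subgroup G) : Subgroup G := (A ⊔ B) ⊓ 𝐍 A ⊓ 𝐍 B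

theorem Sp.mul_mem_comm (hs : Sp A B) (h : RO A B) {n x b : G} (hn : n ∈ A ⊔ B) (n1 : cj n A = B)
    (n2 : cj n B = A) (hx : x ∈ A) (hb : b ∈ B) (e : cj b A = cj x B) : x * (n * b * n⁻¹) ∈ ⁅A, Dg A B⁆ := by
  have e1 := hs x hx b hb e
  have br := h.braid hx hb e e1
  have m1 : (x * b⁻¹ * x) * b⁻¹ * (x * b⁻¹ * x)⁻¹ = x := by
    rw [mul_inv_eq_iff_eq_mul]; nth_rewrite 2 [br]; group
  have k : n * (x * b⁻¹ * x)⁻¹ ∈ Dg A B := by
    refine ⟨⟨(A ⊔ B).mul_mem hn (inv_mem (mul_mem (mul_mem (mem_sup_left hx) (mem_sup_right (inv_mem hb)))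
      (mem_sup_left hx))), cj_eq_self_iff.1 ?_⟩, cj_eq_self_iff.1 ?_⟩
    · rw [← cj_cj, ← swap_right hx e, cj_inv_cj, n2, swap_right hx e]
    · rw [← cj_cj, ← swap_left hx e1, cj_inv_cj, n1, swap_left hx e1]
  have := commutator_mem_commutator hx k
  convert this using 1
  rw [commutatorElement_def]
  nth_rewrite 5 [← m1]
  group

/-- for `|A| ≥ 4`, `A = [A, H]` -/
theorem Sp.le_comm (hs : Sp A B) (h : RO A B) (hA : Cm A A) (h4 : 3 < ENat.card A) : A ≤ ⁅A, Dg A B⁆ := by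
  have key : ∀ x ∈ A, ∀ y ∈ A, x ≠ 1 → y ≠ 1 → x ≠ y → x * y ∈ ⁅A, Dg A B⁆ := fun x hx y hy x1 y1 hne => by
    have ha : y * x⁻¹ ∈ A := mul_mem hy (inv_mem hx)
    obtain ⟨b, hb, -, e⟩ := h.ex ha (fun h0 => hne (mul_inv_eq_one.1 h0).symm)
    obtain ⟨b1, hb1, -, e2⟩ := h.ex hx x1
    obtain ⟨b', hb', -, e'⟩ := h.ex hy y1
    generalize ha' : y * x⁻¹ = a at ha e
    have e1 := hs a ha b hb e
    have br := h.braid ha hb e e1
    have hn : a * b⁻¹ * a ∈ A ⊔ B := mul_mem (mul_mem (mem_sup_left ha) (mem_sup_right (inv_mem hb))) (mem_sup_left ha)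
    have n1 := swap_left ha e1
    have n2 := swap_right ha e
    have m1 : (a * b⁻¹ * a) * b * (a * b⁻¹ * a)⁻¹ = a⁻¹ := by
      rw [mul_inv_eq_iff_eq_mul]; nth_rewrite 1 [br]; group
    have e4 : cj (b⁻¹ * b') A = cj ((a * b⁻¹ * a) * (b * b1) * (a * b⁻¹ * a)⁻¹) B := by
      have : y = a * x := by rw [← ha']; group
      rw [← cj_cj, e', this, ← cj_cj, ← e2, ← cj_cj, ← cj_cj, ← n1, cj_inv_cj, cj_cj, cj_cj, cj_cj, br]
      congr 1; group
    generalize a * b⁻¹ * a = n at *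
    have hψ : ∀ c ∈ B, n * c * n⁻¹ ∈ A := fun c hc => n2 ▸ conj_mem_cj.2 hc
    have k1 := hs.mul_mem_comm h hn n1 n2 hx hb1 e2
    have k2 := hs.mul_mem_comm h hn n1 n2 hy hb' e'
    have k3 := hs.mul_mem_comm h hn n1 n2 (hψ _ (mul_mem hb hb1)) (mul_mem (inv_mem hb) hb') e4
    have e5 : n * (b * b1) * n⁻¹ * (n * (b⁻¹ * b') * n⁻¹) = a⁻¹ * (n * b1 * n⁻¹) * a * (n * b' * n⁻¹) := by
      have : a = n * b⁻¹ * n⁻¹ := by rw [← inv_inv a, ← m1]; group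
      rw [this]; group
    rw [e5, mul_assoc a⁻¹, hA _ (hψ _ hb1) a ha, inv_mul_cancel_left] at k3
    have := mul_mem (mul_mem k1 k2) (inv_mem k3)
    convert this using 1
    rw [mul_assoc x, ← mul_assoc (n * b1 * n⁻¹), hA _ (hψ _ hb1) y hy]
    group
  classical
  have h3 : ∀ u v : G, ∃ x ∈ A, x ≠ 1 ∧ x ≠ u ∧ x ≠ v := fun u v => by
    by_contra h0
    push Not at h0
    have : (A : Set G) ⊆ ({1, u, v} : Finset G) := fun x hx => by
      by_cases k1 : x = 1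
      · simp [k1]
      · by_cases k2 : x = u
        · simp [k2]
        · simp [h0 x hx k1 k2]
    have k := Set.encard_le_encard this
    rw [Set.encard_coe_eq_coe_finsetCard] at k
    have k2 : (({1, u, v} : Finset G).card : ℕ∞) ≤ 3 := by exact_mod_cast Finset.card_le_three
    exact absurd (h4.trans_le (k.trans k2)) (lt_irrefl _)
  obtain ⟨x, hx, x1, -⟩ := h3 1 1
  obtain ⟨y, hy, y1, k1, k2⟩ := h3 x x⁻¹
  have hw := key y hy x hx y1 x1 k1
  intro z hz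
  by_cases k3 : z = 1
  · rw [k3]; exact one_mem _
  by_cases k4 : z = y * x
  · rw [k4]; exact hw
  · exact (mul_mem_cancel_right hw).1 (key z hz _ (mul_mem hy hx) k3 (fun h0 => k2 (eq_inv_of_mul_eq_one_left h0)) k4)

theorem Sp.perfect (hs : Sp A B) (h : RO A B) (hA : Cm A A) (h4 : 3 < ENat.card A) :
    ⁅A ⊔ B, A ⊔ B⁆ = A ⊔ B := by
  have k : A ≤ ⁅A ⊔ B, A ⊔ B⁆ := (hs.le_comm h hA h4).trans
    (commutator_mono le_sup_left (inf_le_left.trans inf_le_left))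
  refine le_antisymm (comm_le_of_le le_rfl le_rfl) (sup_le k ?_)
  obtain ⟨x, hx, e, -⟩ := h.swap
  exact e.ge.trans (cj_le_of_le k (norm_comm_left _ _ hx))

/-! ### quadratic modules -/

section quad

variable {N : Type*} [AddCommGroup N] [DistribMulAction G N]

/-- `[N, A]` -/
def cs (N : Type*) [AddCommGroup N] [DistribMulAction G N] (A : Subgroup G) : AddSubgroup N :=
  AddSubgroup.closure {v | ∃ a ∈ A, ∃ n : N, v = a • n - n}

/-- `C_N(A)` -/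
def fx (N : Type*) [AddCommGroup N] [DistribMulAction G N] (A : Subgroup G) : AddSubgroup N where
  carrier := {v | ∀ a ∈ A, a • v = v}
  zero_mem' := fun a _ => smul_zero a
  add_mem' := fun h k a ha => by rw [smul_add, h a ha, k a ha]
  neg_mem' := fun h a ha => by rw [smul_neg, h a ha]

theorem mem_cs {a : G} (ha : a ∈ A) (n : N) : a • n - n ∈ cs N A := AddSubgroup.subset_closure ⟨a, ha, n, rfl⟩

theorem cs_le {M : AddSubgroup N} (h : ∀ a ∈ A, ∀ n : N, a • n - n ∈ M) : cs N A ≤ M :=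
  (AddSubgroup.closure_le _).2 (by rintro _ ⟨a, ha, n, rfl⟩; exact h a ha n)

theorem smul_mem_cs (g : G) {v : N} (hv : v ∈ cs N A) : g • v ∈ cs N (cj g A) :=
  cs_le (M := (cs N (cj g A)).comap (DistribSMul.toAddMonoidHom N g)) (fun a ha n => by
    have := mem_cs (conj_mem_cj.2 ha : g * a * g⁻¹ ∈ cj g A) (g • n)
    simpa [smul_sub, mul_smul] using this) hv

theorem smul_mem_fx (g : G) {v : N} (hv : v ∈ fx N A) : g • v ∈ fx N (cj g A) := fun a ha => by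
  have := hv _ (mem_cj.1 ha)
  rw [← mul_smul, ← smul_left_cancel_iff g⁻¹, ← mul_smul, ← mul_assoc, this, inv_smul_smul]

theorem fx_sup {v : N} (h1 : v ∈ fx N A) (h2 : v ∈ fx N B) : v ∈ fx N (A ⊔ B) := fun _ hx =>
  (sup_le (fun a ha => h1 a ha) (fun a ha => h2 a ha) : A ⊔ B ≤ MulAction.stabilizer G v) hx

theorem quad_cj (hq : cs N A ≤ fx N A) (g : G) : cs N (cj g A) ≤ fx N (cj g A) := fun v hv => by
  have := smul_mem_fx g (hq (by simpa using smul_mem_cs g⁻¹ hv))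
  simpa using this

theorem quad_rel (hA : cs N A ≤ fx N A) (hB : cs N B ≤ fx N B) {a b : G} (ha : a ∈ A) (hb : b ∈ B)
    (e : cj b A = cj a B) {v : N} (hv : v ∈ cs N A) :
    v - (a • (b • v - v) - (b • v - v)) ∈ fx N (A ⊔ B) := by
  have h1 : a⁻¹ • b • v ∈ cs N B := by simpa [e] using smul_mem_cs a⁻¹ (smul_mem_cs b hv)
  have h2 : a⁻¹ • b • v - (b • v - v) ∈ cs N B := sub_mem h1 (mem_cs hb v)
  have h3 : a⁻¹ • b • v - (b • v - v) ∈ cs N A := by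
    have := add_mem (mem_cs (inv_mem ha) (b • v)) hv
    convert this using 1; abel
  have h4 := hA h3 a ha
  have := fx_sup (hA h3) (hB h2)
  convert this using 1
  rw [smul_sub, smul_inv_smul] at h4
  rw [← h4]; abel

/-- the elements acting trivially on `[N, X] / C_N(X)` -/
def qk (N : Type*) [AddCommGroup N] [DistribMulAction G N] (X : Subgroup G) : Subgroup G where
  carrier := {x | x ∈ X ∧ ∀ w ∈ cs N X, x • w - w ∈ fx N X}
  one_mem' := ⟨one_mem _, fun w _ => by simp⟩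
  mul_mem' := fun {x y} hx hy => ⟨mul_mem hx.1 hy.1, fun w hw => by
    have : (x * y) • w - w = x • (y • w - w) + (x • w - w) := by rw [smul_sub, mul_smul]; abel
    rw [this, hy.2 w hw x hx.1]
    exact add_mem (hy.2 w hw) (hx.2 w hw)⟩
  inv_mem' := fun {x} hx => ⟨inv_mem hx.1, fun w hw => by
    have := hx.2 w hw x⁻¹ (inv_mem hx.1)
    rw [smul_sub, inv_smul_smul] at this
    rw [← neg_sub, this]
    exact neg_mem (hx.2 w hw)⟩

theorem norm_qk (X : Subgroup G) : X ≤ 𝐍 (qk N X) := le_normalizer_iff_cj.2 fun g hg => cj_le_iff'.2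
  fun x hx => ⟨mul_mem (mul_mem hg hx.1) (inv_mem hg), fun w hw => by
    have h1 : g⁻¹ • w ∈ cs N X := by simpa [cj_self (inv_mem hg)] using smul_mem_cs g⁻¹ hw
    have := hx.2 _ h1
    rw [← this g hg, smul_sub, smul_inv_smul] at this
    simpa [mul_smul] using this⟩

theorem cs_sup : cs N (A ⊔ B) = cs N A ⊔ cs N B := by
  refine le_antisymm (cs_le fun x hx => ?_) (sup_le (cs_le fun a ha => mem_cs (mem_sup_left ha))
    (cs_le fun a ha => mem_cs (mem_sup_right ha)))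
  rw [sup_eq_closure] at hx
  have k : ∀ x : G, x ∈ (A : Set G) ∪ B → ∀ n : N, x • n - n ∈ cs N A ⊔ cs N B := fun x hx n =>
    hx.elim (fun h => AddSubgroup.mem_sup_left (mem_cs h n)) (fun h => AddSubgroup.mem_sup_right (mem_cs h n))
  induction hx using closure_induction'' with
  | mem x hx => exact k x hx
  | inv_mem x hx => exact k _ (hx.imp inv_mem inv_mem)
  | one => intro n; simp
  | mul x y _ _ k1 k2 =>
    intro n
    have := add_mem (k1 (y • n)) (k2 n)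
    rwa [sub_add_sub_cancel, ← mul_smul] at this

/-- a unipotent element acting trivially on `[N, X] / C_N(X)` is trivial -/
theorem RO.qk_eq_one (h : RO A B) (hA : cs N A ≤ fx N A) (hX : ¬ cs N (A ⊔ B) ≤ fx N (A ⊔ B))
    (hC : Un A B C) {c : G} (hc : c ∈ C) (hk : c ∈ qk N (A ⊔ B)) : c = 1 := by
  obtain ⟨x, hx, e1, e2⟩ := h.swap
  have hB : cs N B ≤ fx N B := e1 ▸ quad_cj hA x
  rcases h.normal (norm_qk (N := N) (A ⊔ B)) with k | k
  · obtain ⟨D, hD, hne⟩ : ∃ D, Un A B D ∧ C ≠ D := by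
      by_cases h0 : C = A
      · exact ⟨B, h.un_right, h0 ▸ h.ne⟩
      · exact ⟨A, Un.left A B, h0⟩
    exact (h.of_un hC hD hne).nb' hc (centralizer_le_normalizer _ (centralizer_anti hD.le (k.le ⟨hk, hk.1⟩)))
  · refine absurd ?_ hX
    have k1 : cs N A ≤ fx N (A ⊔ B) := fun v hv => by
      obtain ⟨a, ha, h1⟩ := h.exists_ne
      obtain ⟨b, hb, -, e⟩ := h.ex ha h1
      obtain ⟨y, hy, a', ha', rfl⟩ := (mem_sup_of_norm' (le_sup_left.trans (norm_qk _))).1 (k.1 hb)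
      have h2 := quad_rel hA hB ha hb e hv
      have h3 := hy.2 v (cs_sup (N := N) (A := A) (B := B) ▸ AddSubgroup.mem_sup_left hv)
      rwa [mul_smul, hA hv a' ha', h3 a (mem_sup_left ha), sub_self, sub_zero] at h2
    rw [cs_sup]
    refine sup_le k1 fun v hv => ?_
    have := smul_mem_fx x⁻¹ (k1 (e2 ▸ smul_mem_cs x hv))
    rwa [inv_smul_smul, cj_self (inv_mem hx)] at this

theorem RO.sp_of_quad (h : RO A B) (hA : cs N A ≤ fx N A) (hX : ¬ cs N (A ⊔ B) ≤ fx N (A ⊔ B)) : Sp A B := by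
  intro a ha b hb e
  obtain ⟨x, hx, e1, e2⟩ := h.swap
  have hB : cs N B ≤ fx N B := e1 ▸ quad_cj hA x
  obtain ⟨b', hb', -, e'⟩ := h.ex (inv_mem ha) (inv_ne_one.2 (h.ne_one hb e))
  have h2 : b * b' ∈ qk N (A ⊔ B) := by
    refine ⟨mem_sup_right (mul_mem hb hb'), fun w hw => ?_⟩
    rw [cs_sup] at hw
    obtain ⟨v, hv, w, hw', rfl⟩ := AddSubgroup.mem_sup.1 hw
    have ia : ∀ n : N, a⁻¹ • n - n = - (a • n - n) := fun n => by
      rw [sub_eq_iff_eq_add, inv_smul_eq_iff, smul_add, smul_neg, hA (mem_cs ha n) a ha]; abel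
    have r1 := quad_rel hA hB ha hb e hv
    have r2 := quad_rel hA hB (inv_mem ha) hb' e' hv
    have r3 := quad_rel hB hA hb ha e.symm (mem_cs (mul_mem hb hb') v)
    have e3 : (b * b') • v - v = (b • v - v) + (b' • v - v) := by
      rw [← hB (mem_cs hb' v) b hb, smul_sub, mul_smul]; abel
    have r4 : a • ((b * b') • v - v) - ((b * b') • v - v) ∈ fx N (A ⊔ B) := by
      have := sub_mem r2 r1
      rw [ia] at this
      convert this using 1
      rw [e3, smul_add]; abel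
    rw [r4 b (mem_sup_right hb), sub_self, sub_zero, sup_comm] at r3
    rw [smul_add, hB hw' _ (mul_mem hb hb'), add_sub_add_right_eq_sub]
    exact r3
  rw [← e', eq_inv_of_mul_eq_one_right (h.qk_eq_one hA hX h.un_right (mul_mem hb hb') h2)]

theorem RO.exp_of_quad (h : RO A B) (hA : cs N A ≤ fx N A) (hX : ¬ cs N (A ⊔ B) ≤ fx N (A ⊔ B))
    {p : ℕ} {x : G} (hx : x ∈ A) (h1 : x ≠ 1) (hp : x ^ p = 1) {y : G} (hy : y ∈ A) : y ^ p = 1 := by
  obtain ⟨g, hg, e1, e2⟩ := h.swap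
  have hB : cs N B ≤ fx N B := e1 ▸ quad_cj hA g
  have hpw : ∀ a ∈ A, ∀ (n : N) (k : ℕ), a ^ k • n - n = k • (a • n - n) := fun a ha n k => by
    induction k with
    | zero => simp
    | succ k ih =>
      rw [succ_nsmul, ← ih, ← hA (mem_cs (pow_mem ha k) n) a ha, pow_succ', mul_smul, smul_sub]; abel
  have k1 : ∀ v ∈ cs N A, p • v ∈ fx N (A ⊔ B) := fun v hv => by
    obtain ⟨b, hb, -, e⟩ := h.ex hx h1
    have := nsmul_mem (quad_rel hA hB hx hb e hv) p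
    rwa [smul_sub, ← hpw x hx, hp, one_smul, sub_self, sub_zero] at this
  refine h.qk_eq_one hA hX (Un.left A B) (pow_mem hy p) ⟨mem_sup_left (pow_mem hy p), fun w hw => ?_⟩
  rw [cs_sup] at hw
  obtain ⟨v, hv, w, hw', rfl⟩ := AddSubgroup.mem_sup.1 hw
  have k2 : p • w ∈ fx N (A ⊔ B) := by
    have := smul_mem_fx g⁻¹ (k1 _ (e2 ▸ smul_mem_cs g hw'))
    rwa [smul_comm, inv_smul_smul, cj_self (inv_mem hg)] at this
  rw [smul_add, hA hv _ (pow_mem hy p), add_sub_add_left_eq_sub, hpw y hy, smul_sub, smul_comm,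
    k2 y (mem_sup_left hy), sub_self]
  exact zero_mem _

end quad

end CA.Root
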