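import Cfsg.Agent.Lib.Root.R2
import Cfsg.Agent.Lib.Lin.SL2Unip
import Cfsg.Agent.S2117

/-!
`SL₂(k)` as a special rank one group; `⟨a, b(a)⟩ ≅ (P)SL₂(p)`.
-/

set_option autoImplicit false

namespace CA.Root

open Subgroup Cfsg CA.Amb CA.AmbCore CA.AmbRes CA.SL2Unip CA.SL2Embed CA.SL2Torus
open scoped commutatorElement MatrixGroups Matrix

variable {G : Type*} [Group G] {A B C D : Subgroup G} {k : Type*} [Field k]

theorem mem_up {g : SL(2, k)} : g ∈ upperUnipotentSL2 k ↔ ∃ c, g = u c := by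
  constructor
  · intro h
    induction h using closure_induction with
    | mem x hx => exact ⟨x.1 0 1, sl_ext4 hx.2.1 rfl hx.1 hx.2.2⟩
    | one => exact ⟨0, (u_eq_one_iff.2 rfl).symm⟩
    | mul x y _ _ h1 h2 => obtain ⟨c, rfl⟩ := h1; obtain ⟨d, rfl⟩ := h2; exact ⟨c + d, (u_add c d).symm⟩
    | inv x _ h1 => obtain ⟨c, rfl⟩ := h1; exact ⟨-c, u_inv c⟩
  · rintro ⟨c, rfl⟩; exact subset_closure ⟨rfl, rfl, rfl⟩

theorem l_zero : l (0 : k) = 1 := by rw [one_eq_mk2]; rfl

theorem mem_lo {g : SL(2, k)} : g ∈ lowerUnipotentSL2 k ↔ ∃ c, g = l c := by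
  constructor
  · intro h
    induction h using closure_induction with
    | mem x hx => exact ⟨x.1 1 0, sl_ext4 hx.2.1 hx.1 rfl hx.2.2⟩
    | one => exact ⟨0, l_zero.symm⟩
    | mul x y _ _ h1 h2 => obtain ⟨c, rfl⟩ := h1; obtain ⟨d, rfl⟩ := h2; exact ⟨c + d, (l_add c d).symm⟩
    | inv x _ h1 => obtain ⟨c, rfl⟩ := h1; exact ⟨-c, l_inv c⟩
  · rintro ⟨c, rfl⟩; exact subset_closure ⟨rfl, rfl, rfl⟩

theorem cm_up : Cm (upperUnipotentSL2 k) (upperUnipotentSL2 k) := fun a ha b hb => by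
  obtain ⟨c, rfl⟩ := mem_up.1 ha
  obtain ⟨d, rfl⟩ := mem_up.1 hb
  rw [← u_add, add_comm, u_add]

theorem cm_lo : Cm (lowerUnipotentSL2 k) (lowerUnipotentSL2 k) := fun a ha b hb => by
  obtain ⟨c, rfl⟩ := mem_lo.1 ha
  obtain ⟨d, rfl⟩ := mem_lo.1 hb
  rw [← l_add, add_comm, l_add]

theorem Cm.nil (h : Cm A A) : Group.IsNilpotent A := by
  have := cm_self_iff.1 h
  open scoped IsMulCommutative in exact CommGroup.isNilpotent

theorem up_sup_lo : upperUnipotentSL2 k ⊔ lowerUnipotentSL2 k = ⊤ :=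
  eq_top_of_u_l _ (fun b => mem_sup_left (mem_up.2 ⟨b, rfl⟩)) (fun b => mem_sup_right (mem_lo.2 ⟨b, rfl⟩))

theorem cj_l_up {s t : k} (h : s * t = 1) : cj (l s) (upperUnipotentSL2 k) = cj (u t) (lowerUnipotentSL2 k) := by
  have key : ∀ c : k, l s * u c * (l s)⁻¹ = u t * l (-c * s ^ 2) * (u t)⁻¹ := fun c => by
    simp only [l_inv, u_inv, u, l, mk2_mul, mk2_inv, mk2_eq_iff]
    refine ⟨?_, ?_, ?_, ?_⟩
    · linear_combination (c * s) * h
    · linear_combination (-c * (s * t + 1)) * h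
    · ring
    · linear_combination (-c * s) * h
  ext x
  rw [mem_cj', mem_cj']
  constructor
  · rintro ⟨y, hy, rfl⟩
    obtain ⟨c, rfl⟩ := mem_up.1 hy
    exact ⟨_, mem_lo.2 ⟨_, rfl⟩, (key c).symm⟩
  · rintro ⟨y, hy, rfl⟩
    obtain ⟨c, rfl⟩ := mem_lo.1 hy
    refine ⟨_, mem_up.2 ⟨-c * t ^ 2, rfl⟩, ?_⟩
    rw [key]; congr 3; linear_combination (c * (s * t + 1)) * h

theorem ro_sl2 : RO (upperUnipotentSL2 k) (lowerUnipotentSL2 k) := by
  refine ro_mk (fun e => ?_) cm_up.nil cm_lo.nil (fun a ha h1 => ?_) (fun a ha h1 => ?_)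
  · obtain ⟨c, hc⟩ := mem_lo.1 (e.le (mem_up.2 ⟨1, rfl⟩))
    exact one_ne_zero (mk2_eq_iff.1 hc).2.1
  · obtain ⟨c, rfl⟩ := mem_up.1 ha
    exact ⟨l c⁻¹, mem_lo.2 ⟨_, rfl⟩, cj_l_up (inv_mul_cancel₀ fun h0 => h1 (u_eq_one_iff.2 h0))⟩
  · obtain ⟨c, rfl⟩ := mem_lo.1 ha
    exact ⟨u c⁻¹, mem_up.2 ⟨_, rfl⟩, cj_l_up (mul_inv_cancel₀ fun h0 => h1 (by rw [h0, l_zero]))⟩

theorem sp_sl2 : Sp (upperUnipotentSL2 k) (lowerUnipotentSL2 k) := fun a ha b hb e => by
  have h1 := ro_sl2.ne_one hb e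
  obtain ⟨c, rfl⟩ := mem_up.1 ha
  have h2 : c⁻¹ * c = 1 := inv_mul_cancel₀ fun h0 => h1 (u_eq_one_iff.2 h0)
  rw [ro_sl2.symm.inj hb (mem_lo.2 ⟨_, rfl⟩) (e.trans (cj_l_up h2).symm), l_inv, u_inv]
  exact cj_l_up (by rw [neg_mul_neg, h2])

theorem RO.map_of_ker {G' : Type*} [Group G'] (h : RO A B) (f : G →* G')
    (hk : f.ker ⊓ (A ⊔ B) ≤ 𝐂 (A ⊔ B)) : RO (A.map f) (B.map f) := by
  refine h.map f fun e => ?_
  obtain ⟨a, ha, h1⟩ := h.exists_ne
  obtain ⟨b, hb, e'⟩ := e.le ⟨a, ha, rfl⟩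
  have : b⁻¹ * a ∈ 𝐍 B := centralizer_le_normalizer _ (centralizer_anti le_sup_right (hk (mem_inf.2 ⟨by
    rw [MonoidHom.mem_ker, map_mul, map_inv, e', inv_mul_cancel],
    mul_mem (mem_sup_right (inv_mem hb)) (mem_sup_left ha)⟩)))
  exact h1 (h.nb' ha ((mul_mem_cancel_left (le_normalizer (inv_mem hb))).1 this))

theorem ro_of_psl2 (h : IsPSL2PairOver k A B) : RO A B ∧ Sp A B := by
  obtain ⟨φ, -, h1, rfl, rfl⟩ := h
  have := ro_sl2.map_of_ker φ (inf_le_left.trans (by rw [up_sup_lo, Amb.centralizer_top]; exact h1))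
  exact ⟨this, sp_sl2.map φ ro_sl2 this⟩

/-! ### `⟨a, b(a)⟩` -/

section prime

variable {p : ℕ} [hp : Fact p.Prime]

theorem pow_val_add {a : G} (ha : a ^ p = 1) (s t : ZMod p) : a ^ (s + t).val = a ^ s.val * a ^ t.val := by
  rw [← pow_add, ZMod.val_add]
  conv_rhs => rw [← Nat.mod_add_div (s.val + t.val) p, pow_add, pow_mul, ha, one_pow, mul_one]

theorem pow_val_natCast {a : G} (ha : a ^ p = 1) (n : ℕ) : a ^ (n : ZMod p).val = a ^ n := by
  rw [ZMod.val_natCast]
  conv_rhs => rw [← Nat.mod_add_div n p, pow_add, pow_mul, ha, one_pow, mul_one]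

theorem eq_zero_of_pow_val {a : G} (ha : a ^ p = 1) (h1 : a ≠ 1) {s : ZMod p} (h : a ^ s.val = 1) : s = 0 := by
  have := orderOf_eq_prime ha h1
  have h2 := orderOf_dvd_of_pow_eq_one h
  rw [this] at h2
  rw [← ZMod.natCast_zmod_val s]
  exact (ZMod.natCast_eq_zero_iff _ _).2 h2

/-- the point attached to a vector -/
noncomputable def pt (A B : Subgroup G) (a : G) (x y : ZMod p) : Subgroup G :=
  if y = 0 then A else cj (a ^ (x / y).val) B

/-- pairs acting compatibly -/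
def cp (A B : Subgroup G) (a : G) : Subgroup (G × SL(2, ZMod p)) where
  carrier := {w | ∀ x y : ZMod p, (x ≠ 0 ∨ y ≠ 0) → cj w.1 (pt A B a x y) =
    pt A B a (w.2.1 0 0 * x + w.2.1 0 1 * y) (w.2.1 1 0 * x + w.2.1 1 1 * y)}
  one_mem' := fun x y _ => by simp
  mul_mem' := fun {v w} hv hw x y h => by
    rw [Prod.fst_mul, ← cj_cj, hw x y h, hv]
    · simp only [Prod.snd_mul, sl_mul_apply]
      congr 1 <;> ring
    · by_contra h0
      push Not at h0
      have := SL2Basic.det_eq w.2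
      rcases h with h | h
      · exact h (by linear_combination w.2.1 1 1 * h0.1 - w.2.1 0 1 * h0.2 - x * this)
      · exact h (by linear_combination w.2.1 0 0 * h0.2 - w.2.1 1 0 * h0.1 - y * this)
  inv_mem' := fun {w} hw x y h => by
    have := SL2Basic.det_eq w.2
    rw [Prod.fst_inv, cj_eq_iff, inv_inv, hw]
    · simp only [Prod.snd_inv, sl_inv_00, sl_inv_01, sl_inv_10, sl_inv_11]
      congr 1
      · linear_combination (-x) * this
      · linear_combination (-y) * this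
    · simp only [Prod.snd_inv, sl_inv_00, sl_inv_01, sl_inv_10, sl_inv_11]
      by_contra h0
      push Not at h0
      rcases h with h | h
      · exact h (by linear_combination w.2.1 0 0 * h0.1 + w.2.1 0 1 * h0.2 - x * this)
      · exact h (by linear_combination w.2.1 1 0 * h0.1 + w.2.1 1 1 * h0.2 - y * this)

/-- the formula for the abelianization of `SL₂(2)`, `SL₂(3)` -/
def ChiF (p : ℕ) : Prop := ∀ a b c d a' b' c' d' : ZMod p, a * d - b * c = 1 → a' * d' - b' * c' = 1 →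
  (if c * a' + d * c' = 0 then (a * a' + b * c') * (a * b' + b * d') else
    (c * a' + d * c') * (a * a' + b * c' + (c * b' + d * d')) + 3) =
  (if c = 0 then a * b else c * (a + d) + 3) + (if c' = 0 then a' * b' else c' * (a' + d') + 3)

theorem chiF_two : ChiF 2 := by unfold ChiF; decide +kernel

theorem chiF_three : ChiF 3 := by unfold ChiF; decide +kernel

theorem chi_mul (hp3 : p = 2 ∨ p = 3) : ∃ χ : SL(2, ZMod p) →* Multiplicative (ZMod p),
    χ (u 1) = Multiplicative.ofAdd 1 := by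
  have key : ChiF p := by
    rcases hp3 with rfl | rfl
    exacts [chiF_two, chiF_three]
  refine ⟨MonoidHom.mk' (fun g => Multiplicative.ofAdd (if g.1 1 0 = 0 then g.1 0 0 * g.1 0 1 else
    g.1 1 0 * (g.1 0 0 + g.1 1 1) + 3)) fun g h => ?_, by simp⟩
  rw [← ofAdd_add, ← key _ _ _ _ _ _ _ _ (SL2Basic.det_eq g) (SL2Basic.det_eq h)]
  simp only [sl_mul_apply]

theorem u_pow (n : ℕ) : (u (1 : k)) ^ n = u (n : k) := by
  induction n with
  | zero => rw [pow_zero, Nat.cast_zero, u_eq_one_iff.2 rfl]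
  | succ n ih => rw [pow_succ, ih, ← u_add, Nat.cast_succ]

theorem l_pow (n : ℕ) : (l (1 : k)) ^ n = l (n : k) := by
  induction n with
  | zero => rw [pow_zero, Nat.cast_zero, l_zero]
  | succ n ih => rw [pow_succ, ih, ← l_add, Nat.cast_succ]

theorem Sp.pow_eq_one (hs : Sp A B) (h : RO A B) {a b : G} (ha : a ∈ A) (hb : b ∈ B) (e : cj b A = cj a B)
    {m : ℕ} (hm : a ^ m = 1) : b ^ m = 1 := by
  have br := h.braid ha hb e (hs a ha b hb e)
  have n2 : (a * b⁻¹ * a) * a * (a * b⁻¹ * a)⁻¹ = b⁻¹ := by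
    rw [mul_inv_eq_iff_eq_mul]; nth_rewrite 1 [br]; group
  rw [← inv_inj, ← inv_pow, ← n2, conj_pow, hm]; group

theorem Sp.exists_hom (hs : Sp A B) (h : RO A B) {a b : G} (ha : a ∈ A) (hb : b ∈ B) (e : cj b A = cj a B)
    (hap : a ^ p = 1) : ∃ φ : SL(2, ZMod p) →* G, φ.ker ≤ center _ ∧ φ (u 1) = a ∧ φ (l 1) = b := by
  have a1 := h.ne_one hb e
  have e1 := hs a ha b hb e
  have br := h.braid ha hb e e1
  have n1 : (a * b⁻¹ * a) * b⁻¹ * (a * b⁻¹ * a)⁻¹ = a := by
    rw [mul_inv_eq_iff_eq_mul]; nth_rewrite 2 [br]; group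
  have n2 : (a * b⁻¹ * a) * a * (a * b⁻¹ * a)⁻¹ = b⁻¹ := by
    rw [mul_inv_eq_iff_eq_mul]; nth_rewrite 1 [br]; group
  have hbp : b ^ p = 1 := hs.pow_eq_one h ha hb e hap
  have c1 : (a, u 1) ∈ cp (p := p) A B a := fun x y _ => by
    simp only [u_coe, Matrix.of_apply, Matrix.cons_val', Matrix.cons_val_zero, Matrix.cons_val_one,
      Matrix.cons_val_fin_one, one_mul, zero_mul, zero_add, pt]
    split_ifs with h0
    · exact cj_self ha
    · rw [cj_cj, add_div, div_self h0, add_comm, pow_val_add hap, ZMod.val_one, pow_one]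
  have c2 : (a * b⁻¹ * a, w0) ∈ cp (p := p) A B a := fun x y hxy => by
    simp only [w0_coe, Matrix.of_apply, Matrix.cons_val', Matrix.cons_val_zero, Matrix.cons_val_one,
      Matrix.cons_val_fin_one, one_mul, zero_mul, zero_add, add_zero, pt, neg_mul, neg_eq_zero]
    by_cases h0 : y = 0
    · rw [if_pos h0, if_neg (hxy.resolve_right (not_not.2 h0)), h0, zero_div, ZMod.val_zero, pow_zero, cj_one,
        swap_left ha e1]
    · rw [if_neg h0]
      by_cases h1 : x = 0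
      · rw [if_pos h1, h1, zero_div, ZMod.val_zero, pow_zero, cj_one, swap_right ha e]
      · rw [if_neg h1]
        obtain ⟨b', hb', -, e'⟩ := h.ex (pow_mem ha (y / -x).val) (fun k =>
          div_ne_zero h0 (neg_ne_zero.2 h1) (eq_zero_of_pow_val hap a1 k))
        have k1 := hs.pow h _ a ha b hb b' hb' e e'
        have hb'p : b' ^ p = 1 := hs.pow_eq_one h (pow_mem ha _) hb' e' (by rw [← pow_mul, mul_comm, pow_mul, hap, one_pow])
        rw [← e', cj_cj, ← mul_inv_cancel_right (a * b⁻¹ * a * a ^ (x / y).val) (a * b⁻¹ * a)⁻¹, inv_inv, ← cj_cj,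
          swap_right ha e, ← conj_pow, n2, ← k1, ← inv_pow, ← pow_mul, ← pow_val_natCast (by rw [inv_pow, hb'p, inv_one]),
          Nat.cast_mul, ZMod.natCast_zmod_val, ZMod.natCast_zmod_val]
        have : y / -x * (x / y) = -1 := by field_simp
        rw [this, inv_pow]
        congr 1
        rw [inv_eq_iff_mul_eq_one]
        nth_rewrite 2 [← pow_one b']
        rw [← ZMod.val_one p, ← pow_val_add hb'p, neg_add_cancel, ZMod.val_zero, pow_zero]
  have hw : (w0 : SL(2, ZMod p)) = u 1 * (l 1)⁻¹ * u 1 := by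
    simp only [u, l, w0, mk2_mul, mk2_inv, mk2_eq_iff]; refine ⟨?_, ?_, ?_, ?_⟩ <;> ring
  have c3 : (b, l 1) ∈ cp (p := p) A B a := by
    have := inv_mem (mul_mem (mul_mem (inv_mem c1) c2) (inv_mem c1))
    convert this using 1
    rw [hw]; ext1 <;> simp only [Prod.fst_mul, Prod.fst_inv, Prod.snd_mul, Prod.snd_inv] <;> group
  set W : Subgroup (G × SL(2, ZMod p)) := closure {(a, u 1), (b, l 1)} with hW
  have hle : W ≤ cp A B a := (closure_le _).2 (by rintro _ (rfl | rfl); exacts [c1, c3])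
  have m1 : (a, u 1) ∈ W := subset_closure (by simp)
  have m2 : (b, l 1) ∈ W := subset_closure (by simp)
  let π : W →* SL(2, ZMod p) := (MonoidHom.snd _ _).comp W.subtype
  have hπ : Function.Surjective π := by
    rw [← MonoidHom.range_eq_top]
    refine eq_top_of_u_l _ (fun c => ⟨⟨_, m1⟩ ^ c.val, ?_⟩) (fun c => ⟨⟨_, m2⟩ ^ c.val, ?_⟩)
    · rw [map_pow]; exact (u_pow _).trans (by rw [ZMod.natCast_zmod_val])
    · rw [map_pow]; exact (l_pow _).trans (by rw [ZMod.natCast_zmod_val])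
  have p1 : pt A B a (1 : ZMod p) 0 = A := by simp [pt]
  have p2 : ∀ x : ZMod p, pt A B a x 1 = cj (a ^ x.val) B := fun x => by simp [pt]
  have hc : π.ker ≤ center W := fun w hw => by
    have h1 : w.1.2 = 1 := hw
    have k := hle w.2
    have k1 := k 1 0 (by simp)
    have k2 := k 0 1 (by simp)
    have k3 := k 1 1 (by simp)
    simp only [h1, Matrix.SpecialLinearGroup.coe_one, Matrix.one_apply_eq, Matrix.one_apply_ne one_ne_zero,
      Matrix.one_apply_ne zero_ne_one, mul_one, mul_zero, add_zero, zero_add, p1, p2, ZMod.val_zero, pow_zero, cj_one,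
      ZMod.val_one, pow_one] at k1 k2 k3
    have : W ≤ centralizer {w.1} := (closure_le _).2 (by
      rintro _ (rfl | rfl) <;> refine mem_centralizer_singleton_iff.2 (Prod.ext ?_ (by simp [h1]))
      · exact (h.comm_of_norm ha k1 k2 k3).symm
      · exact (h.symm.comm_of_norm hb k2 k1 (e ▸ k3)).symm)
    exact mem_center_iff.2 fun v => Subtype.ext (mem_centralizer_singleton_iff.1 (this v.2))
  have hm : π.ker ⊓ commutator W = ⊥ := by
    obtain ⟨f, hf⟩ := CA.SchurHopf.surj_mult (Cfsg.Agent.S2117.result (F := ZMod p) (by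
      rw [ZMod.card]; rintro rfl; exact absurd hp.out (by decide)) (by
      rw [ZMod.card]; rintro rfl; exact absurd hp.out (by decide))) π hπ hc
    refine eq_bot_iff.2 fun x hx => ?_
    obtain ⟨y, hy⟩ := hf ⟨x, hx⟩
    rw [Subsingleton.elim y 1, map_one] at hy
    exact congrArg Subtype.val hy.symm
  have hgen : ∀ w : W, ∃ j : ℤ, w⁻¹ * ⟨_, m1⟩ ^ j ∈ commutator W := fun w => by
    have : (⊤ : Subgroup W) ≤ commutator W ⊔ zpowers ⟨_, m1⟩ := by
      rw [← map_le_map_iff_of_injective W.subtype_injective, map_subtype_top]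
      refine (closure_le _).2 ?_
      rintro _ (rfl | rfl)
      · exact ⟨⟨_, m1⟩, mem_sup_right (mem_zpowers _), rfl⟩
      · refine ⟨⟨_, m2⟩, ?_, rfl⟩
        have : (⟨_, m2⟩ : W) = ⁅(⟨_, m1⟩ * ⟨_, m2⟩⁻¹ * ⟨_, m1⟩ : W), (⟨_, m1⟩ : W)⁻¹⁆ * ⟨_, m1⟩⁻¹ := by
          refine Subtype.ext (Prod.ext ?_ ?_)
          · show b = ⁅a * b⁻¹ * a, a⁻¹⁆ * a⁻¹
            calc b = ((a * b⁻¹ * a) * a * (a * b⁻¹ * a)⁻¹)⁻¹ := by rw [n2, inv_inv]
              _ = _ := by rw [commutatorElement_def]; group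
          · show l 1 = ⁅(u 1 * (l 1)⁻¹ * u 1 : SL(2, ZMod p)), (u (1 : ZMod p))⁻¹⁆ * (u 1)⁻¹
            rw [← hw, commutatorElement_def, inv_inv, mul_inv_cancel_right, u_inv, w0_conj_u, neg_neg]
        rw [this]
        exact mul_mem (mem_sup_left (commutator_mem_commutator (mem_top _) (mem_top _)))
          (mem_sup_right (inv_mem (mem_zpowers _)))
    obtain ⟨y, hy, _, ⟨j, rfl⟩, e⟩ := (mem_sup_of_norm' norm_of_normal).1 (this (mem_top w))
    refine ⟨j, ?_⟩
    rw [← e, mul_inv_rev]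
    simpa using (inferInstance : (commutator W).Normal).conj_mem _ (inv_mem hy) (⟨_, m1⟩ ^ j)⁻¹
  have hk : π.ker = ⊥ := by
    rw [← hm, left_eq_inf]
    intro w hw
    obtain ⟨j, hj⟩ := hgen w
    suffices (⟨_, m1⟩ : W) ^ j ∈ commutator W from inv_mem_iff.1 ((mul_mem_cancel_right this).1 hj)
    have hp1 : (⟨_, m1⟩ : W) ^ p = 1 := Subtype.ext (Prod.ext hap (by
      show (u 1) ^ p = 1
      rw [u_pow, ZMod.natCast_self, u_eq_one_iff.2 rfl]))
    by_cases hp3 : p = 2 ∨ p = 3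
    · obtain ⟨χ, hχ⟩ := chi_mul hp3
      have := Abelianization.commutator_subset_ker (χ.comp π) hj
      rw [MonoidHom.mem_ker, map_mul, map_inv, map_zpow, MonoidHom.comp_apply, MonoidHom.mem_ker.1 hw, map_one,
        inv_one, one_mul] at this
      have h2 : (χ.comp π) ⟨_, m1⟩ = Multiplicative.ofAdd 1 := hχ
      rw [h2, ← ofAdd_zsmul, ofAdd_eq_one, zsmul_one, ZMod.intCast_zmod_eq_zero_iff_dvd] at this
      obtain ⟨i, rfl⟩ := this
      rw [zpow_mul, zpow_natCast, hp1, one_zpow]; exact one_mem _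
    · push Not at hp3
      refine zpow_mem ?_ j
      have h2 : (2 : ZMod p) ≠ 0 := SL2Basic.two_ne_zero_of_char p hp3.1
      obtain ⟨y, hy⟩ := hπ (dg (Units.mk0 2 h2))
      have hy' : y.1.2 = dg (Units.mk0 2 h2) := hy
      have k := hle y.2
      have k1 := k 1 0 (by simp)
      have k2 := k 0 1 (by simp)
      have k3 := k 1 1 (by simp)
      have q1 : pt A B a (2 : ZMod p) 0 = A := by simp [pt]
      have q2 : pt A B a (0 : ZMod p) 2⁻¹ = B := by simp [pt, h2]
      have q3 : pt A B a (2 : ZMod p) 2⁻¹ = cj (a ^ 4) B := by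
        rw [pt, if_neg (inv_ne_zero h2), div_inv_eq_mul, ← pow_val_natCast hap 4]; norm_num
      simp only [hy', dg_coe, Matrix.of_apply, Matrix.cons_val', Matrix.cons_val_zero, Matrix.cons_val_one,
        Matrix.cons_val_fin_one, mul_one, mul_zero, add_zero, zero_add, p1, p2, ZMod.val_zero, pow_zero, cj_one,
        ZMod.val_one, pow_one, Units.val_mk0, Units.val_inv_eq_inv_val, q1, q2, q3] at k1 k2 k3
      have k4 : y.1.1 * a * y.1.1⁻¹ = a ^ 4 := h.inj (k1 ▸ conj_mem_cj.2 ha) (pow_mem ha 4) (by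
        rw [← cj_cj, ← cj_cj, (cj_eq_iff.1 k2).symm, k3])
      have k5 : ⁅y, (⟨_, m1⟩ : W)⁆ = ⟨_, m1⟩ ^ 3 := by
        rw [commutatorElement_def, mul_inv_eq_iff_eq_mul, ← pow_succ]
        refine Subtype.ext (Prod.ext k4 ?_)
        show y.1.2 * u 1 * y.1.2⁻¹ = u 1 ^ 4
        rw [hy', dg_conj_u, u_pow]; norm_num
      exact mem_of_pow_mem_of_coprime (n := 3) ((Nat.coprime_of_dvd' fun q hq h1 h3 => absurd
        (((Nat.prime_dvd_prime_iff_eq hq hp.out).1 (h1.trans (orderOf_dvd_of_pow_eq_one hp1))).symm.trans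
          ((Nat.prime_dvd_prime_iff_eq hq Nat.prime_three).1 h3)) hp3.2))
        (k5 ▸ commutator_mem_commutator (mem_top _) (mem_top _))
  let ε := MulEquiv.ofBijective π ⟨(MonoidHom.ker_eq_bot_iff π).1 hk, hπ⟩
  refine ⟨((MonoidHom.fst _ _).comp W.subtype).comp ε.symm.toMonoidHom, fun g hg => ?_, ?_, ?_⟩
  · obtain ⟨w, rfl⟩ := ε.surjective g
    have h1 : w.1.1 = 1 := by simpa using hg
    have k := hle w.2
    have k1 := k 1 0 (by simp)
    have k2 := k 0 1 (by simp)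
    have k3 := k 1 1 (by simp)
    simp only [h1, cj_one, mul_one, mul_zero, add_zero, zero_add, p1, p2, ZMod.val_zero, pow_zero,
      ZMod.val_one, pow_one] at k1 k2 k3
    have d := SL2Basic.det_eq w.1.2
    have i1 : ∀ x y : ZMod p, A = pt A B a x y → y = 0 := fun x y e => by
      by_contra h0
      rw [pt, if_neg h0] at e
      exact h.cj_ne (pow_mem ha _) e.symm
    have i2 : ∀ (x y : ZMod p) (c : ZMod p), cj (a ^ c.val) B = pt A B a x y → x = c * y := fun x y c e => by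
      by_cases h0 : y = 0
      · rw [pt, if_pos h0] at e; exact absurd e (h.cj_ne (pow_mem ha _))
      · rw [pt, if_neg h0] at e
        have := h.inj (pow_mem ha _) (pow_mem ha _) e
        rw [← sub_add_cancel (x / y) c, pow_val_add hap, right_eq_mul] at this
        have := eq_zero_of_pow_val hap a1 this
        rw [sub_eq_zero, div_eq_iff h0] at this
        exact this
    have j1 := i1 _ _ k1
    have j2 := i2 _ _ 0 (by simpa using k2)
    have j3 := i2 _ _ 1 (by simpa [ZMod.val_one] using k3)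
    rw [zero_mul] at j2
    rw [j1, j2, add_zero, zero_add, one_mul] at j3
    rw [j1, j2, j3, mul_zero, sub_zero, mul_self_eq_one_iff] at d
    show w.1.2 ∈ _
    rw [SL2Basic.mem_center_iff]
    rcases d with d | d
    · exact Or.inl (sl_ext4 (j3.trans d) j2 j1 d)
    · exact Or.inr (sl_ext4 (j3.trans (by simpa using d)) (by simpa using j2) (by simpa using j1) (by simpa using d))
  · have : ε.symm (u 1) = ⟨_, m1⟩ := ε.symm_apply_eq.2 rfl
    simp [this]
  · have : ε.symm (l 1) = ⟨_, m2⟩ := ε.symm_apply_eq.2 rfl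
    simp [this]

theorem Sp.iso (hs : Sp A B) (h : RO A B) {a b : G} (ha : a ∈ A) (hb : b ∈ B) (e : cj b A = cj a B)
    (hap : a ^ p = 1) : Nonempty (closure ({a, b} : Set G) ≃* SL(2, ZMod p)) ∨
      Nonempty (closure ({a, b} : Set G) ≃* PSL(2, ZMod p)) := by
  obtain ⟨φ, h1, h2, h3⟩ := hs.exists_hom h ha hb e hap
  have hr : φ.range = closure {a, b} := by
    have : Subgroup.closure ({u 1, l 1} : Set SL(2, ZMod p)) = (⊤ : Subgroup SL(2, ZMod p)) := eq_top_of_u_l _
      (fun c => by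
        rw [← ZMod.natCast_zmod_val c, ← u_pow]; exact pow_mem (subset_closure (by simp)) _)
      (fun c => by
        rw [← ZMod.natCast_zmod_val c, ← l_pow]; exact pow_mem (subset_closure (by simp)) _)
    rw [MonoidHom.range_eq_map, ← this, MonoidHom.map_closure, Set.image_pair, h2, h3]
  rw [← hr]
  by_cases h0 : φ (-1) = 1
  · have : φ.ker = center _ := le_antisymm h1 fun g hg => by
      rcases (SL2Basic.mem_center_iff g).1 hg with rfl | rfl
      exacts [one_mem _, h0]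
    exact Or.inr ⟨(QuotientGroup.quotientKerEquivRange φ).symm.trans (QuotientGroup.quotientMulEquivOfEq this)⟩
  · exact Or.inl ⟨(MonoidHom.ofInjective ((MonoidHom.ker_eq_bot_iff φ).1 (eq_bot_iff.2 fun g hg => by
      rcases (SL2Basic.mem_center_iff g).1 (h1 hg) with rfl | rfl
      exacts [one_mem _, absurd hg h0]))).symm⟩

end prime

end CA.Root
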