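import Cfsg.Agent.Lib.Root.R2

/-!
Abstract root subgroups (Timmesfeld, ch. II §2): the three cases, lines.
-/

set_option autoImplicit false

namespace CA.Root

open Subgroup Cfsg CA.Amb CA.AmbCore CA.AmbRes
open scoped commutatorElement

variable {G : Type*} [Group G] {S : Set (Subgroup G)} {A B C D E F : Subgroup G}

/-- the commutator case, with `C = [A, B]` -/
structure Ps (S : Set (Subgroup G)) (A B C : Subgroup G) : Prop where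
  m1 : A ∈ S
  m2 : B ∈ S
  m3 : C ∈ S
  eq : ⁅A, B⁆ = C
  c1 : Cm C A
  c2 : Cm C B
  s1 : ∀ a ∈ A, a ≠ 1 → ∀ c ∈ C, ∃ b ∈ B, ⁅a, b⁆ = c
  s2 : ∀ b ∈ B, b ≠ 1 → ∀ c ∈ C, ∃ a ∈ A, ⁅a, b⁆ = c

theorem Ps.symm (h : Ps S A B C) : Ps S B A C :=
  ⟨h.m2, h.m1, h.m3, by rw [commutator_comm, h.eq], h.c2, h.c1,
    fun b hb h1 c hc => (h.s2 b hb h1 c⁻¹ (inv_mem hc)).imp fun a k =>
      ⟨k.1, by rw [← commutatorElement_inv, k.2, inv_inv]⟩,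
    fun b hb h1 c hc => (h.s1 b hb h1 c⁻¹ (inv_mem hc)).imp fun a k =>
      ⟨k.1, by rw [← commutatorElement_inv, k.2, inv_inv]⟩⟩

theorem Ps.mem (h : Ps S A B C) {a b : G} (ha : a ∈ A) (hb : b ∈ B) : ⁅a, b⁆ ∈ C :=
  h.eq ▸ commutator_mem_commutator ha hb

theorem conj_eq_comm (a b : G) : b * a * b⁻¹ = ⁅b, a⁆ * a := by group

theorem Ps.cj_le (h : Ps S A B C) {b : G} (hb : b ∈ B) : cj b A ≤ A ⊔ C := cj_le_iff'.2 fun a ha => by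
  rw [conj_eq_comm]; exact mul_mem (mem_sup_right (h.symm.mem hb ha)) (mem_sup_left ha)

theorem Ps.norm (h : Ps S A B C) : B ≤ 𝐍 (A ⊔ C) := le_normalizer_iff_cj.2 fun b hb => by
  rw [cj_sup, h.c2.cj_eq' hb]; exact sup_le (h.cj_le hb) le_sup_right

theorem comm_mul_right {a b b' : G} (h : b * ⁅a, b'⁆ = ⁅a, b'⁆ * b) : ⁅a, b * b'⁆ = ⁅a, b⁆ * ⁅a, b'⁆ := by
  calc ⁅a, b * b'⁆ = ⁅a, b⁆ * (b * ⁅a, b'⁆) * b⁻¹ := by group
    _ = _ := by rw [h]; group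

theorem comm_eq_iff {a b c : G} : ⁅a, b⁆ = ⁅a, c⁆ ↔ a * (c⁻¹ * b) = c⁻¹ * b * a := by
  have : ⁅a, c⁆⁻¹ * ⁅a, b⁆ = c * (a * (c⁻¹ * b) * (c⁻¹ * b * a)⁻¹) * c⁻¹ := by group
  rw [eq_comm, ← inv_mul_eq_one, this, conj_eq_one_iff, mul_inv_eq_one]

/-- set of abstract root subgroups -/
def RS (S : Set (Subgroup G)) : Prop := IsRootSubgroupSet S

theorem RS.cm (hS : RS S) (hA : A ∈ S) : Cm A A := cm_self_iff.2 (hS.commutative A hA)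

theorem RS.conj (hS : RS S) (hA : A ∈ S) (g : G) : cj g A ∈ S := hS.conj_mem A hA g

theorem RS.un (hS : RS S) (hA : A ∈ S) (h : Un A B C) : C ∈ S := by
  obtain ⟨x, -, rfl⟩ := h; exact hS.conj hA x

theorem RS.exists_ne (hS : RS S) (hA : A ∈ S) : ∃ a ∈ A, a ≠ 1 := by
  by_contra h0
  push Not at h0
  exact hS.ne_bot A hA (eq_bot_iff.2 fun a ha => h0 a ha)

theorem ps_of_case (hA : A ∈ S) (hB : B ∈ S) (h : RootCommutatorCase S A B) : Ps S A B ⁅A, B⁆ := by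
  obtain ⟨h1, h2, h3, h4⟩ := h
  refine ⟨hA, hB, h1, rfl, fun c hc a ha => h2 c hc a (mem_sup_left ha),
    fun c hc a ha => h2 c hc a (mem_sup_right ha), fun a ha k c hc => ?_, fun b hb k c hc => ?_⟩
  · rw [← h3 a ha k] at hc
    induction hc using closure_induction with
    | mem x hx => exact hx
    | one => exact ⟨1, one_mem _, by simp⟩
    | mul x y _ _ k1 k2 =>
      obtain ⟨b, hb, rfl⟩ := k1
      obtain ⟨b', hb', rfl⟩ := k2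
      exact ⟨b * b', mul_mem hb hb', comm_mul_right
        (h2 _ (commutator_mem_commutator ha hb') b (mem_sup_right hb)).symm⟩
    | inv x _ k1 =>
      obtain ⟨b, hb, rfl⟩ := k1
      refine ⟨b⁻¹, inv_mem hb, eq_inv_of_mul_eq_one_right ?_⟩
      rw [← comm_mul_right (h2 _ (commutator_mem_commutator ha (inv_mem hb)) b (mem_sup_right hb)).symm]
      simp
  · rw [← h4 b hb k] at hc
    have e : ∀ a ∈ A, ∀ a' ∈ A, ⁅a * a', b⁆ = ⁅a', b⁆ * ⁅a, b⁆ := fun a ha a' ha' => by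
      rw [← commutatorElement_inv, comm_mul_right (h2 _ (by
        rw [commutator_comm]; exact commutator_mem_commutator hb ha') a (mem_sup_left ha)).symm]
      group
    induction hc using closure_induction with
    | mem x hx => exact hx
    | one => exact ⟨1, one_mem _, by simp⟩
    | mul x y _ _ k1 k2 =>
      obtain ⟨a, ha, rfl⟩ := k1
      obtain ⟨a', ha', rfl⟩ := k2
      exact ⟨a' * a, mul_mem ha' ha, e _ ha' _ ha⟩
    | inv x _ k1 =>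
      obtain ⟨a, ha, rfl⟩ := k1
      refine ⟨a⁻¹, inv_mem ha, eq_inv_of_mul_eq_one_right ?_⟩
      rw [← e _ (inv_mem ha) _ ha]
      simp

theorem Ps.case (h : Ps S A B C) : RootCommutatorCase S A B := by
  rw [RootCommutatorCase, h.eq]
  refine ⟨h.m3, h.c1.sup_right h.c2, fun a ha k => le_antisymm ((closure_le _).2 ?_) fun c hc => ?_,
    fun b hb k => le_antisymm ((closure_le _).2 ?_) fun c hc => ?_⟩
  · rintro _ ⟨b, hb, rfl⟩; exact h.mem ha hb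
  · exact subset_closure (h.s1 a ha k c hc)
  · rintro _ ⟨a, ha, rfl⟩; exact h.mem ha hb
  · exact subset_closure (h.s2 b hb k c hc)

theorem RS.tri (hS : RS S) (hA : A ∈ S) (hB : B ∈ S) : Cm A B ∨ RO A B ∨ ∃ C, Ps S A B C :=
  (hS.pair A hA B hB).imp cm_iff_bot.2 (Or.imp_right fun h => ⟨_, ps_of_case hA hB h⟩)

theorem Ps.not_cm (h : Ps S A B C) (hS : RS S) : ¬ Cm A B := fun k => hS.ne_bot C h.m3 (h.eq ▸ k.bot)

theorem Ps.cm_sup (h : Ps S A B C) (hS : RS S) : Cm (A ⊔ C) (A ⊔ C) :=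
  ((hS.cm h.m1).sup_left h.c1).sup_right (h.c1.symm.sup_left (hS.cm h.m3))

theorem Ps.cm_cj (h : Ps S A B C) (hS : RS S) {b : G} (hb : b ∈ B) : Cm (cj b A) A :=
  (h.cm_sup hS).mono (h.cj_le hb) le_sup_left

theorem Ps.not_ro (h : Ps S A B C) (hS : RS S) : ¬ RO A B := fun k => by
  obtain ⟨a, ha, h1⟩ := k.exists_ne
  exact h1 (k.eq_one_of_cm ha (h.symm.cm_cj hS ha))

theorem Ps.ne (h : Ps S A B C) (hS : RS S) : A ≠ C := fun e => h.not_cm hS (e ▸ h.c2)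

theorem Ps.conj (h : Ps S A B C) (hS : RS S) (g : G) : Ps S (cj g A) (cj g B) (cj g C) := by
  refine ⟨hS.conj h.m1 g, hS.conj h.m2 g, hS.conj h.m3 g, by rw [← cj_commutator, h.eq], h.c1.conj g, h.c2.conj g,
    fun a ha k c hc => ?_, fun a ha k c hc => ?_⟩
  · obtain ⟨a, ha', rfl⟩ := mem_cj'.1 ha
    obtain ⟨c, hc', rfl⟩ := mem_cj'.1 hc
    obtain ⟨b, hb, rfl⟩ := h.s1 a ha' (fun h0 => k (by rw [h0]; group)) c hc'
    exact ⟨_, conj_mem_cj.2 hb, by group⟩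
  · obtain ⟨a, ha', rfl⟩ := mem_cj'.1 ha
    obtain ⟨c, hc', rfl⟩ := mem_cj'.1 hc
    obtain ⟨b, hb, rfl⟩ := h.s2 a ha' (fun h0 => k (by rw [h0]; group)) c hc'
    exact ⟨_, conj_mem_cj.2 hb, by group⟩

theorem Ps.of_eq {A' B' C' : Subgroup G} (h : Ps S A B C) (hS : RS S) (g : G) (h1 : cj g A = A')
    (h2 : cj g B = B') (h3 : cj g C = C') : Ps S A' B' C' := h1 ▸ h2 ▸ h3 ▸ h.conj hS g

theorem RS.cm_cj (hS : RS S) (hA : A ∈ S) (hB : B ∈ S) (h : ¬ RO A B) {a : G} (ha : a ∈ A) : Cm (cj a B) B := by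
  rcases hS.tri hA hB with k | k | ⟨C, k⟩
  · rw [k.cj_eq ha]; exact hS.cm hB
  · exact absurd k h
  · exact k.symm.cm_cj hS ha

theorem RS.ps (hS : RS S) (hA : A ∈ S) (hB : B ∈ S) (h : ⁅A, B⁆ ∈ S) : Ps S A B ⁅A, B⁆ := by
  rcases hS.tri hA hB with k | k | ⟨C, k⟩
  · exact absurd k.bot (hS.ne_bot _ h)
  · exfalso
    have hn : A ⊔ B ≤ 𝐍 ⁅A, B⁆ := sup_le (norm_comm_left A B) (norm_comm_right A B)
    have h1 : ∀ E, Un A B E → ⁅A, B⁆ ≤ 𝐍 E := fun E hE c hc => by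
      rw [← cj_eq_self_iff]
      refine k.eq_of_cm (hE.conj (comm_le_sup A B hc)) hE (hS.cm_cj h (hS.un hA hE) (fun k' => ?_) hc)
      exact k'.not_le_norm (hE.le.trans hn)
    obtain ⟨b, hb, h2⟩ := k.symm.exists_ne
    refine (k.symm.cj_left hb h2).symm.not_le_norm (cj_le_iff'.2 fun a ha => ?_)
    rw [conj_eq_comm]
    exact mul_mem (h1 A (Un.left A B) (commutator_comm B A ▸ commutator_mem_commutator hb ha)) (le_normalizer ha)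
  · exact k.eq ▸ k

/-- two rank one pairs, one inside the other -/
theorem RS.un_of_le (hS : RS S) (hA : A ∈ S) (hC : C ∈ S) (h : RO C D) (hle : A ≤ C ⊔ D) :
    Un C D A ∨ Cm A (C ⊔ D) := by
  by_cases h0 : ∃ E, Un C D E ∧ RO A E
  · obtain ⟨E, hE, k⟩ := h0
    obtain ⟨a, ha, h1⟩ := k.exists_ne
    obtain ⟨e, he, -, e'⟩ := k.ex ha h1
    rw [cj_eq_iff] at e'
    exact Or.inl (e' ▸ (hE.conj (hle ha)).conj (inv_mem (hE.le he)))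
  · push Not at h0
    have k : ∀ a ∈ A, ∀ E, Un C D E → cj a E = E := fun a ha E hE =>
      h.eq_of_cm (hE.conj (hle ha)) hE (hS.cm_cj hA (hS.un hC hE) (h0 E hE) ha)
    refine Or.inr (Cm.sup_right (fun a ha c hc => ?_) (fun a ha d hd => ?_))
    · exact h.comm_of_norm hc (k a ha _ (Un.left _ _)) (k a ha _ h.un_right)
        (k a ha _ (h.un_right.conj (mem_sup_left hc)))
    · exact h.symm.comm_of_norm hd (k a ha _ h.un_right) (k a ha _ (Un.left _ _))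
        (k a ha _ ((Un.left _ _).conj (mem_sup_right hd)))

theorem cj_cent {z : G} (hz : z ∈ 𝐂 B) (a : G) : cj (a * z) B = cj a B := by
  rw [← cj_cj, cj_eq_self (centralizer_le_normalizer _ hz)]

theorem RS.un_of_cj (hS : RS S) (h : RO A B) (hB : B ∈ S) (hE : E ∈ S) {a x : G} (ha : a ∈ A) (h1 : a ≠ 1)
    (hx : x ∈ E) (e : cj x B = cj a B) : Un A B E := by
  have k : RO E B := by
    by_contra h0
    exact h1 (h.eq_one_of_cm ha (e ▸ hS.cm_cj hE hB h0 hx))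
  obtain ⟨b, hb, -, e1⟩ := k.ex hx (fun h0 => h1 (h.nb ha (by rw [← e, h0, cj_one])))
  rw [e, cj_eq_iff] at e1
  exact e1 ▸ (h.un_right.conj (mem_sup_left ha)).conj (mem_sup_right (inv_mem hb))

/-- `D(Σ) ∩ z A# = ∅` -/
theorem RS.cent (hS : RS S) (h : RO A B) (hB : B ∈ S) (hE : E ∈ S) {a z : G} (ha : a ∈ A) (h1 : a ≠ 1)
    (z1 : z ∈ 𝐂 A) (z2 : z ∈ 𝐂 B) (hx : a * z ∈ E) : z = 1 := by
  have k := hS.un_of_cj h hB hE ha h1 hx (cj_cent z2 a)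
  by_cases h0 : a * z = 1
  · exact absurd (h.nb ha (by rw [← cj_cent z2, h0, cj_one])) h1
  have := h.eq_of_mem k (Un.left A B) h0 hx (by rw [cj_cent z1, cj_self ha])
  exact h.nb' ((mul_mem_cancel_left ha).1 (this ▸ hx)) (centralizer_le_normalizer _ z2)

/-- not isolated in `𝓕(Σ)` -/
def NI (S : Set (Subgroup G)) (A : Subgroup G) : Prop := ∃ B ∈ S, RO A B

theorem ni_iff (hA : A ∈ S) : ¬ IsIsolatedIn (FAdj S) S A ↔ NI S A := by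
  refine ⟨fun h => ?_, fun ⟨B, hB, k⟩ h => (h.2 B).1 ⟨hA, hB, k⟩⟩
  by_contra h0
  exact h ⟨hA, fun B => ⟨fun k => h0 ⟨B, k.2.1, k.2.2⟩, fun k => h0 ⟨B, k.1, RO.symm k.2.2⟩⟩⟩

theorem NI.conj (h : NI S A) (hS : RS S) (g : G) : NI S (cj g A) :=
  let ⟨B, hB, k⟩ := h; ⟨_, hS.conj hB g, k.conj g⟩

theorem NI.eq (h : NI S A) (hS : RS S) (hE : E ∈ S) {a : G} (ha : a ∈ A) (h1 : a ≠ 1) (hx : a ∈ E) : E = A := by
  obtain ⟨B, hB, k⟩ := h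
  exact k.eq_of_mem (hS.un_of_cj k hB hE ha h1 hx rfl) (Un.left A B) h1 hx (cj_self ha)

theorem Ps.inj (h : Ps S A B C) (hS : RS S) (hA : NI S A) {a b : G} (ha : a ∈ A) (hb : b ∈ B) (h1 : a ≠ 1)
    (e : a * b = b * a) : b = 1 := by
  by_contra h0
  have k : cj b A = A := hA.eq hS (hS.conj h.m1 b) ha h1 (by rw [mem_cj, mul_assoc, e]; simpa using ha)
  obtain ⟨c, hc, h2⟩ := hS.exists_ne h.m3
  obtain ⟨a', ha', rfl⟩ := h.symm.s1 b hb h0 c hc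
  exact h.ne hS (hA.eq hS h.m3 (mul_mem (k ▸ conj_mem_cj.2 ha') (inv_mem ha')) h2 hc).symm

theorem Ps.inj' (h : Ps S A B C) (hS : RS S) (hA : NI S A) {a b b' : G} (ha : a ∈ A) (hb : b ∈ B) (hb' : b' ∈ B)
    (h1 : a ≠ 1) (e : ⁅a, b⁆ = ⁅a, b'⁆) : b = b' :=
  (inv_mul_eq_one.1 (h.inj hS hA ha (mul_mem (inv_mem hb') hb) h1 (comm_eq_iff.1 e))).symm

/-- `a c` is conjugate to `a` -/
theorem Ps.mul_mem_cj (h : Ps S A B C) {a c : G} (ha : a ∈ A) (h1 : a ≠ 1) (hc : c ∈ C) :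
    ∃ b ∈ B, b * a * b⁻¹ = a * c := by
  obtain ⟨b, hb, rfl⟩ := h.symm.s2 a ha h1 c hc
  exact ⟨b, hb, by rw [conj_eq_comm, h.c1 _ hc a ha]⟩

theorem Ps.cover (h : Ps S A B C) {x : G} (hx : x ∈ A ⊔ C) : x ∈ C ∨ ∃ b ∈ B, x ∈ cj b A := by
  obtain ⟨a, ha, c, hc, rfl⟩ := (mem_sup_of_norm h.c1.symm.le_norm).1 hx
  by_cases h1 : a = 1
  · left; rw [h1, one_mul]; exact hc
  · obtain ⟨b, hb, e⟩ := h.mul_mem_cj ha h1 hc
    exact Or.inr ⟨b, hb, e ▸ conj_mem_cj.2 ha⟩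

theorem Ps.not_cm_of (h : Ps S A B C) (hS : RS S) (hD : D ∈ S) (k : RO A D) {c : G} (hc : c ∈ C)
    (hz : c ∈ 𝐂 D) : c = 1 := by
  obtain ⟨a, ha, h1⟩ := k.exists_ne
  obtain ⟨b, hb, e⟩ := h.mul_mem_cj ha h1 hc
  exact hS.cent k hD (hS.conj h.m1 b) ha h1 (h.c1.le hc) hz (e ▸ conj_mem_cj.2 ha)

theorem Ps.eq_of_le (h : Ps S A B C) (hS : RS S) (hA : NI S A) (hE : E ∈ S) (hle : E ≤ C) : E = C := by
  obtain ⟨D, hD, k⟩ := hA
  obtain ⟨e, he, h1⟩ := hS.exists_ne hE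
  rcases hS.tri hD h.m3 with k1 | k1 | ⟨F, k1⟩
  · exact absurd (h.not_cm_of hS hD k (hle he) (k1.symm.le (hle he))) h1
  · exact NI.eq ⟨D, hD, k1.symm⟩ hS hE (hle he) h1 he
  rcases hS.tri hD hE with k2 | k2 | ⟨F', k2⟩
  · exact absurd (h.not_cm_of hS hD k (hle he) (k2.symm.le he)) h1
  · exact (NI.eq ⟨D, hD, k2.symm⟩ hS h.m3 he h1 (hle he)).symm
  refine le_antisymm hle fun c hc => ?_
  obtain ⟨d, hd, d1⟩ := hS.exists_ne hD
  obtain ⟨d', hd', e1⟩ := k1.s2 e (hle he) h1 _ (k1.mem hd hc)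
  obtain ⟨e', he', e2⟩ := k2.s1 d hd d1 _ (k2.mem hd' he)
  exact k1.inj' hS ⟨A, h.m1, k.symm⟩ hd (hle he') hc d1 (e2.trans e1) ▸ he'

theorem Ps.members (h : Ps S A B C) (hS : RS S) (hA : NI S A) (hE : E ∈ S) (hle : E ≤ A ⊔ C) :
    E = C ∨ ∃ b ∈ B, E = cj b A := by
  by_cases h0 : E ≤ C
  · exact Or.inl (h.eq_of_le hS hA hE h0)
  · obtain ⟨x, hx, h1⟩ := SetLike.not_le_iff_exists.1 h0
    obtain ⟨b, hb, k⟩ := (h.cover (hle hx)).resolve_left h1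
    exact Or.inr ⟨b, hb, (hA.conj hS b).eq hS hE k (fun e => h1 (e ▸ one_mem _)) hx⟩

/-- `C ∈ Λ_A` -/
def Ln (S : Set (Subgroup G)) (A C : Subgroup G) : Prop := A ∈ S ∧ C ∈ linePartners S A

theorem Ln.m1 (h : Ln S A C) : A ∈ S := h.1
theorem Ln.m2 (h : Ln S A C) : C ∈ S := h.2.1.1
theorem Ln.ne (h : Ln S A C) : C ≠ A := h.2.1.2.1
theorem Ln.cm (h : Ln S A C) : Cm A C := cm_iff_bot.2 h.2.1.2.2

theorem Ln.cov (h : Ln S A C) {x : G} (hx : x ∈ A ⊔ C) : ∃ E ∈ S, E ≤ A ⊔ C ∧ x ∈ E := by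
  by_cases h1 : x = 1
  · exact ⟨A, h.m1, le_sup_left, h1 ▸ one_mem _⟩
  · obtain ⟨E, hE, k⟩ := h.2.2.2.1 x hx h1
    exact ⟨E, hE.1, hE.2, k⟩

theorem Ln.symm (h : Ln S A C) : Ln S C A :=
  ⟨h.m2, ⟨h.m1, h.ne.symm, h.cm.symm.bot⟩, sup_comm A C ▸ h.2.2⟩

theorem Ln.of_sup (h : Ln S A C) (hS : RS S) (hE : E ∈ S) (hF : F ∈ S) (hne : F ≠ E) (e : E ⊔ F = A ⊔ C) :
    Ln S E F := by
  have : Cm (A ⊔ C) (A ⊔ C) := ((hS.cm h.m1).sup_left h.cm.symm).sup_right (h.cm.sup_left (hS.cm h.m2))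
  exact ⟨hE, ⟨hF, hne, (this.mono (e ▸ le_sup_left) (e ▸ le_sup_right)).bot⟩, e ▸ h.2.2⟩

theorem Ps.ln (h : Ps S A B C) (hS : RS S) (hA : NI S A) : Ln S A C := by
  refine ⟨h.m1, ⟨h.m3, (h.ne hS).symm, h.c1.symm.bot⟩, fun _ k => k.2, fun x hx _ => ?_, fun E hE F hF hne => ?_⟩
  · rcases h.cover hx with k | ⟨b, hb, k⟩
    · exact ⟨C, ⟨h.m3, le_sup_right⟩, k⟩
    · exact ⟨_, ⟨hS.conj h.m1 b, h.cj_le hb⟩, k⟩
  · refine eq_bot_iff.2 fun x hx => ?_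
    by_contra h1
    rcases h.members hS hA hE.1 hE.2 with k | ⟨b, -, rfl⟩
    · rcases h.members hS hA hF.1 hF.2 with k' | ⟨b, -, rfl⟩
      · exact hne (k.trans k'.symm)
      · exact hne ((hA.conj hS b).eq hS hE.1 hx.2 h1 hx.1)
    · exact hne ((hA.conj hS b).eq hS hF.1 hx.1 h1 hx.2).symm

theorem Ps.sup_cj (h : Ps S A B C) {b : G} (hb : b ∈ B) (h1 : b ≠ 1) : A ⊔ cj b A = A ⊔ C := by
  refine le_antisymm (sup_le le_sup_left (h.cj_le hb)) (sup_le le_sup_left fun c hc => ?_)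
  obtain ⟨a, ha, rfl⟩ := h.symm.s1 b hb h1 c hc
  exact mul_mem (mem_sup_right (conj_mem_cj.2 ha)) (mem_sup_left (inv_mem ha))

theorem Ps.cj_sup (h : Ps S A B C) {b : G} (hb : b ∈ B) : cj b A ⊔ C = A ⊔ C := by
  rw [← h.c2.cj_eq' hb, ← Amb.cj_sup, cj_eq_self (h.norm hb), h.c2.cj_eq' hb]

theorem Ps.ln_cj (h : Ps S A B C) (hS : RS S) (hA : NI S A) {b : G} (hb : b ∈ B) (hne : cj b A ≠ A) :
    Ln S A (cj b A) :=
  (h.ln hS hA).of_sup hS h.m1 (hS.conj h.m1 b) hne (h.sup_cj hb fun h0 => hne (by rw [h0, cj_one]))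

theorem Ln.not_cm (h : Ln S A C) (hS : RS S) (hB : B ∈ S) (k : RO A B) {c : G} (hc : c ∈ A ⊔ C)
    (hz : c ∈ 𝐂 B) : c = 1 := by
  obtain ⟨a, ha, h1⟩ := k.exists_ne
  obtain ⟨E, hE, -, k'⟩ := h.cov (mul_mem (mem_sup_left ha) hc)
  exact hS.cent k hB hE ha h1 (((hS.cm h.m1).sup_left h.cm.symm).le hc) hz k'

/-- `[A, [B, C]] ≠ 1` -/
theorem Ps.not_cm_ro (h : Ps S B C D) (hS : RS S) (k : RO A B) (hc : Cm A C) : ¬ Cm A D := fun h0 => by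
  obtain ⟨a, ha, h1⟩ := k.exists_ne
  obtain ⟨b, hb, -, e⟩ := k.ex ha h1
  refine h.not_cm hS (Cm.symm (cm_iff_le.2 fun c hc' => ?_))
  have k1 : b * c * b⁻¹ ∈ 𝐂 (cj a B) := by
    rw [← e, ← cj_centralizer]; exact conj_mem_cj.2 (hc.symm.le hc')
  have k2 : ⁅b, c⁆ ∈ 𝐂 (cj a B) := centralizer_anti (cj_le_of_mem le_sup_right (mem_sup_left ha))
    ((h0.symm.sup_right h.c1).le (h.mem hb hc'))
  rw [conj_eq_comm, mul_mem_cancel_left k2, ← cj_centralizer, mem_cj, mul_assoc, ← hc a ha c hc'] at k1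
  simpa using k1

/-- the key lemma: `[A, [B, C]] = C` -/
theorem Ps.back (h : Ps S B C D) (hS : RS S) (hA : A ∈ S) (k : RO A B) (hc : Cm A C)
    (hcov : ∀ a ∈ A, ∀ c ∈ C, ∃ E ∈ S, a * c ∈ E) : Ps S A D C := by
  have hB : NI S B := ⟨A, hA, k.symm⟩
  rcases hS.tri hA h.m3 with k1 | k1 | ⟨E, k1⟩
  · exact absurd k1 (h.not_cm_ro hS k hc)
  · obtain ⟨c, hc', c1⟩ := hS.exists_ne h.m2
    obtain ⟨d, hd, d1⟩ := hS.exists_ne h.m3
    obtain ⟨b, hb, e⟩ := h.symm.mul_mem_cj hc' c1 hd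
    exact absurd (hS.cent k1.symm hA (hS.conj h.m2 b) hd d1 (h.c2.symm.le hc') (hc.symm.le hc')
      (by rw [h.c2 d hd c hc', ← e]; exact conj_mem_cj.2 hc')) c1
  obtain ⟨b, hb, b1⟩ := hS.exists_ne h.m1
  obtain ⟨a, ha, a1, e⟩ := k.ex' hb b1
  -- `cj b E = cj a D`
  have e1 : cj b E = cj a D := by
    have p1 := (h.conj hS (b⁻¹ * a)).eq
    rw [← cj_cj, ← e, cj_inv_cj, ← cj_cj, hc.cj_eq ha] at p1
    rw [cj_eq_iff, cj_cj, ← p1, ← k1.eq]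
    have q : ∀ a' ∈ A, ∀ c ∈ C, ⁅a', b⁻¹ * c * b⁻¹⁻¹⁆ = ⁅a', ⁅b⁻¹, c⁆⁆ := fun a' ha' c hc' => by
      rw [conj_eq_comm, comm_mul_right, commutatorElement_eq_one_iff_mul_comm.2 (hc a' ha' c hc'), mul_one]
      rw [commutatorElement_eq_one_iff_mul_comm.2 (hc a' ha' c hc'), mul_one, one_mul]
    refine le_antisymm (commutator_le.2 fun a' ha' d hd => ?_) (commutator_le.2 fun a' ha' d hd => ?_)
    · obtain ⟨c, hc', rfl⟩ := h.s1 _ (inv_mem hb) (inv_ne_one.2 b1) d hd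
      rw [← q a' ha' c hc']
      exact commutator_mem_commutator ha' (conj_mem_cj.2 hc')
    · obtain ⟨c, hc', rfl⟩ := mem_cj'.1 hd
      rw [q a' ha' c hc']
      exact commutator_mem_commutator ha' (h.mem (inv_mem hb) hc')
  rcases hS.tri h.m1 k1.m3 with k2 | k2 | ⟨D', k2⟩
  · rw [k2.cj_eq hb, eq_comm, cj_eq_iff, k1.c1.cj_eq' (inv_mem ha)] at e1
    exact absurd e1 (k1.symm.ne hS)
  · exact absurd (k2.eq_one_of_cm hb (e1 ▸ (k1.symm.cm_sup hS).mono (k1.symm.cj_le ha) le_sup_right)) b1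
  have key : ∀ d ∈ D, ⁅b, ⁅a, d⁆⁆ = d := fun d hd => by
    obtain ⟨x, hx, e2⟩ := mem_cj'.1 (e1.ge (conj_mem_cj.2 hd))
    rw [conj_eq_comm, conj_eq_comm, k2.c2 _ (k2.mem hb hx) x hx] at e2
    have e3 : x⁻¹ * ⁅a, d⁆ = ⁅b, x⁆ * d⁻¹ := by rw [inv_mul_eq_iff_eq_mul, ← mul_assoc, e2]; group
    have e4 : x⁻¹ * ⁅a, d⁆ = 1 := k2.inj hS hB hb (mul_mem (inv_mem hx) (k1.mem ha hd)) b1 (by
      rw [e3]; exact mem_centralizer_sub.1 (mul_mem (k2.c1.le (k2.mem hb hx)) (h.c1.le (inv_mem hd))) b hb)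
    rw [e4, eq_comm, mul_inv_eq_one] at e3
    rw [← inv_mul_eq_one.1 e4, e3]
  have hCE : C ≤ E := fun c hc' => by
    have hx := k1.mem ha (h.mem hb hc')
    have e2 := comm_eq_iff.1 (key _ (h.mem hb hc')).symm
    generalize ⁅a, ⁅b, c⁆⁆ = x at hx e2
    have z1 : x⁻¹ * c ∈ 𝐂 A := mul_mem (k1.c1.le (inv_mem hx)) (hc.symm.le hc')
    have z2 : x⁻¹ * c ∈ 𝐂 D := mul_mem (k1.c2.le (inv_mem hx)) (h.c2.symm.le hc')
    have z3 : x⁻¹ * c ∈ 𝐂 B := by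
      refine centralizer_anti (le_sup_left.trans (k.symm.sup_cj hb b1).ge) ?_
      rw [centralizer_sup, ← cj_centralizer, mem_inf, mem_cj, mul_assoc, ← e2]
      exact ⟨by simpa using z1, z1⟩
    obtain ⟨d, hd, e3⟩ := k1.mul_mem_cj ha a1 hx
    obtain ⟨E', hE', k3⟩ := hcov a ha c hc'
    have := hS.cent (k.of_eq d rfl (h.c1.cj_eq hd)) h.m1 hE' (conj_mem_cj.2 ha) (by rwa [Ne, conj_eq_one_iff])
      (centralizer_anti (cj_le_of_mem le_sup_left (mem_sup_right hd)) (by rw [centralizer_sup]; exact ⟨z1, z2⟩))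
      z3 (by rw [e3]; simpa [mul_assoc] using k3)
    exact inv_mul_eq_one.1 this ▸ hx
  have hEC : E ≤ C := fun x hx => by
    obtain ⟨d, hd, rfl⟩ := k1.s1 a ha a1 x hx
    obtain ⟨c, hc', e2⟩ := h.s1 b hb b1 d hd
    exact k2.inj' hS hB hb (hCE hc') hx b1 (e2.trans (key d hd).symm) ▸ hc'
  exact le_antisymm hEC hCE ▸ k1

theorem Ln.back (h : Ln S A C) (hS : RS S) (k : RO A B) (p : Ps S B E D) (hle : E ≤ A ⊔ C) : Ps S A D E :=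
  p.back hS h.m1 k (((hS.cm h.m1).sup_right h.cm).mono le_rfl hle) fun a ha c hc =>
    (h.cov (mul_mem (mem_sup_left ha) (hle hc))).imp fun _ k => ⟨k.1, k.2.2⟩

theorem Ln.ps_of_not_ro (h : Ln S A C) (hS : RS S) (hB : B ∈ S) (k : RO A B) (hE : E ∈ S) (hle : E ≤ A ⊔ C)
    (h0 : ¬ RO B E) : ∃ D, Ps S B E D ∧ Ps S A D E := by
  rcases hS.tri hB hE with k1 | k1 | ⟨D, k1⟩
  · obtain ⟨e, he, e1⟩ := hS.exists_ne hE
    exact absurd (h.not_cm hS hB k (hle he) (k1.symm.le he)) e1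
  · exact absurd k1 h0
  · exact ⟨D, k1, h.back hS k k1 hle⟩

/-- every line through `A` has a point in `Ψ_B` -/
theorem Ln.exists_ps (h : Ln S A C) (hS : RS S) (hB : B ∈ S) (k : RO A B) :
    ∃ E D, Ps S B E D ∧ Ps S A D E ∧ A ⊔ E = A ⊔ C := by
  by_cases h0 : RO B C
  · obtain ⟨b, hb, b1⟩ := hS.exists_ne hB
    obtain ⟨a, ha, a1, e⟩ := k.ex' hb b1
    obtain ⟨c, hc, c1, e'⟩ := h0.symm.ex' hb b1
    obtain ⟨E, hE, hle, hx⟩ := h.cov (mul_mem (mem_sup_left (inv_mem ha)) (mem_sup_right hc))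
    obtain ⟨D, p1, p2⟩ := h.ps_of_not_ro hS hB k hE hle fun k1 => h.ne (by
      have := k1.symm.eq_one_of_cm hx ((h.cm.symm.of_eq b e' e).of_eq a⁻¹ (cj_cj _ _ _) (cj_inv_cj _ _))
      rw [← cj_inj (g := b), e, e', inv_mul_eq_one.1 this])
    obtain ⟨d, hd, e2⟩ := p2.mul_mem_cj ha a1 hx
    have : cj d A = C := NI.eq ⟨B, hB, h0.symm⟩ hS (hS.conj h.m1 d) hc c1 (by
      rw [mul_inv_cancel_left] at e2; exact e2 ▸ conj_mem_cj.2 ha)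
    exact ⟨E, D, p1, p2, le_antisymm (sup_le le_sup_left hle) (sup_le le_sup_left (this ▸ p2.cj_le hd))⟩
  · obtain ⟨D, p1, p2⟩ := h.ps_of_not_ro hS hB k h.m2 le_sup_right h0
    exact ⟨C, D, p1, p2, rfl⟩

/-- a root subgroup fixing `C` and moving `A` along the line -/
theorem Ln.exists_mover (h : Ln S A C) (hS : RS S) (hN : ∀ E ∈ S, E ≤ A ⊔ C → NI S E) : ∃ F, Ps S A F C := by
  have hA := hN A h.m1 le_sup_left
  obtain ⟨B, hB, k⟩ := hA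
  obtain ⟨E, D, -, p, e⟩ := h.exists_ps hS hB k
  rcases p.members hS ⟨B, hB, k⟩ h.m2 (e ▸ le_sup_right) with rfl | ⟨d, hd, rfl⟩
  · exact ⟨D, p⟩
  obtain ⟨B', hB', k'⟩ := hN E p.m3 (e ▸ le_sup_right)
  obtain ⟨E', D', -, p', e'⟩ := (p.ln hS ⟨B, hB, k⟩).symm.exists_ps hS hB' k'
  rcases p.members hS ⟨B, hB, k⟩ p'.m3 (sup_comm E A ▸ e' ▸ le_sup_right) with rfl | ⟨d', hd', rfl⟩
  · exact absurd rfl (p'.ne hS)
  have q := p'.of_eq hS (d * d'⁻¹) (p.c2.cj_eq' (mul_mem hd (inv_mem hd'))) rfl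
    (by rw [cj_cj, inv_mul_cancel_right] : _ = cj d A)
  rcases q.members hS ⟨B', hB', k'⟩ h.m1 (by rw [sup_comm, p.cj_sup hd]; exact le_sup_left) with e2 | ⟨f, hf, e2⟩
  · exact absurd e2.symm h.ne
  · exact ⟨_, q.of_eq hS f e2.symm (cj_self hf) (q.c2.cj_eq' hf)⟩

end CA.Root
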