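import Cfsg.Agent.Lib.Root.R4

/-!
Abstract root subgroups (Timmesfeld, ch. II §2, §3): natural modules, components of `𝓕(Σ)`, non-degenerate classes.
-/

set_option autoImplicit false

namespace CA.Root

open Subgroup Cfsg CA.Amb CA.AmbCore CA.AmbRes
open scoped commutatorElement

variable {G : Type*} [Group G] {S : Set (Subgroup G)} {A B C D E F : Subgroup G}

theorem RO.sp_of_conj (h : RO A B) {N : Subgroup G} (hN : Cm N N) (hA : A ≤ 𝐍 N) (hB : B ≤ 𝐍 N)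
    (hq : Cm ⁅N, A⁆ A) (hX : ¬ Cm ⁅N, A⁆ B) : Sp A B := by
  letI : CommGroup N := { (inferInstance : Group N) with
    mul_comm := fun a b => Subtype.ext (hN a a.2 b b.2) }
  letI : DistribMulAction (𝐍 N) (Additive N) :=
    { smul := fun g n => Additive.ofMul ⟨g * n.toMul * g⁻¹, conj_mem_of_mem_normalizer g.2 n.toMul.2⟩
      one_smul := fun n => Subtype.ext (by show 1 * (n.toMul : G) * 1⁻¹ = n.toMul; group)
      mul_smul := fun g k n => Subtype.ext (by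
        show (g : G) * k * n.toMul * ((g : G) * k)⁻¹ = g * (k * n.toMul * (k : G)⁻¹) * (g : G)⁻¹; group)
      smul_zero := fun g => Subtype.ext (by show (g : G) * 1 * (g : G)⁻¹ = 1; group)
      smul_add := fun g m n => Subtype.ext (by
        show (g : G) * (m.toMul * n.toMul) * (g : G)⁻¹ = g * m.toMul * (g : G)⁻¹ * (g * n.toMul * (g : G)⁻¹)
        group) }
  have e1 : ∀ (g : 𝐍 N) (n : Additive N), ((g • n - n).toMul : G) = ⁅(g : G), (n.toMul : G)⁆ := fun g n => by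
    rw [sub_eq_add_neg]; rfl
  have e2 : ∀ (g : 𝐍 N) (n : Additive N), g • n = n ↔ (g : G) * n.toMul = n.toMul * g := fun g n => by
    rw [← mul_inv_eq_iff_eq_mul]
    exact ⟨fun k => congrArg (fun x : Additive N => (x.toMul : G)) k, fun k => Subtype.ext k⟩
  have k := ((ro_subgroupOf hA hB).2 h).sp_of_quad (N := Additive N) (cs_le fun a ha n a' ha' => (e2 _ _).2 (by
    rw [e1]
    exact (hq _ (commutator_comm A N ▸ commutator_mem_commutator ha n.toMul.2) _ ha').symm)) (fun k => hX (by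
      rw [commutator_comm, cm_iff_le, commutator_le]
      intro a ha n hn
      refine mem_centralizer_sub.2 fun b hb => ?_
      have := (e2 _ _).1 (k (mem_cs (a := ⟨a, hA ha⟩) (mem_sup_left ha) (Additive.ofMul ⟨n, hn⟩)) ⟨b, hB hb⟩
        (mem_sup_right hb))
      rwa [e1] at this))
  have := k.map (𝐍 N).subtype ((ro_subgroupOf hA hB).2 h) (by
    rwa [map_subgroupOf_eq_of_le hA, map_subgroupOf_eq_of_le hB])
  rwa [map_subgroupOf_eq_of_le hA, map_subgroupOf_eq_of_le hB] at this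

theorem Ps.comm_sup (h : Ps S A B C) (hS : RS S) : ⁅A ⊔ C, B⁆ = C :=
  le_antisymm (comm_sup_le h.c1.symm.le_norm le_normalizer h.eq.le (h.c2.bot.le.trans bot_le))
    (h.eq.ge.trans (commutator_mono le_sup_left le_rfl))

theorem Ps.ro (h : Ps S A B C) (hS : RS S) (h' : Ps S C D A) : RO B D := by
  rcases hS.tri h.m2 h'.m2 with k | k | ⟨F, k⟩
  · have := commutator_commutator_eq_bot_of_rotate (H₁ := A) (H₂ := B) (H₃ := D) (by rw [k.bot, commutator_bot_left])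
      (by rw [h'.c2.symm.bot, commutator_bot_left])
    rw [h.eq, h'.eq] at this
    exact absurd this (hS.ne_bot A h.m1)
  · exact k
  exfalso
  have n1 := h.norm
  have n2 : D ≤ 𝐍 (A ⊔ C) := sup_comm C A ▸ h'.norm
  have n3 : F ≤ 𝐍 (A ⊔ C) := k.eq ▸ (comm_le_sup B D).trans (sup_le n1 n2)
  have m0 := norm_comm_left (A ⊔ C) F
  have m1 : B ≤ 𝐍 ⁅A ⊔ C, F⁆ := norm_commutator n1 k.c1.symm.le_norm
  have m2 : D ≤ 𝐍 ⁅A ⊔ C, F⁆ := norm_commutator n2 k.c2.symm.le_norm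
  have k1 := three_subgroups (le_sup_left.trans m0) m1 m2
    (by rw [k.eq, commutator_comm]; exact commutator_mono le_sup_left le_rfl)
    (by rw [h'.c2.symm.bot, commutator_bot_left]; exact bot_le)
  have k2 := three_subgroups (le_sup_right.trans m0) m2 m1
    (by rw [k.symm.eq, commutator_comm]; exact commutator_mono le_sup_right le_rfl)
    (by rw [h.c2.symm.bot, commutator_bot_left]; exact bot_le)
  rw [h.eq, h'.eq] at k1
  rw [h'.eq, h.eq] at k2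
  have hc := h.cm_sup hS
  have k3 : ∀ E ∈ S, E ≤ A ⊔ C → ⁅E, F⁆ ≤ (A ⊔ C) ⊓ 𝐂 F := fun E hE hle => by
    refine le_inf ((commutator_mono hle le_rfl).trans (commutator_le_left_of_norm n3)) ?_
    rcases hS.tri hE k.m3 with q | q | ⟨_, q⟩
    · exact q.bot.le.trans bot_le
    · obtain ⟨f, hf, f1⟩ := hS.exists_ne k.m3
      exact absurd (q.symm.eq_one_of_cm hf (hc.mono (cj_le_of_le hle (n3 hf)) hle)) f1
    · exact q.eq ▸ q.c2.le
  have k4 : ⁅A ⊔ C, F⁆ ≤ 𝐂 F := (comm_sup_le (hc.mono le_sup_left inf_le_left).le_norm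
    (hc.mono le_sup_right inf_le_left).le_norm (k3 A h.m1 le_sup_left) (k3 C h.m3 le_sup_right)).trans inf_le_right
  rw [comm_eq_bot_of_le ((sup_le k1 k2).trans k4)] at k1
  exact hS.ne_bot A h.m1 (le_bot_iff.1 k1)

theorem Ps.cj_eq (h : Ps S A B C) (hS : RS S) (h' : Ps S C D A) {b d : G} (hb : b ∈ B) (hd : d ∈ D)
    (e : cj d B = cj b D) : cj d C = cj b A := by
  have e1 := congrArg (cj d) (h.comm_sup hS)
  have e2 := congrArg (cj b) (h'.comm_sup hS)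
  rw [cj_commutator, sup_comm, cj_eq_self (h'.norm hd), e] at e1
  rw [cj_commutator, sup_comm, cj_eq_self (h.norm hb), sup_comm] at e2
  exact e1.symm.trans e2

theorem Ps.family (h : Ps S A B C) (hS : RS S) (h' : Ps S C D A) {x : G} (hx : x ∈ B ⊔ D) :
    ∀ E, (E = C ∨ ∃ b ∈ B, E = cj b A) → cj x E = C ∨ ∃ b ∈ B, cj x E = cj b A :=
  inv_family (fun _ hd => h'.c2.cj_eq' hd) (fun _ hb => h.c2.cj_eq' hb)
    (fun b hb h1 => ((h.ro hS h').ex hb h1).imp fun _ k => ⟨k.1, h.cj_eq hS h' hb k.1 k.2.2⟩)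
    (fun d hd h1 => ((h.ro hS h').ex' hd h1).imp fun _ k => ⟨k.1, h.cj_eq hS h' k.1 hd k.2.2⟩) hx

theorem Ps.exists_cj (h : Ps S A B C) (hS : RS S) (h' : Ps S C D A) : ∃ x ∈ B ⊔ D, cj x A = C := by
  obtain ⟨b, hb, b1⟩ := hS.exists_ne h.m2
  obtain ⟨d, hd, -, e⟩ := (h.ro hS h').ex hb b1
  exact ⟨d⁻¹ * b, mul_mem (mem_sup_right (inv_mem hd)) (mem_sup_left hb), by
    rw [← cj_cj, ← h.cj_eq hS h' hb hd e, cj_inv_cj]⟩

theorem Ps.sp (h : Ps S A B C) (hS : RS S) (h' : Ps S C D A) : Sp B D :=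
  (h.ro hS h').sp_of_conj (h.cm_sup hS) h.norm (sup_comm C A ▸ h'.norm) (by rw [h.comm_sup hS]; exact h.c2)
    (by rw [h.comm_sup hS]; exact h'.not_cm hS)

/-! ### components of `𝓕(Σ)` -/

theorem rtg_symm {α : Type*} {r : α → α → Prop} (hr : ∀ a b, r a b → r b a) {a b : α}
    (h : Relation.ReflTransGen r a b) : Relation.ReflTransGen r b a := by
  induction h with
  | refl => exact .refl
  | tail _ k ih => exact .head (hr _ _ k) ih

theorem rtg_map {α β : Type*} {r : α → α → Prop} {s : β → β → Prop} (f : α → β)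
    (hr : ∀ a b, r a b → Relation.ReflTransGen s (f a) (f b)) {a b : α}
    (h : Relation.ReflTransGen r a b) : Relation.ReflTransGen s (f a) (f b) := by
  induction h with
  | refl => exact .refl
  | tail _ k ih => exact ih.trans (hr _ _ k)

/-- joined in `𝓕(Σ)` -/
abbrev Rt (S : Set (Subgroup G)) (A B : Subgroup G) : Prop := Relation.ReflTransGen (FAdj S) A B

theorem Rt.symm (h : Rt S A B) : Rt S B A :=
  rtg_symm (fun _ _ k => ⟨k.2.1, k.1, RO.symm k.2.2⟩) h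

theorem Rt.conj (h : Rt S A B) (hS : RS S) (g : G) : Rt S (cj g A) (cj g B) :=
  rtg_map (cj g) (fun _ _ k => .single ⟨hS.conj k.1 g, hS.conj k.2.1 g, RO.conj k.2.2 g⟩) h

theorem RO.rt (h : RO A B) (hA : A ∈ S) (hB : B ∈ S) : Rt S A B := Relation.ReflTransGen.single ⟨hA, hB, h⟩

theorem Rt.ni (h : Rt S A B) (hne : B ≠ A) : NI S A := by
  rcases h.cases_head with e | ⟨C, k, -⟩
  · exact absurd e.symm hne
  · exact ⟨C, k.2.1, k.2.2⟩

theorem Rt.ni' (h : Rt S A B) (hA : NI S A) : NI S B := by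
  by_cases e : A = B
  · exact e ▸ hA
  · exact h.symm.ni e

theorem Rt.exists_cj (h : Rt S A B) : ∃ g, B = cj g A := by
  induction h with
  | refl => exact ⟨1, (cj_one _).symm⟩
  | tail _ k ih =>
    obtain ⟨g, rfl⟩ := ih
    obtain ⟨x, -, rfl⟩ := RO.un_right k.2.2
    exact ⟨_, cj_cj _ _ _⟩

/-- stabilizer of the class of `A` for a conjugation invariant equivalence -/
def stab (R : Subgroup G → Subgroup G → Prop) (hr : Equivalence R) (hc : ∀ A B g, R A B → R (cj g A) (cj g B))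
    (A : Subgroup G) : Subgroup G where
  carrier := {g | R A (cj g A)}
  one_mem' := by simpa using hr.refl A
  mul_mem' := fun {g k} h1 h2 => hr.trans h1 (by simpa [cj_cj] using hc _ _ g h2)
  inv_mem' := fun {g} h => hr.symm (by simpa using hc _ _ g⁻¹ h)

theorem mem_stab {R : Subgroup G → Subgroup G → Prop} {hr : Equivalence R}
    {hc : ∀ A B g, R A B → R (cj g A) (cj g B)} {g : G} (h : R A E) (h' : R E (cj g E)) : g ∈ stab R hr hc A :=
  hr.trans h (hr.trans h' (hr.symm (hc _ _ g h)))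

theorem rt_equiv : Equivalence (Rt S) := ⟨fun _ => .refl, Rt.symm, .trans⟩

/-- stabilizer of the component of `A` -/
abbrev RS.st (hS : RS S) (A : Subgroup G) : Subgroup G := stab (Rt S) rt_equiv (fun _ _ g h => h.conj hS g) A

theorem RS.le_st (hS : RS S) (h : Rt S A E) (hn : F ≤ 𝐍 E) : F ≤ hS.st A := fun _ hf =>
  mem_stab h (by rw [cj_eq_self (hn hf)])

theorem Ln.rt (h : Ln S A B) (hS : RS S) (hA : NI S A) (hB : NI S B) : Rt S A B := by
  by_contra h0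
  obtain ⟨D, hD, k⟩ := hA
  obtain ⟨D', hD', k'⟩ := hB
  obtain ⟨F, p1, p2⟩ := h.ps_of_not_ro hS hD k h.m2 le_sup_right fun q =>
    h0 ((k.rt h.m1 hD).trans (q.rt hD h.m2))
  obtain ⟨F', q1, q2⟩ := h.symm.ps_of_not_ro hS hD' k' h.m1 le_sup_right fun q =>
    h0 (Rt.symm ((k'.rt h.m2 hD').trans (q.rt hD' h.m1)))
  have r := (p2.ro hS q2).rt p2.m2 q2.m2
  obtain ⟨x, hx, e⟩ := p2.symm.exists_cj hS p1.symm
  obtain ⟨y, hy, e'⟩ := q2.exists_cj hS p2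
  have r1 : Rt S F B := e ▸ sup_le (hS.le_st r q1.c2.symm.le_norm) (hS.le_st .refl p1.c1.symm.le_norm) hx
  exact h0 (Rt.symm (e' ▸ sup_le (hS.le_st (r1.symm.trans r) le_normalizer) (hS.le_st r1.symm le_normalizer) hy))

theorem RS.eq_top (hS : RS S) {L : Subgroup G} (h : ∀ E ∈ S, E ≤ L) : L = ⊤ :=
  eq_top_iff.2 (hS.generates.ge.trans (iSup₂_le h))

theorem RS.st_eq_top (hS : RS S) (hA : A ∈ S) (hN : NI S A) : hS.st A = ⊤ := hS.eq_top fun E hE => by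
  rcases hS.tri hA hE with k | k | ⟨C, k⟩
  · exact hS.le_st .refl k.symm.le_norm
  · exact hS.le_st (k.rt hA hE) le_normalizer
  · intro e he
    by_cases h0 : cj e A = A
    · exact mem_stab .refl (by rw [h0])
    · exact (k.ln_cj hS hN he h0).rt hS hN (hN.conj hS e)

theorem RS.rt_cj (hS : RS S) (hA : A ∈ S) (hN : NI S A) (g : G) : Rt S A (cj g A) :=
  (hS.st_eq_top hA hN).ge (mem_top g)

theorem RS.two_trans (hS : RS S) (hN : ∀ E ∈ S, NI S E) (h : Ln S A B) (hC : C ∈ S) (hD : D ∈ S)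
    (h1 : C ≤ A ⊔ B) (h2 : D ≤ A ⊔ B) (hne : C ≠ D) :
    ∃ x ∈ ⨆ E ∈ normalizingMembers S (A ⊔ B), E, cj x A = C ∧ cj x B = D := by
  obtain ⟨F, p⟩ := h.exists_mover hS fun E hE _ => hN E hE
  obtain ⟨F', p'⟩ := h.symm.exists_mover hS fun E hE _ => hN E hE
  have l1 : F ≤ ⨆ E ∈ normalizingMembers S (A ⊔ B), E := le_iSup₂_of_le F ⟨p.m2, p.norm⟩ le_rfl
  have l2 : F' ≤ ⨆ E ∈ normalizingMembers S (A ⊔ B), E := le_iSup₂_of_le F' ⟨p'.m2, sup_comm B A ▸ p'.norm⟩ le_rfl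
  have n : F ⊔ F' ≤ 𝐍 (A ⊔ B) := sup_le p.norm (sup_comm B A ▸ p'.norm)
  obtain ⟨y, hy, rfl⟩ : ∃ y ∈ F ⊔ F', cj y B = D := by
    rcases p.members hS (hN A h.m1) hD h2 with rfl | ⟨f, hf, rfl⟩
    · exact ⟨1, one_mem _, cj_one _⟩
    · obtain ⟨x, hx, e⟩ := p'.exists_cj hS p
      exact ⟨f * x, mul_mem (mem_sup_left hf) (sup_comm F' F ▸ hx), by rw [← cj_cj, e]⟩
  rcases p.members hS (hN A h.m1) (hS.conj hC y⁻¹) (cj_le_of_le h1 (n (inv_mem hy))) with e | ⟨f, hf, e⟩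
  · exact absurd (by rw [← e, cj_cj_inv]) hne
  · exact ⟨y * f, sup_le l1 l2 (mul_mem hy (mem_sup_left hf)), by rw [← cj_cj, ← e, cj_cj_inv],
      by rw [← cj_cj, p.c2.cj_eq' hf]⟩

/-! ### non-degenerate classes -/

/-- non-degenerate class -/
structure ND (S : Set (Subgroup G)) : Prop where
  rs : RS S
  cl : ∀ A ∈ S, ∀ B ∈ S, ∃ g, B = cj g A
  ni : ∀ A ∈ S, NI S A
  ps : ∀ A ∈ S, ∃ E F, Ps S E F A

theorem nd_mk (hS : RS S) (cl : ∀ A ∈ S, ∀ B ∈ S, ∃ g, B = cj g A) (h1 : ∃ A ∈ S, NI S A)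
    (h2 : ¬ IsDegenerateRootSet S) : ND S := by
  refine ⟨hS, cl, fun A hA => ?_, fun A hA => ?_⟩
  · obtain ⟨B, hB, k⟩ := h1
    obtain ⟨g, rfl⟩ := cl B hB A hA
    exact k.conj hS g
  · simp only [IsDegenerateRootSet, not_forall, not_not] at h2
    obtain ⟨E, hE, F, hF, k⟩ := h2
    have p := ps_of_case hE hF k
    obtain ⟨g, rfl⟩ := cl _ p.m3 A hA
    exact ⟨_, _, p.conj hS g⟩

theorem nd_of (hS : IsRootSubgroupClass S) (h : IsNondegenerateRootSet S) : ND S :=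
  let ⟨A, hA, B, hB, k⟩ := h.2.1
  let ⟨E, hE, F, hF, k'⟩ := h.2.2
  nd_mk hS.1 hS.2.2 ⟨A, hA, B, hB, k⟩ fun q => q E hE F hF k'

theorem ND.ln (h : ND S) (hA : A ∈ S) : ∃ E, Ln S A E :=
  let ⟨E, _, p⟩ := h.ps A hA; ⟨E, (p.ln h.rs (h.ni E p.m1)).symm⟩

theorem ND.exists_ps (h : ND S) (hA : A ∈ S) (hB : B ∈ S) (k : RO A B) : ∃ E D, Ps S B E D ∧ Ps S A D E :=
  let ⟨_, l⟩ := h.ln hA
  let ⟨E, D, p, p', _⟩ := l.exists_ps h.rs hB k
  ⟨E, D, p, p'⟩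

theorem ND.sp (h : ND S) (hA : A ∈ S) (hB : B ∈ S) (k : RO A B) : Sp A B :=
  let ⟨_, _, p, p'⟩ := h.exists_ps hA hB k
  p'.symm.sp h.rs p.symm

theorem Ln.conj (h : Ln S A B) (hS : RS S) (hA : NI S A) (hB : ∀ E ∈ S, NI S E) (g : G) :
    Ln S (cj g A) (cj g B) := by
  obtain ⟨F, p⟩ := h.exists_mover hS fun E hE _ => hB E hE
  exact (p.conj hS g).ln hS (hA.conj hS g)

/-- joined in `𝓔(Σ)` -/
abbrev Et (S : Set (Subgroup G)) (A B : Subgroup G) : Prop := Relation.ReflTransGen (Ln S) A B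

theorem ND.et (h : ND S) (hA : A ∈ S) (hB : B ∈ S) : Et S A B := by
  have hr : Equivalence (Et S) := ⟨fun _ => .refl, fun k => rtg_symm (fun _ _ => Ln.symm) k,
    .trans⟩
  have hc : ∀ A B g, Et S A B → Et S (cj g A) (cj g B) := fun _ _ g k =>
    rtg_map (cj g) (fun _ _ k => .single (k.conj h.rs (h.ni _ k.m1) h.ni g)) k
  have k1 : ∀ A E F, Ps S A E F → ∀ e ∈ E, Et S A (cj e A) := fun A E F p e he => by
    by_cases h0 : cj e A = A
    · rw [h0]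
    · exact .single (p.ln_cj h.rs (h.ni A p.m1) he h0)
  have : stab (Et S) hr hc A = ⊤ := h.rs.eq_top fun E hE e he => by
    rcases h.rs.tri hA hE with k | k | ⟨C, k⟩
    · exact mem_stab .refl (by rw [k.cj_eq' he])
    · obtain ⟨E', D, p, p'⟩ := h.exists_ps hA hE k
      exact mem_stab (.single (p'.ln h.rs (h.ni A hA))) (k1 _ _ _ p.symm e he)
    · exact k1 _ _ _ k e he
  obtain ⟨g, rfl⟩ := h.cl A hA B hB
  exact this.ge (mem_top g)

theorem ND.gen (h : ND S) (hA : A ∈ S) (hB : B ∈ S) (k : RO A B) {L : Subgroup G} (h1 : ∀ C, Ln S A C → C ≤ L)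
    (h2 : B ≤ L) : L = ⊤ := by
  have hN := h.ni A hA
  have k1 : ∀ C, Ln S A C → ∃ x ∈ L, C = cj x A := fun C l => by
    obtain ⟨E, D, p, p', e⟩ := l.exists_ps h.rs hB k
    have hD : D ≤ L := p.eq ▸ comm_le_of_le h2 (h1 E (p'.ln h.rs hN))
    obtain ⟨F, q⟩ := (p'.ln h.rs hN).symm.exists_mover h.rs fun E hE _ => h.ni E hE
    rcases p'.members h.rs hN l.m2 (e ▸ le_sup_right) with rfl | ⟨d, hd, rfl⟩
    · obtain ⟨x, hx, e⟩ := p'.exists_cj h.rs q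
      exact ⟨x, sup_le hD (h1 F (q.symm.ln h.rs (h.ni F q.m2)).symm) hx, e.symm⟩
    · exact ⟨d, hD hd, rfl⟩
  have k2 : ∀ E, Et S A E → ∃ x ∈ L, E = cj x A := fun E q => by
    induction q with
    | refl => exact ⟨1, one_mem _, (cj_one _).symm⟩
    | tail _ l ih =>
      obtain ⟨x, hx, rfl⟩ := ih
      obtain ⟨y, hy, e⟩ := k1 _ (by simpa using l.conj h.rs (hN.conj h.rs x) h.ni x⁻¹)
      exact ⟨x * y, mul_mem hx hy, by rw [← cj_cj, ← e, cj_cj_inv]⟩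
  obtain ⟨C, l⟩ := h.ln hA
  obtain ⟨x, hx, e⟩ := k1 C l
  have hAL : A ≤ L := by
    rw [eq_comm, cj_eq_iff] at e
    exact e ▸ cj_le_of_mem (h1 C l) (inv_mem hx)
  refine h.rs.eq_top fun E hE => ?_
  obtain ⟨x, hx, rfl⟩ := k2 E (h.et hA hE)
  exact cj_le_of_mem hAL hx

/-! ### comparing `C_Σ` and `Ω` -/

theorem exists_conj_pair (k : RO A B) (k' : RO C B) {b : G} (hb : b ∈ B) (b1 : b ≠ 1) :
    ∃ a ∈ A, ∃ c ∈ C, cj b A = cj a B ∧ cj b C = cj c B :=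
  let ⟨a, ha, _, e⟩ := k.ex' hb b1
  let ⟨c, hc, _, e'⟩ := k'.ex' hb b1
  ⟨a, ha, c, hc, e, e'⟩

/-- a conjugation invariant relation is symmetric on `A`, `C` -/
theorem rel_symm {R : Subgroup G → Subgroup G → Prop} (hc : ∀ A B g, R A B → R (cj g A) (cj g B))
    (k : RO A B) (k' : RO C B) (s : Sp A B) (s' : Sp C B) (h : Cm A C) (r : R A C) : R C A := by
  obtain ⟨b, hb, b1⟩ := k.symm.exists_ne
  obtain ⟨a, ha, c, hc', e, e'⟩ := exists_conj_pair k k' hb b1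
  have := hc _ _ (b⁻¹ * (a * c) * b⁻¹) r
  rwa [← cj_cj _ b⁻¹, ← cj_cj _ b⁻¹, s a ha b hb e, s' c hc' b hb e', cj_cj, cj_cj, mul_assoc b⁻¹, mul_assoc b⁻¹,
    mul_inv_cancel_right, h a ha c hc', mul_inv_cancel_right, ← cj_cj, ← cj_cj, ← e, ← e', cj_inv_cj,
    cj_inv_cj] at this

theorem ND.cm_of_le (h : ND S) (hA : A ∈ S) (hC : C ∈ S) (hle : ∀ B ∈ S, RO A B → RO C B) : Cm A C := by
  have hS := h.rs
  rcases hS.tri hA hC with k | k | ⟨F, k⟩
  · exact k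
  · exact absurd rfl (hle C hC k).ne
  exfalso
  have l := k.ln hS (h.ni A hA)
  have key : ∀ B ∈ S, RO A B → ¬ RO B F := fun B hB q q' => by
    obtain ⟨E, D, p, p', e⟩ := (k.symm.ln hS (h.ni C hC)).exists_ps hS hB (hle B hB q)
    rcases k.symm.members hS (h.ni C hC) p.m2 (e ▸ le_sup_right) with rfl | ⟨a, ha, rfl⟩
    · exact p.not_ro hS q'
    · exact p.not_ro hS ((hle _ (hS.conj hB a⁻¹) (q.cj_right (inv_mem ha))).symm.of_eq a (cj_cj_inv _ _) rfl)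
  obtain ⟨B, hB, q⟩ := h.ni A hA
  obtain ⟨D, p, p'⟩ := l.ps_of_not_ro hS hB q k.m3 le_sup_right (key B hB q)
  obtain ⟨F', r⟩ := l.symm.exists_mover hS fun E hE _ => h.ni E hE
  obtain ⟨f, hf, f1⟩ := hS.exists_ne r.m2
  rcases p'.members hS (h.ni A hA) (hS.conj k.m3 f) (sup_comm F A ▸ r.cj_le hf) with e | ⟨d, hd, e⟩
  · exact f1 ((p'.ro hS r).symm.nb hf (by
      have := r.sup_cj hf f1
      rw [e, sup_idem] at this
      exact absurd (l.symm.ne.symm) (fun _ => hS.ne_bot _ hA (by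
        obtain ⟨a, ha, a1⟩ := hS.exists_ne hA
        exact absurd ((h.ni A hA).eq hS k.m3 ha a1 (this.ge (mem_sup_right ha))) l.ne))))
  · refine key _ (hS.conj hB f⁻¹) (q.of_eq f⁻¹ (r.c2.cj_eq' (inv_mem hf)) rfl) ?_
    exact (q.symm.of_eq d (p.c1.cj_eq hd) e.symm).of_eq f⁻¹ rfl (cj_inv_cj _ _)

theorem ND.ro_iff (h : ND S) (hA : A ∈ S) (hC : C ∈ S) (hle : ∀ B ∈ S, RO A B → RO C B) :
    ∀ B ∈ S, RO C B → RO A B := by
  obtain ⟨B, hB, q⟩ := h.ni A hA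
  exact rel_symm (R := fun A C => ∀ B ∈ S, RO A B → RO C B) (fun A C g r B hB k =>
    (r _ (h.rs.conj hB g⁻¹) (k.of_eq g⁻¹ (cj_inv_cj _ _) rfl)).of_eq g rfl (cj_cj_inv _ _)) q (hle B hB q)
    (h.sp hA hB q) (h.sp hC hB (hle B hB q)) (h.cm_of_le hA hC hle) hle

theorem cm_rel_conj (hS : RS S) (A C : Subgroup G) (g : G) (r : ∀ B ∈ S, Cm A B → Cm C B) :
    ∀ B ∈ S, Cm (cj g A) B → Cm (cj g C) B := fun B hB k =>
  (r _ (hS.conj hB g⁻¹) (k.of_eq g⁻¹ (cj_inv_cj _ _) rfl)).of_eq g rfl (cj_cj_inv _ _)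

theorem ND.cm_iff (h : ND S) (hA : A ∈ S) (hC : C ∈ S) (hle : ∀ B ∈ S, Cm A B → Cm C B) :
    ∀ B ∈ S, Cm C B → Cm A B := by
  obtain ⟨B, hB, q⟩ := h.ni C hC
  have hc := (hle A hA (h.rs.cm hA)).symm
  rcases h.rs.tri hB hA with k | k | ⟨D, k⟩
  · exact absurd (hle B hB k.symm) q.not_cm
  · exact rel_symm (R := fun A C => ∀ B ∈ S, Cm A B → Cm C B) (cm_rel_conj h.rs) k.symm q
      (h.sp hA hB k.symm) (h.sp hC hB q) hc hle
  · exact absurd (hle D k.m3 k.c2.symm) (k.not_cm_ro h.rs q hc.symm)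

/-! ### degenerate sets -/

theorem RS.di (hS : RS S) (hd : IsDegenerateRootSet S) (hA : A ∈ S) (hB : B ∈ S) (h : ¬ Cm A B) : RO A B := by
  rcases hS.tri hA hB with k | k | ⟨C, k⟩
  exacts [absurd k h, k, absurd k.case (hd A hA B hB)]

theorem RO.cm_of_cj (k : RO A B) (hc : Cm A C) {b : G} (hb : b ∈ B) (b1 : b ≠ 1) (h : Cm (cj b A) C) : Cm B C :=
  (h.sup_left hc).mono (le_sup_left.trans (k.symm.sup_cj hb b1).ge) le_rfl

theorem RS.cm_iff_deg (hS : RS S) (hd : IsDegenerateRootSet S) (cl : ∀ A ∈ S, ∀ B ∈ S, ∃ g, B = cj g A)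
    (hA : A ∈ S) (hC : C ∈ S) (hle : ∀ B ∈ S, Cm A B → Cm C B) : ∀ B ∈ S, Cm C B → Cm A B := by
  intro E hE hc
  by_contra h0
  have k := hS.di hd hA hE h0
  have hAC := hle A hA (hS.cm hA)
  obtain ⟨x, hx, e0⟩ := k.un_right
  have hle' := cm_rel_conj hS A C x hle
  rw [← e0, (hAC.sup_right hc).cj_eq' hx] at hle'
  obtain ⟨g, e1⟩ := cl A hA C hC
  obtain ⟨B, hB, q⟩ : NI S C := e1 ▸ NI.conj ⟨E, hE, k⟩ hS g
  have q1 := hS.di hd hA hB fun k => q.not_cm (hle B hB k)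
  have q2 := hS.di hd hE hB fun k => q.not_cm (hle' B hB k)
  obtain ⟨b, hb, b1⟩ := hS.exists_ne hB
  obtain ⟨a, ha, c, hc', e, e'⟩ := exists_conj_pair q1 q hb b1
  obtain ⟨y, hy, y1, e''⟩ := q2.ex' hb b1
  have r := cm_rel_conj hS A C (a⁻¹ * b) hle
  rw [← cj_cj, ← cj_cj, e, e', cj_inv_cj, cj_cj] at r
  have r1 := r _ (hS.conj hB (y⁻¹ * c)) ((hc.symm.of_eq b e'' e').of_eq y⁻¹ (cj_inv_cj _ _) (cj_cj _ _ _))
  rw [← hAC c hc' _ (inv_mem ha), ← hc c hc' _ (inv_mem hy), ← cj_cj, ← cj_cj, cm_cj_iff] at r1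
  obtain ⟨b2, hb2, -, e2⟩ := q1.ex (inv_mem ha) (inv_ne_one.2 (q1.ne_one hb e))
  obtain ⟨b3, hb3, -, e3⟩ := q2.ex (inv_mem hy) (inv_ne_one.2 y1)
  rw [← e2, ← e3] at r1
  have r2 := r1.of_eq b3⁻¹ (cj_cj _ _ _) (cj_inv_cj _ _)
  by_cases h1 : b3⁻¹ * b2 = 1
  · rw [h1, cj_one] at r2; exact h0 r2
  · exact q.not_cm (q1.cm_of_cj hAC.symm (mul_mem (inv_mem hb3) hb2) h1 (hle' _ (hS.conj hA _) r2.symm).symm).symm

end CA.Root
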