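import Cfsg.Agent.Lib.Root.R5
import Cfsg.Agent.Lib.Root.R3

/-!
Abstract root subgroups: nilpotent triples, the simplicity criterion, and specialness of rank one pairs.
-/

set_option autoImplicit false

namespace CA.Root

open Subgroup Cfsg CA.Amb CA.AmbCore CA.AmbRes
open scoped commutatorElement

variable {G : Type*} [Group G] {S : Set (Subgroup G)} {A B C D E F : Subgroup G}

/-! ### nilpotent triples -/

theorem RS.class_two (hS : RS S) (hA : A ∈ S) (hB : B ∈ S) (h : ¬ RO A B) : Cm ⁅A ⊔ B, A ⊔ B⁆ (A ⊔ B) := by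
  rcases hS.tri hA hB with k | k | ⟨C, k⟩
  · rw [(((hS.cm hA).sup_left k.symm).sup_right (k.sup_left (hS.cm hB))).bot]
    exact fun a ha b _ => by rw [mem_bot.1 ha, one_mul, mul_one]
  · exact absurd k h
  · refine (k.c1.sup_right k.c2).mono ?_ le_rfl
    have n1 := k.c1.symm.le_norm
    have n2 := k.c2.symm.le_norm
    exact comm_sup_le n1 n2 (comm_sup_le' n1 n2 ((hS.cm hA).bot.le.trans bot_le) k.eq.le)
      (comm_sup_le' n1 n2 k.symm.eq.le ((hS.cm hB).bot.le.trans bot_le))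

theorem Ps.not_ro_cj (p : Ps S A B E) (hS : RS S) (hC : C ∈ S) (hc : Cm A C) {b : G} (hb : b ∈ B) :
    ¬ RO A (cj b C) := fun k => by
  obtain ⟨a, ha, a1⟩ := hS.exists_ne p.m1
  have := hS.cent k (hS.conj hC b) p.m3 (inv_mem ha) (inv_ne_one.2 a1) ((p.cm_cj hS hb).le (conj_mem_cj.2 ha))
    ((hc.conj b).le (conj_mem_cj.2 ha)) (by simpa [commutatorElement_def, mul_assoc] using p.mem (inv_mem ha) hb)
  exact a1 (conj_eq_one_iff.1 this)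

theorem Ps.cm_swap (q : Ps S C B F) (hc : Cm A C) {b : G} (hb : b ∈ B) (b1 : b ≠ 1) (h : Cm A (cj b C)) :
    Cm (cj b A) C :=
  ((hc.sup_right h).mono le_rfl ((q.cj_le (inv_mem hb)).trans (q.sup_cj hb b1).ge)).of_eq b rfl (cj_cj_inv _ _)

theorem nil_of_class_two {P B E : Subgroup G} (hP : Cm ⁅P, P⁆ P) (hB : Cm B B) (hn : B ≤ 𝐍 P) (hE : E ≤ P)
    (hEB : Cm E B) (h : ⁅P, B⁆ ≤ E ⊔ ⁅P, P⁆) : Group.IsNilpotent ↥(P ⊔ B) := by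
  have nP : P ⊔ B ≤ 𝐍 P := sup_le le_normalizer hn
  have nZ : P ⊔ B ≤ 𝐍 ⁅P, P⁆ := norm_commutator nP nP
  have hZ : ⁅P, P⁆ ≤ P := comm_le_of_le le_rfl le_rfl
  have a1 : ⁅E ⊔ ⁅P, P⁆, P ⊔ B⁆ ≤ ⁅P, P⁆ := comm_sup_le (hE.trans (le_sup_left.trans nZ)) le_normalizer
    (comm_sup_le' (le_sup_left.trans nZ) (le_sup_right.trans nZ) (commutator_mono hE le_rfl)
      (hEB.bot.le.trans bot_le)) (commutator_le_left_of_norm nZ)
  have n1 : P ⊔ B ≤ 𝐍 (E ⊔ ⁅P, P⁆) := norm_of_commutator_le (a1.trans le_sup_right)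
  have l1 : E ⊔ ⁅P, P⁆ ≤ P := sup_le hE hZ
  have hQ : ⁅P, P⁆ ≤ E ⊔ ⁅P, P⁆ := le_sup_right
  generalize E ⊔ ⁅P, P⁆ = Q at *
  have a2 : ⁅P, P ⊔ B⁆ ≤ Q := comm_sup_le' (le_sup_left.trans n1) (le_sup_right.trans n1) hQ h
  have a3 : ⁅P ⊔ B, P ⊔ B⁆ ≤ Q := comm_sup_le (le_sup_left.trans n1) (le_sup_right.trans n1) a2
    (comm_sup_le' (le_sup_left.trans n1) (le_sup_right.trans n1) (commutator_comm P B ▸ h) (hB.bot.le.trans bot_le))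
  have n2 := norm_commutator n1 nP
  have n3 := norm_commutator n1 n1
  have a4 : ⁅⁅P, P⁆, P ⊔ B⁆ ≤ ⁅Q, P⁆ := three_subgroups (le_sup_left.trans n2) (le_sup_left.trans n2) n2
    (commutator_mono a2 le_rfl) (commutator_mono (commutator_comm P _ ▸ a2) le_rfl)
  have a5 : ⁅⁅Q, P⁆, P ⊔ B⁆ ≤ ⁅Q, Q⁆ := three_subgroups (l1.trans (le_sup_left.trans n3)) (le_sup_left.trans n3) n3
    (commutator_mono a2 le_rfl) (((commutator_mono (commutator_comm Q _ ▸ a1) le_rfl).trans hP.bot.le).trans bot_le)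
  have a6 : ⁅⁅Q, Q⁆, P ⊔ B⁆ ≤ ⊥ := three_subgroups norm_of_normal norm_of_normal norm_of_normal
    ((commutator_mono a1 l1).trans hP.bot.le) ((commutator_mono (commutator_comm Q _ ▸ a1) l1).trans hP.bot.le)
  refine isNilpotent_of_lowerCentralSeries_eq_bot (n := 5) (le_bot_iff.1 ?_)
  exact (commutator_mono ((commutator_mono ((commutator_mono ((commutator_mono a3 le_rfl).trans a1) le_rfl).trans a4)
    le_rfl).trans a5) le_rfl).trans a6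

theorem Ps.cm_XY (p : Ps S A B E) (hS : RS S) (q : Ps S C B F) (hc : Cm A C) {b : G} (hb : b ∈ B) :
    Cm (A ⊔ cj b C) (cj b A ⊔ C) :=
  ((p.cm_cj hS hb).symm.sup_right hc).sup_left ((hc.symm.conj b).sup_right (q.cm_cj hS hb))

theorem Ps.sup_XY (p : Ps S A B E) (q : Ps S C B F) {b : G} (hb : b ∈ B) (b1 : b ≠ 1) :
    (A ⊔ cj b C) ⊔ (cj b A ⊔ C) = (A ⊔ E) ⊔ (C ⊔ F) := by
  rw [← p.sup_cj hb b1, ← q.sup_cj hb b1]; ac_rfl

theorem Ps.sup_R (p : Ps S A B E) (q : Ps S C B F) : (A ⊔ E) ⊔ (C ⊔ F) ⊔ B = A ⊔ B ⊔ C := by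
  refine le_antisymm (sup_le (sup_le (sup_le ?_ ?_) (sup_le le_sup_right ?_)) ?_) (sup_le (sup_le ?_ le_sup_right) ?_)
  · exact le_sup_of_le_left le_sup_left
  · exact p.eq ▸ le_sup_of_le_left (comm_le_sup A B)
  · exact q.eq ▸ comm_le_of_le le_sup_right (le_sup_of_le_left le_sup_right)
  · exact le_sup_of_le_left le_sup_right
  · exact le_sup_of_le_left (le_sup_of_le_left le_sup_left)
  · exact le_sup_of_le_left (le_sup_of_le_right le_sup_left)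

theorem Ps.nil (p : Ps S A B E) (hS : RS S) (q : Ps S C B F) (hc : Cm A C) : Group.IsNilpotent ↥(A ⊔ B ⊔ C) := by
  obtain ⟨b, hb, b1⟩ := hS.exists_ne p.m2
  rw [← p.sup_R q]
  have h1 := hS.class_two p.m1 (hS.conj q.m1 b) (p.not_ro_cj hS q.m1 hc hb)
  have h2 := hS.class_two (hS.conj p.m1 b) q.m1 fun k => q.not_ro_cj hS p.m1 hc.symm hb k.symm
  have h3 := p.cm_XY hS q hc hb
  have l : E ⊔ F ≤ (A ⊔ E) ⊔ (C ⊔ F) := sup_le_sup le_sup_right le_sup_right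
  have n : ∀ H : Subgroup G, H ≤ (A ⊔ E) ⊔ (C ⊔ F) → H ≤ 𝐍 (E ⊔ F ⊔ ⁅(A ⊔ E) ⊔ (C ⊔ F), (A ⊔ E) ⊔ (C ⊔ F)⁆) :=
    fun H hH => norm_of_commutator_le ((commutator_mono (sup_le l (comm_le_of_le le_rfl le_rfl)) hH).trans le_sup_right)
  refine nil_of_class_two (E := E ⊔ F) ?_ (hS.cm p.m2) (norm_sup p.norm q.norm) l (p.c2.sup_left q.c2)
    (comm_sup_le (n _ le_sup_left) (n _ le_sup_right) ((p.comm_sup hS).le.trans (le_sup_of_le_left le_sup_left))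
      ((q.comm_sup hS).le.trans (le_sup_of_le_left le_sup_right)))
  rw [← p.sup_XY q hb b1]
  generalize A ⊔ cj b C = X at *
  generalize cj b A ⊔ C = Y at *
  have k1 : Cm ⁅X, X⁆ (X ⊔ Y) := h1.sup_right (h3.mono (comm_le_of_le le_rfl le_rfl) le_rfl)
  have k2 : Cm ⁅Y, Y⁆ (X ⊔ Y) := (h3.symm.mono (comm_le_of_le le_rfl le_rfl) le_rfl).sup_right h2
  have k := k1.sup_left k2
  have n1 := (k.symm.mono le_sup_left le_rfl).le_norm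
  have n2 := (k.symm.mono le_sup_right le_rfl).le_norm
  exact k.mono (comm_sup_le n1 n2 (comm_sup_le' n1 n2 le_sup_left (h3.bot.le.trans bot_le))
    (comm_sup_le' n1 n2 (h3.symm.bot.le.trans bot_le) le_sup_right)) le_rfl

/-! ### the simplicity criterion -/

theorem RS.normal_eq_top (hS : RS S) (cl : ∀ A ∈ S, ∀ B ∈ S, ∃ g, B = cj g A) {N : Subgroup G} [N.Normal]
    (hA : A ∈ S) (h : A ≤ N) : N = ⊤ := hS.eq_top fun E hE => by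
  obtain ⟨g, rfl⟩ := cl A hA E hE
  exact cj_le_of_le h (norm_of_normal (mem_top g))

theorem comm_le_normal {N : Subgroup G} [N.Normal] (h : C ≤ N ⊔ A) (hc : Cm E A) : ⁅E, C⁆ ≤ N :=
  (commutator_mono le_rfl h).trans (comm_sup_le' le_normalizer norm_of_normal (commutator_le_right _ _)
    (hc.bot.le.trans bot_le))

theorem RS.normal (hS : RS S) (cl : ∀ A ∈ S, ∀ B ∈ S, ∃ g, B = cj g A) (hN : ∀ A ∈ S, NI S A)
    (hne : ∀ A ∈ S, ∀ C ∈ S, A ≠ C → centralizingMembers S A ≠ centralizingMembers S C)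
    (hd : IsDegenerateRootSet S → ∀ A ∈ S, ∀ B ∈ S, RO A B → ⁅A ⊔ B, A ⊔ B⁆ = A ⊔ B)
    (N : Subgroup G) [N.Normal] : N = ⊤ ∨ N ≤ center G := by
  by_cases h0 : ∀ n ∈ N, ∀ A ∈ S, cj n A = A
  · refine Or.inr fun n hn => ?_
    have : centralizer {n} = ⊤ := hS.eq_top fun A hA a ha => by
      obtain ⟨B, hB, k⟩ := hN A hA
      exact mem_centralizer_singleton_iff.2
        (k.comm_of_norm ha (h0 n hn A hA) (h0 n hn B hB) (h0 n hn _ (hS.conj hB a))).symm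
    exact mem_center_iff.2 fun g => mem_centralizer_singleton_iff.1 (this.ge (mem_top g))
  left
  have key : ∀ E ∈ S, ∀ C ∈ S, ¬ Cm E C → ⁅E, C⁆ ≤ N → N = ⊤ := fun E hE C hC h1 h2 => by
    rcases hS.tri hE hC with k | k | ⟨F, k⟩
    · exact absurd k h1
    · by_cases h3 : IsDegenerateRootSet S
      · refine hS.normal_eq_top cl hE (le_sup_left.trans ((hd h3 E hE C hC k).ge.trans ?_))
        exact comm_sup_le norm_of_normal norm_of_normal (comm_sup_le' norm_of_normal norm_of_normal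
          ((hS.cm hE).bot.le.trans bot_le) h2) (comm_sup_le' norm_of_normal norm_of_normal
          (commutator_comm E C ▸ h2) ((hS.cm hC).bot.le.trans bot_le))
      · obtain ⟨E', D, p, p'⟩ := (nd_mk hS cl ⟨E, hE, hN E hE⟩ h3).exists_ps hE hC k
        rcases k.normal (N := N) norm_of_normal with q | q
        · obtain ⟨e, he, e1⟩ := k.exists_ne
          refine absurd (k.z2 (mem_sup_left he) fun x hx => q.le ⟨?_, comm_le_of_le le_rfl le_rfl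
            (commutator_mem_commutator (mem_sup_left he) hx)⟩) fun q' =>
              e1 (k.nb' he (centralizer_le_normalizer _ (centralizer_anti le_sup_right q')))
          exact comm_sup_le' norm_of_normal norm_of_normal ((hS.cm hE).bot.le.trans bot_le) h2
            (commutator_mem_commutator he hx)
        · exact hS.normal_eq_top cl p.m3 (p.symm.eq ▸ comm_le_normal q.1 p'.c1)
    · exact hS.normal_eq_top cl k.m3 (k.eq ▸ h2)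
  push Not at h0
  obtain ⟨n, hn, A, hA, h1⟩ := h0
  have hC := hS.conj hA n
  have l : cj n A ≤ N ⊔ A := cj_le_of_mem le_sup_right (mem_sup_left hn)
  by_contra h2
  have k : ∀ E ∈ S, Cm A E → Cm (cj n A) E := fun E hE q => by
    by_contra h3
    exact h2 (key E hE _ hC (fun q => h3 q.symm) (comm_le_normal l q.symm))
  have k' : ∀ E ∈ S, Cm (cj n A) E → Cm A E := by
    by_cases h3 : IsDegenerateRootSet S
    · exact hS.cm_iff_deg h3 cl hA hC k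
    · exact (nd_mk hS cl ⟨A, hA, hN A hA⟩ h3).cm_iff hA hC k
  exact hne A hA _ hC (Ne.symm h1) (Set.ext fun E => ⟨fun q => ⟨q.1, (k E q.1 (cm_iff_le.2 q.2).symm).symm.le⟩,
    fun q => ⟨q.1, (k' E q.1 (cm_iff_le.2 q.2).symm).symm.le⟩⟩)

/-! ### abstract transvection groups -/

section deg

variable (hc : Cm A C) (hne : A ≠ C) (k : RO A D) (k' : RO C D)
include hc k k'

theorem th_of_cm {a c d : G} (hc' : c ∈ C) (hd : d ∈ D) (e : cj d A = cj a D) (ha : a ∈ A)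
    (h : Cm (cj a D) (cj c D)) : cj d C = cj c D := by
  have c1 : c ≠ 1 := fun h0 => by
    rw [h0, cj_one] at h
    exact k.ne_one hd e (k.eq_one_of_cm ha h)
  obtain ⟨d', hd', -, e'⟩ := k'.ex hc' c1
  rw [← e, ← e'] at h
  by_cases h1 : d'⁻¹ * d = 1
  · rw [← inv_mul_eq_one.1 h1, e']
  · exact absurd (k.cm_of_cj hc (mul_mem (inv_mem hd') hd) h1 (h.of_eq d'⁻¹ (cj_cj _ _ _) (cj_inv_cj _ _))).symm
      k'.not_cm

theorem th_uniq {a c c' : G} (ha : a ∈ A) (h1 : c ∈ C) (h2 : c' ∈ C) (h : Cm (cj a D) (cj c D))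
    (h' : Cm (cj a D) (cj c' D)) : c = c' := by
  by_cases a1 : a = 1
  · rw [a1, cj_one] at h h'
    rw [k'.eq_one_of_cm h1 h.symm, k'.eq_one_of_cm h2 h'.symm]
  · obtain ⟨d, hd, -, e⟩ := k.ex ha a1
    exact k'.inj h1 h2 ((th_of_cm hc k k' h1 hd e ha h).symm.trans (th_of_cm hc k k' h2 hd e ha h'))

/-- the element `s` inducing `θ : A → C` -/
theorem th_exists (hA : Cm A A) (hD : Cm D D) {a c d : G} (ha : a ∈ A) (hc' : c ∈ C) (hd : d ∈ D)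
    (e : cj d A = cj a D) (e' : cj d C = cj c D) : ⁅c * a⁻¹, d⁆ ∈ 𝐂 D ∧ cj ⁅c * a⁻¹, d⁆ A = C ∧
      ∀ x ∈ A, Cm (cj x D) (cj (⁅c * a⁻¹, d⁆ * x * ⁅c * a⁻¹, d⁆⁻¹) D) := by
  have q : Cm (cj a D) (cj c D) := hc.of_eq d e e'
  have q1 : Cm D (cj (a * c⁻¹) D) := q.symm.of_eq c⁻¹ (cj_inv_cj _ _) (by rw [cj_cj, hc a ha _ (inv_mem hc')])
  have q2 : Cm (cj a⁻¹ D) (cj c⁻¹ D) := q1.of_eq a⁻¹ rfl (by rw [cj_cj, inv_mul_cancel_left])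
  obtain ⟨d', hd', -, f⟩ := k.ex (inv_mem ha) (inv_ne_one.2 (k.ne_one hd e))
  have f' := th_of_cm hc k k' (inv_mem hc') hd' f (inv_mem ha) q2
  have ht : a * c⁻¹ ∈ 𝐂 A := mul_mem (hA.le ha) (hc.symm.le (inv_mem hc'))
  have g1 : cj (d⁻¹ * a * d') A = D := by rw [← cj_cj, f, cj_cj, mul_inv_cancel_right, cj_self (inv_mem hd)]
  have g2 : cj (d⁻¹ * a * d') C = cj (a * c⁻¹) D := by
    rw [← cj_cj, f', cj_cj, mul_assoc, ← cj_cj, q1.cj_eq (inv_mem hd)]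
  have g3 : cj (d⁻¹ * a * d') D = A := by rw [cj_mul_of_mem _ hd', ← cj_cj, ← e, cj_inv_cj]
  have s1 : (d⁻¹ * a * d')⁻¹ * (a * c⁻¹) * (d⁻¹ * a * d') ∈ 𝐂 D := by
    rw [← mem_cj, cj_centralizer, g3]; exact ht
  have s2 : cj ((d⁻¹ * a * d')⁻¹ * (a * c⁻¹) * (d⁻¹ * a * d')) A = C := by
    rw [← cj_cj, g1, ← cj_cj, ← g2, cj_inv_cj]
  have s3 : ∀ x ∈ A, Cm (cj x D) (cj ((d⁻¹ * a * d')⁻¹ * (a * c⁻¹) * (d⁻¹ * a * d') * x *
      ((d⁻¹ * a * d')⁻¹ * (a * c⁻¹) * (d⁻¹ * a * d'))⁻¹) D) := fun x hx => by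
    rw [cj_cent (inv_mem s1), ← cm_cj_iff (g := d⁻¹ * a * d')]
    generalize d⁻¹ * a * d' = g at *
    have e1 : cj g (cj x D) = cj (g * x * g⁻¹) A := by rw [← g3, cj_cj, cj_cj, inv_mul_cancel_right]
    have e2 : cj g (cj (g⁻¹ * (a * c⁻¹) * g * x) D) = cj (a * c⁻¹) (cj (g * x * g⁻¹) A) := by
      rw [← e1, cj_cj, cj_cj, cj_cj]; congr 1; group
    rw [e1, e2]
    by_cases h1 : g * x * g⁻¹ = 1
    · rw [h1, cj_one, cj_eq_self (centralizer_le_normalizer _ ht)]; exact hA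
    · obtain ⟨a', ha', -, e3⟩ := k.ex' (g1 ▸ conj_mem_cj.2 hx) h1
      rw [e3, cj_cj, ← mem_centralizer_sub.1 ht a' ha', ← cj_cj]
      exact q1.conj a'
  have s4 := th_uniq hc k k' ha (s2 ▸ conj_mem_cj.2 ha) hc' (s3 a ha) q
  have s5 := mem_centralizer_sub.1 s1 d' hd'
  have : (d⁻¹ * a * d')⁻¹ * (a * c⁻¹) * (d⁻¹ * a * d') = ⁅c * a⁻¹, d⁆ := by
    generalize hs : (d⁻¹ * a * d')⁻¹ * (a * c⁻¹) * (d⁻¹ * a * d') = s at *
    have e1 : s = a⁻¹ * (d * (a * c⁻¹) * d⁻¹) * a := by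
      calc s = d' * s * d'⁻¹ := by rw [s5]; group
        _ = _ := by rw [← hs]; group
    calc s = (a * c⁻¹)⁻¹ * (a * s * a⁻¹) := by rw [← s4]; group
      _ = _ := by nth_rewrite 1 [e1]; group
  rw [← this]
  exact ⟨s1, s2, s3⟩

include hne in
theorem RS.sp_of_cm (hS : RS S) (hA : A ∈ S) (hC : C ∈ S) (hD : D ∈ S) : Sp A D := by
  intro a ha d hd e
  obtain ⟨c, hc', c1, e'⟩ := k'.ex' hd (k.ne_one' ha e)
  have q : Cm (cj a D) (cj c D) := hc.of_eq d e e'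
  have q1 : Cm D (cj (a * c⁻¹) D) := q.symm.of_eq c⁻¹ (cj_inv_cj _ _) (by rw [cj_cj, hc a ha _ (inv_mem hc')])
  have q2 : Cm (cj a⁻¹ D) (cj c⁻¹ D) := q1.of_eq a⁻¹ rfl (by rw [cj_cj, inv_mul_cancel_left])
  obtain ⟨d', hd', -, f⟩ := k.ex (inv_mem ha) (inv_ne_one.2 (k.ne_one hd e))
  have f' := th_of_cm hc k k' (inv_mem hc') hd' f (inv_mem ha) q2
  obtain ⟨-, s2, s3⟩ := th_exists hc k k' (hS.cm hA) (hS.cm hD) ha hc' hd e e'
  obtain ⟨r1, r2, r3⟩ := th_exists hc k k' (hS.cm hA) (hS.cm hD) (inv_mem ha) (inv_mem hc') hd' f f'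
  rw [inv_inv, ← hc a ha _ (inv_mem hc')] at r1 r2 r3
  have ht : a * c⁻¹ ∈ 𝐂 A := mul_mem ((hS.cm hA).le ha) (hc.symm.le (inv_mem hc'))
  have ht' : a * c⁻¹ ∈ 𝐂 C := mul_mem (hc.le ha) ((hS.cm hC).le (inv_mem hc'))
  have e1 : c * a⁻¹ = (a * c⁻¹)⁻¹ := by group
  rw [e1] at s2 s3
  generalize htt : a * c⁻¹ = t at *
  have y1 : (t * ⁅t⁻¹, d⁆ * t⁻¹)⁻¹ * ⁅t, d'⁆ ∈ 𝐂 D := by
    refine mul_mem (inv_mem ?_) r1
    have : t * ⁅t⁻¹, d⁆ * t⁻¹ = d * (t * d⁻¹ * t⁻¹) := by group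
    rw [this]
    exact mul_mem ((hS.cm hD).le hd) (q1.symm.le (conj_mem_cj.2 (inv_mem hd)))
  have y2 : (t * ⁅t⁻¹, d⁆ * t⁻¹)⁻¹ * ⁅t, d'⁆ ∈ 𝐂 A := mem_centralizer_sub.2 fun x hx => by
    have m := s2 ▸ conj_mem_cj.2 hx
    have u := th_uniq hc k k' hx m (r2 ▸ conj_mem_cj.2 hx) (s3 x hx) (r3 x hx)
    have u1 := mem_centralizer_sub.1 ht x hx
    have u2 := mem_centralizer_sub.1 ht' _ m
    generalize ⁅t⁻¹, d⁆ = s at *
    generalize ⁅t, d'⁆ = s' at *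
    calc x * ((t * s * t⁻¹)⁻¹ * s') = (x * t) * s⁻¹ * t⁻¹ * s' := by group
      _ = t * s⁻¹ * ((s * x * s⁻¹) * t⁻¹) * s' := by rw [u1]; group
      _ = t * s⁻¹ * t⁻¹ * ((s * x * s⁻¹) * t * t⁻¹) * s' := by rw [u2]; group
      _ = _ := by rw [u]; group
  have e2 : t * (d * d') * t⁻¹ = (d * d') * ((t * ⁅t⁻¹, d⁆ * t⁻¹)⁻¹ * ⁅t, d'⁆) := by
    rw [mem_centralizer_sub.1 y1 _ (mul_mem hd hd')]
    calc _ = (t * ⁅t⁻¹, d⁆ * t⁻¹)⁻¹ * (d * ⁅t, d'⁆) * d' := by group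
      _ = _ := by rw [mem_centralizer_sub.1 r1 d hd]; group
  by_cases h1 : d * d' = 1
  · rw [← f, eq_inv_of_mul_eq_one_right h1]
  have h2 := hS.cent k.symm hA (hS.conj hD t) (mul_mem hd hd') h1 y1 y2 (e2 ▸ conj_mem_cj.2 (mul_mem hd hd'))
  rw [h2, mul_one] at e2
  have h3 := NI.eq ⟨A, hA, k.symm⟩ hS (hS.conj hD t) (mul_mem hd hd') h1 (e2 ▸ conj_mem_cj.2 (mul_mem hd hd'))
  rw [← htt, hc a ha _ (inv_mem hc'), ← cj_cj, cj_eq_iff, inv_inv, ← e, ← e', cj_inj] at h3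
  exact absurd h3 hne

omit hc k k' in
theorem cm_cj_comm {t d : G} (k : RO A D) (ht : t ∈ 𝐂 A) (q : Cm D (cj t D)) (q' : cj t D ≠ D) (hd : d ∈ D)
    (d1 : d ≠ 1) : Cm A (cj ⁅t, d⁆ A) ∧ cj ⁅t, d⁆ A ≠ A := by
  obtain ⟨a, ha, -, e⟩ := k.ex' hd d1
  have e1 : cj d (cj ⁅t, d⁆ A) = cj a (cj t D) := by
    have : d * ⁅t, d⁆ = t * d * t⁻¹ := by
      rw [commutatorElement_def, ← mul_assoc, q d hd _ (conj_mem_cj.2 hd), mul_inv_cancel_right]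
    rw [cj_cj, this, cj_cent (inv_mem ht), ← cj_cj, e, cj_cj, ← mem_centralizer_sub.1 ht a ha, cj_cj]
  refine ⟨cm_cj_iff.1 (by rw [e1, e]; exact q.conj a), fun h => q' ?_⟩
  rwa [h, e, cj_inj, eq_comm] at e1

include hne in
theorem RS.no_big (hS : RS S) (hA : A ∈ S) (hC : C ∈ S) (hD : D ∈ S) (r : RO A B)
    (h : ∀ E ∈ S, E ≠ A → Cm A E → Cm E B) {d : G} (hd : d ∈ D) : d ^ 2 = 1 ∨ d ^ 3 = 1 := by
  by_contra h0
  push Not at h0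
  have d1 : d ≠ 1 := fun e => h0.1 (by rw [e, one_pow])
  obtain ⟨a, ha, a1, e⟩ := k.ex' hd d1
  obtain ⟨c, hc', c1, e'⟩ := k'.ex' hd d1
  have q : Cm (cj a D) (cj c D) := hc.of_eq d e e'
  obtain ⟨s1, s2, s3⟩ := th_exists hc k k' (hS.cm hA) (hS.cm hD) ha hc' hd e e'
  have s4 := th_uniq hc k k' ha (s2 ▸ conj_mem_cj.2 ha) hc' (s3 a ha) q
  have q1 : Cm D (cj (c * a⁻¹) D) := q.of_eq a⁻¹ (cj_inv_cj _ _) (by rw [cj_cj, hc _ (inv_mem ha) c hc'])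
  have q2 : Cm (cj (c * a⁻¹)⁻¹ D) (cj (c * a⁻¹) D) := by
    have := s3 _ (mul_mem ha ha)
    rw [← conj_mul, s4] at this
    refine this.of_eq (a⁻¹ * c⁻¹) ?_ ?_ <;> rw [cj_cj] <;> congr 1
    · rw [mul_assoc, ← mul_assoc c⁻¹, ← hc a ha _ (inv_mem hc'), mul_assoc, ← hc a ha _ (inv_mem hc')]; group
    · rw [← hc _ (inv_mem ha) c hc']; group
  have q3 : cj (c * a⁻¹) D ≠ D := fun h1 => hne (by
    rw [← hc _ (inv_mem ha) c hc', ← cj_cj, cj_eq_iff, inv_inv, ← e, ← e', cj_inj] at h1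
    exact h1.symm)
  have ht : c * a⁻¹ ∈ 𝐂 A := mul_mem (hc.symm.le hc') ((hS.cm hA).le (inv_mem ha))
  have ht' : c * a⁻¹ ∈ 𝐂 C := mul_mem ((hS.cm hC).le hc') (hc.le (inv_mem ha))
  have hta : c * a⁻¹ = ⁅c * a⁻¹, d⁆ * a * ⁅c * a⁻¹, d⁆⁻¹ * a⁻¹ := by rw [s4]
  generalize c * a⁻¹ = t at *
  have p : ∀ n : ℕ, ⁅t, d ^ n⁆ = ⁅t, d⁆ ^ n := fun n => by
    rw [commutatorElement_def, commutatorElement_def, Commute.mul_pow
      (q1 _ (inv_mem hd) _ (conj_mem_cj.2 hd)).symm, conj_pow, inv_pow]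
  have m2 := cm_cj_comm k ht q1 q3 (pow_mem hd 2) h0.1
  have m3 := cm_cj_comm k ht q1 q3 (pow_mem hd 3) h0.2
  rw [p] at m2 m3
  have b1 := (h C hC hne.symm hc).le hc'
  have b2 := (h _ (hS.conj hA _) m2.2 m2.1).le (conj_mem_cj.2 ha)
  have b3 := (h _ (hS.conj hA _) m3.2 m3.1).le (conj_mem_cj.2 ha)
  -- `σ = t⁻¹ s t` commutes with `s`
  have w1 : t⁻¹ * ⁅t, d⁆ * t ∈ 𝐂 D := by
    have : t⁻¹ * ⁅t, d⁆ * t = d * (t⁻¹ * d⁻¹ * t⁻¹⁻¹) := by group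
    rw [this]
    exact mul_mem ((hS.cm hD).le hd) ((q1.of_eq t⁻¹ rfl (cj_inv_cj _ _)).le (conj_mem_cj.2 (inv_mem hd)))
  have w2 : t⁻¹ * ⁅t, d⁆ * t ∈ 𝐂 (cj t D) := by
    have : t⁻¹ * ⁅t, d⁆ * t = d * (t⁻¹ * d⁻¹ * t⁻¹⁻¹) := by group
    rw [this]
    exact mul_mem (q1.le hd) (q2.le (conj_mem_cj.2 (inv_mem hd)))
  have w3 : ⁅t, d⁆ * (t⁻¹ * ⁅t, d⁆ * t) = (t⁻¹ * ⁅t, d⁆ * t) * ⁅t, d⁆ := by
    refine (mem_centralizer_sub (H := cj t D ⊔ D)).1 (by rw [centralizer_sup]; exact ⟨w2, w1⟩) _ ?_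
    exact mul_mem (mem_sup_left (conj_mem_cj.2 hd)) (mem_sup_right (inv_mem hd))
  rw [← s4] at b1
  generalize ⁅t, d⁆ = s at *
  have e3 : a = (s * a * s⁻¹) * (s ^ 2 * a * (s ^ 2)⁻¹)⁻¹ * (s ^ 3 * a * (s ^ 3)⁻¹) * (s ^ 2 * a * (s ^ 2)⁻¹)⁻¹ *
      ((s * a * s⁻¹)⁻¹ * (s ^ 2 * a * (s ^ 2)⁻¹) * (s * a * s⁻¹)⁻¹)⁻¹ := by
    rw [eq_mul_inv_iff_mul_eq]
    calc _ = (t⁻¹ * s * t) * s⁻¹ := by rw [hta]; group
      _ = s * (t⁻¹ * s * t) * s⁻¹ * s⁻¹ := by rw [w3]; group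
      _ = _ := by rw [hta]; group
  exact a1 (r.nb' ha (centralizer_le_normalizer _ (e3 ▸ mul_mem (mul_mem (mul_mem (mul_mem b1 (inv_mem b2)) b3)
    (inv_mem b2)) (inv_mem (mul_mem (mul_mem (inv_mem b1) b2) (inv_mem b1))))))

end deg

theorem RS.exists_common (hS : RS S) (hd : IsDegenerateRootSet S) (hA : A ∈ S) (hN : NI S A) (h : Rt S A C) :
    RO A C ∨ ∃ D ∈ S, RO A D ∧ RO C D := by
  induction h with
  | refl => exact Or.inr (hN.imp fun _ k => ⟨k.1, k.2, k.2⟩)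
  | @tail E E' _ q ih =>
    have r : RO E E' := q.2.2
    rcases ih with k | ⟨D, hD, k1, k2⟩
    · exact Or.inr ⟨E, q.1, k, r.symm⟩
    by_cases h1 : Cm A E
    · by_cases h2 : Cm E' D
      · obtain ⟨d, hd', d1⟩ := hS.exists_ne hD
        obtain ⟨a, ha, -, e⟩ := k1.ex' (inv_mem hd') (inv_ne_one.2 d1)
        exact Or.inr ⟨_, hS.conj q.1 d, (k2.symm.of_eq a e.symm (h1.cj_eq ha)).of_eq d (cj_cj_inv _ _) rfl,
          r.symm.of_eq d (h2.cj_eq' hd') rfl⟩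
      · exact Or.inr ⟨D, hD, k1, hS.di hd q.2.1 hD h2⟩
    · exact Or.inr ⟨E, q.1, hS.di hd hA q.1 h1, r.symm⟩

/-- same commuting partners -/
def Eqv (S : Set (Subgroup G)) (E E' : Subgroup G) : Prop := ∀ F ∈ S, (Cm F E ∧ F ≠ E) ↔ (Cm F E' ∧ F ≠ E')

theorem Eqv.refl (E : Subgroup G) : Eqv S E E := fun _ _ => Iff.rfl
theorem Eqv.symm (h : Eqv S A B) : Eqv S B A := fun F hF => (h F hF).symm
theorem Eqv.trans (h : Eqv S A B) (h' : Eqv S B C) : Eqv S A C := fun F hF => (h F hF).trans (h' F hF)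

theorem Eqv.conj (h : Eqv S A B) (hS : RS S) (g : G) : Eqv S (cj g A) (cj g B) := fun F hF => by
  have := h _ (hS.conj hF g⁻¹)
  rwa [← cm_cj_iff (g := g), ← cm_cj_iff (g := g) (B := B), cj_cj_inv, Ne, Ne, cj_eq_iff, cj_eq_iff, inv_inv] at this

theorem RS.cent_diag (hS : RS S) (hA : A ∈ S) (hB : B ∈ S) (hC : C ∈ S) (hD : D ∈ S) (hc : Cm A C) (hc' : Cm B C)
    (hne : A ≠ C) (k1 : RO A D) (k2 : RO B D) (k' : RO C D) (h : Eqv S A B) {x a : G} (hx : x ∈ A ⊔ B) (ha : a ∈ A)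
    (ha' : x * a * x⁻¹ ∈ A) : x * a * x⁻¹ = a := by
  obtain ⟨d, hd, d1⟩ := hS.exists_ne hD
  obtain ⟨a0, ha0, -, e1⟩ := k1.ex' hd d1
  obtain ⟨b0, hb0, -, e2⟩ := k2.ex' hd d1
  obtain ⟨c0, hc0, -, e3⟩ := k'.ex' hd d1
  obtain ⟨-, s2, s3⟩ := th_exists hc k1 k' (hS.cm hA) (hS.cm hD) ha0 hc0 hd e1 e3
  obtain ⟨-, r2, r3⟩ := th_exists hc' k2 k' (hS.cm hB) (hS.cm hD) hb0 hc0 hd e2 e3
  generalize ⁅c0 * a0⁻¹, d⁆ = s at s2 s3
  generalize ⁅c0 * b0⁻¹, d⁆ = r at r2 r3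
  have m1 : ∀ b ∈ B, s⁻¹ * (r * b * r⁻¹) * s ∈ A := fun b hb => by rw [← mem_cj, s2, ← r2]; exact conj_mem_cj.2 hb
  have m2 : ∀ a ∈ A, r⁻¹ * (s * a * s⁻¹) * r ∈ B := fun a ha => by rw [← mem_cj, r2, ← s2]; exact conj_mem_cj.2 ha
  have key : ∀ b ∈ B, Eqv S (cj b D) (cj (s⁻¹ * (r * b * r⁻¹) * s) D) := fun b hb => by
    by_cases b1 : b = 1
    · simpa [b1] using Eqv.refl D
    obtain ⟨d', hd', d1', e⟩ := k2.ex hb b1
    obtain ⟨a', ha', -, e'⟩ := k1.ex' hd' d1'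
    have hcm := r2 ▸ conj_mem_cj.2 hb
    have f := th_of_cm hc' k2 k' hcm hd' e hb (r3 b hb)
    have := th_uniq hc k1 k' ha' (s2 ▸ conj_mem_cj.2 ha') hcm (s3 a' ha') (hc.of_eq d' e' f)
    rw [← this, ← e, show s⁻¹ * (s * a' * s⁻¹) * s = a' by group, ← e']
    exact (h.conj hS d').symm
  let K : Subgroup G :=
    { carrier := {x | ∃ a ∈ A, ∀ a' ∈ A, Eqv S (cj (x * a') D) (cj (a * a') D)}
      one_mem' := ⟨1, one_mem _, fun _ _ => Eqv.refl _⟩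
      mul_mem' := fun {x y} ⟨a, ha, p⟩ ⟨b, hb, q⟩ => ⟨a * b, mul_mem ha hb, fun a' ha' => by
        have := (q a' ha').conj hS x
        rw [cj_cj, cj_cj, ← mul_assoc] at this
        exact this.trans (mul_assoc a b a' ▸ p _ (mul_mem hb ha'))⟩
      inv_mem' := fun {x} ⟨a, ha, p⟩ => ⟨a⁻¹, inv_mem ha, fun a' ha' => by
        have := (p _ (mul_mem (inv_mem ha) ha')).conj hS x⁻¹
        rw [cj_cj, cj_cj, inv_mul_cancel_left, mul_inv_cancel_left] at this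
        exact this.symm⟩ }
  have hK : A ⊔ B ≤ K := sup_le (fun a ha => ⟨a, ha, fun _ _ => Eqv.refl _⟩) fun b hb =>
    ⟨_, m1 b hb, fun a' ha' => by
      have p1 := (key _ (m2 a' ha')).conj hS b
      have p2 := key _ (mul_mem hb (m2 a' ha'))
      rw [cj_cj, cj_cj, show s⁻¹ * (r * (r⁻¹ * (s * a' * s⁻¹) * r) * r⁻¹) * s = a' by group] at p1
      rw [show s⁻¹ * (r * (b * (r⁻¹ * (s * a' * s⁻¹) * r)) * r⁻¹) * s = s⁻¹ * (r * b * r⁻¹) * s * a' by group] at p2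
      exact p1.symm.trans p2⟩
  obtain ⟨y, hy, p⟩ := hK hx
  have p1 := p a ha
  have p2 := (p 1 (one_mem _)).conj hS (x * a * x⁻¹)
  rw [cj_cj, cj_cj, mul_one, mul_one, inv_mul_cancel_right] at p2
  have p3 := (p1.symm.trans p2).conj hS (y * a)⁻¹
  rw [cj_inv_cj, cj_cj, hS.cm hA _ ha' y hy, mul_inv_rev, mul_assoc, inv_mul_cancel_left] at p3
  have hz := mul_mem (inv_mem ha) ha'
  by_contra h0
  have z1 : a⁻¹ * (x * a * x⁻¹) ≠ 1 := fun e => h0 (inv_mul_eq_one.1 e).symm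
  generalize a⁻¹ * (x * a * x⁻¹) = z at p3 hz z1
  have hcm := s2 ▸ conj_mem_cj.2 hz
  obtain ⟨d', hd', -, e⟩ := k1.ex hz z1
  have := (p3 _ (hS.conj hD (s * z * s⁻¹))).2 ⟨(s3 z hz).symm, fun q => hne (by
    rw [← cj_inj (g := d'), e, th_of_cm hc k1 k' hcm hd' e hz (s3 z hz), q])⟩
  exact z1 (conj_eq_one_iff.1 (k'.eq_one_of_cm hcm this.1))

theorem exists_sq_ne_one {k : Type*} [Field k] (h : 3 < ENat.card k) : ∃ x : k, x ≠ 0 ∧ x ^ 2 ≠ 1 := by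
  classical
  by_contra h0
  push Not at h0
  have : (Set.univ : Set k) ⊆ ({0, 1, -1} : Finset k) := fun x _ => by
    by_cases k1 : x = 0
    · simp [k1]
    · rcases mul_self_eq_one_iff.1 (show x * x = 1 by rw [← sq]; exact h0 x k1) with e | e <;> simp [e]
  have k1 := Set.encard_le_encard this
  rw [Set.encard_coe_eq_coe_finsetCard, Set.encard_univ] at k1
  have k2 : (({0, 1, -1} : Finset k).card : ℕ∞) ≤ 3 := by exact_mod_cast Finset.card_le_three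
  exact absurd (h.trans_le (k1.trans k2)) (lt_irrefl _)

theorem exists_diag {k : Type*} [Field k] (h : 3 < ENat.card k) (p : IsPSL2PairOver k A B) :
    ∃ x ∈ A ⊔ B, ∃ a ∈ A, x * a * x⁻¹ ∈ A ∧ x * a * x⁻¹ ≠ a := by
  obtain ⟨φ, h1, h2, rfl, rfl⟩ := p
  obtain ⟨x, x0, x1⟩ := exists_sq_ne_one h
  have e : φ (SL2Torus.dg (Units.mk0 x x0)) * φ (SL2Unip.u 1) * (φ (SL2Torus.dg (Units.mk0 x x0)))⁻¹ =
      φ (SL2Unip.u (x ^ 2)) := by rw [← map_inv, ← map_mul, ← map_mul, SL2Unip.dg_conj_u, mul_one]; rfl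
  refine ⟨φ (SL2Torus.dg (Units.mk0 x x0)), h1 ▸ ⟨_, rfl⟩, φ (SL2Unip.u 1), ⟨_, mem_up.2 ⟨1, rfl⟩, rfl⟩,
    e ▸ ⟨_, mem_up.2 ⟨_, rfl⟩, rfl⟩, fun q => x1 ?_⟩
  rw [e, ← mul_inv_eq_one, ← map_inv, ← map_mul, SL2Unip.u_inv, ← SL2Unip.u_add] at q
  have := ro_sl2.nb' (mem_up.2 ⟨_, rfl⟩) (center_le_normalizer _ (h2 q))
  rw [SL2Unip.u_eq_one_iff] at this
  linear_combination this

theorem RS.sp_deg (hS : RS S) (cl : ∀ A ∈ S, ∀ B ∈ S, ∃ g, B = cj g A) (hd : IsDegenerateRootSet S)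
    (hcomm : ∃ A ∈ S, ∃ C ∈ S, A ≠ C ∧ ⁅A, C⁆ = ⊥) (hA : A ∈ S) (hB : B ∈ S) (k : RO A B)
    (hH : (∀ A ∈ S, ∀ a ∈ A, a ^ 2 = 1 ∨ a ^ 3 = 1) → ∃ x ∈ A ⊔ B, ∃ a ∈ A, x * a * x⁻¹ ∈ A ∧ x * a * x⁻¹ ≠ a) :
    Sp A B := by
  by_cases h0 : ∃ C ∈ S, C ≠ A ∧ Cm A C ∧ RO C B
  · obtain ⟨C, hC, h1, h2, h3⟩ := h0
    exact RS.sp_of_cm h2 h1.symm k h3 hS hA hC hB
  exfalso
  have h : ∀ E ∈ S, E ≠ A → Cm A E → Cm E B := fun E hE h1 h2 => by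
    by_contra h3
    exact h0 ⟨E, hE, h1, h2, hS.di hd hE hB h3⟩
  obtain ⟨C, hC, h1, h2⟩ : ∃ C ∈ S, A ≠ C ∧ Cm A C := by
    obtain ⟨A', hA', C, hC, h1, h2⟩ := hcomm
    obtain ⟨g, rfl⟩ := cl A' hA' A hA
    exact ⟨_, hS.conj hC g, fun e => h1 (cj_inj.1 e), (cm_iff_bot.2 h2).conj g⟩
  obtain ⟨g, e⟩ := cl A hA C hC
  obtain ⟨D, hD, k1, k2⟩ := (hS.exists_common hd hA ⟨B, hB, k⟩ (e ▸ hS.rt_cj hA ⟨B, hB, k⟩ g)).resolve_left
    fun q => q.not_cm h2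
  obtain ⟨x, hx, a, ha, h3, h4⟩ := hH fun E hE y hy => by
    obtain ⟨g, rfl⟩ := cl D hD E hE
    obtain ⟨d, hd', rfl⟩ := mem_cj'.1 hy
    rw [conj_pow, conj_pow, conj_eq_one_iff, conj_eq_one_iff]
    exact RS.no_big h2 h1 k1 k2 hS hA hC hD k h hd'
  obtain ⟨y, -, y1, y2⟩ := k.swap
  have q : Eqv S A B := fun F hF => ⟨fun p => ⟨h F hF p.2 p.1.symm, fun e => k.not_cm (e ▸ p.1).symm⟩, fun p =>
    ⟨(h _ (hS.conj hF y) (fun e => p.2 (cj_inj.1 (e.trans y2.symm))) (p.1.symm.of_eq y y2 rfl)).of_eq y⁻¹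
      (cj_inv_cj _ _) (by rw [← y1, cj_inv_cj]), fun e => k.not_cm (e ▸ p.1)⟩⟩
  have h5 := (h C hC h1.symm h2).symm
  refine h4 (hS.cent_diag hA hB hC hD h2 h5 h1 k1 (hS.di hd hB hD fun p => ?_) k2 q hx ha h3)
  exact k1.not_cm ((q D hD).2 ⟨p.symm, fun e => k2.not_cm (e ▸ h5.symm)⟩).1.symm

end CA.Root
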